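import Cfsg.Agent.H25.CSF

set_option autoImplicit false
set_option linter.unusedSectionVars false
set_option linter.unusedVariables false

namespace Cfsg.Agent.H25.CS3

open Subgroup

variable {G : Type*} [Group G] [Finite G]

/-- conjugation action of a subgroup on an invariant set -/
@[reducible] def conjAct (N : Subgroup G) (X : Set G) (h : ∀ g ∈ N, ∀ x ∈ X, g * x * g⁻¹ ∈ X) : MulAction N X where
  smul := fun g x => ⟨(g : G) * x * (g : G)⁻¹, h g g.2 x x.2⟩
  one_smul := by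
    intro x
    apply Subtype.ext
    show ((1 : N) : G) * x * ((1 : N) : G)⁻¹ = x
    simp
  mul_smul := by
    intro a b x
    apply Subtype.ext
    show ((a * b : N) : G) * x * ((a * b : N) : G)⁻¹ = (a : G) * ((b : G) * x * (b : G)⁻¹) * (a : G)⁻¹
    rw [Subgroup.coe_mul]; group

namespace Hyp

variable {m n : ℕ} (H : Hyp G m n) {M : Subgroup G} (hM : MHyp m M)

include H hM

theorem M_le_N : M ≤ normalizer (M : Set G) := le_normalizer

theorem N_index_dvd : (normalizer (M : Set G)).index ∣ m := by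
  rw [← hM.idx]; exact index_dvd_of_le le_normalizer

theorem rel_dvd : M.relIndex (normalizer (M : Set G)) ∣ m := by
  have := relIndex_mul_index (le_normalizer : M ≤ normalizer (M : Set G))
  rw [hM.idx] at this
  exact Dvd.intro _ this

/-- (i) -/
theorem c_mod {s : ℕ} [hs : Fact s.Prime] (hsn : s ∣ n) {S : Subgroup G} (hSM : S ≤ M) (hS : IsPGroup s S) :
    (center G).relIndex S ∣ (normalizer (M : Set G)).index - 1 := by
  set N := normalizer (M : Set G) with hN
  have h1 := dvd_card_sub_one (A := S) (X := G ⧸ N) ((center G).relIndex S) ((1 : G) : G ⧸ N) ?_ ?_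
  · rwa [← index_eq_card] at h1
  · intro a
    show (((a : G) * 1 : G) : G ⧸ N) = ((1 : G) : G ⧸ N)
    rw [QuotientGroup.eq, mul_one, mul_one]
    exact inv_mem (le_normalizer (hSM a.2))
  · intro x hx
    induction x using QuotientGroup.induction_on with
    | H g =>
    rw [Nat.card_congr (MulAction.orbitEquivQuotientStabilizer S ((g : G) : G ⧸ N)), ← index_eq_card]
    apply index_dvd_of_le
    intro t ht
    rw [mem_subgroupOf]
    have h2 : (((t : G) * g : G) : G ⧸ N) = ((g : G) : G ⧸ N) := ht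
    rw [eq_comm, QuotientGroup.eq] at h2
    have h3 : g⁻¹ * (t : G) * g ∈ N := by
      have e : g⁻¹ * (t : G) * g = g⁻¹ * ((t : G) * g) := by group
      rw [e]; exact h2
    have h4 : ∃ k, orderOf (g⁻¹ * (t : G) * g) = s ^ k := by
      have := conj_relem (g := g⁻¹) (H24.exists_orderOf_eq_pow_of_mem hS t.2)
      rwa [inv_inv] at this
    have h5 : g⁻¹ * (t : G) * g ∈ M := by
      apply mem_of_normal (le_normalizer : M ≤ N) _ _ h3 h4
      · rw [H.vM_n hM hsn]; exact v_mono s le_top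
      · intro k hk c hc
        exact (mem_normalizer_iff.1 hk c).1 hc
    by_contra htZ
    apply hx
    have h6 := norm_of hM (g := g⁻¹) (hSM t.2) htZ (by rwa [inv_inv])
    rw [QuotientGroup.eq, mul_one]
    exact h6

/-- (ii) -/
theorem j_dvd {s : ℕ} [hs : Fact s.Prime] (hsn : s ∣ n) {S : Subgroup G} (hSM : S ≤ M) (hS : IsPGroup s S)
    (hall : ∀ c ∈ M, (∃ k, orderOf c = s ^ k) → c ∈ S) :
    M.relIndex (normalizer (M : Set G)) ∣ (center G).relIndex S - 1 := by
  classical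
  set N := normalizer (M : Set G) with hN
  set X : Set G := {t | t ∈ S ∧ t ∉ center G} with hX
  have hinv : ∀ g ∈ N, ∀ x ∈ X, g * x * g⁻¹ ∈ X := by
    intro g hg x hx
    refine ⟨?_, by rw [conj_center]; exact hx.2⟩
    apply hall _ ((mem_normalizer_iff.1 hg x).1 (hSM hx.1))
    exact conj_relem (H24.exists_orderOf_eq_pow_of_mem hS hx.1)
  letI := conjAct N X hinv
  have h1 : M.relIndex N ∣ Nat.card X := by
    apply dvd_card_of_orbit (A := N)
    intro x
    rw [Nat.card_congr (MulAction.orbitEquivQuotientStabilizer N x), ← index_eq_card]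
    apply index_dvd_of_le
    intro g hg
    rw [mem_subgroupOf]
    have h2 : (g : G) * x * (g : G)⁻¹ = x := congrArg Subtype.val (show g • x = x from hg)
    rw [← hM.cz_eq x (hSM x.2.1) x.2.2, mem_cz]
    calc (g : G) * x = ((g : G) * x * (g : G)⁻¹) * g := by group
      _ = x * g := by rw [h2]
  have h2 : Nat.card X + Nat.card (center G ⊓ S : Subgroup G) = Nat.card S := by
    have e1 : (S : Set G) = X ∪ ((center G ⊓ S : Subgroup G) : Set G) := by
      ext t
      simp only [hX, SetLike.mem_coe, Set.mem_union, Set.mem_ofPred_eq, Subgroup.mem_inf]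
      tauto
    have e2 : Disjoint X ((center G ⊓ S : Subgroup G) : Set G) := by
      rw [Set.disjoint_left]
      intro t ht ht2
      exact ht.2 ht2.1
    have e3 := Set.ncard_union_eq e2 (Set.toFinite _) (Set.toFinite _)
    rw [← e1] at e3
    have e4 : Nat.card X = X.ncard := rfl
    have e5 : Nat.card (center G ⊓ S : Subgroup G) = ((center G ⊓ S : Subgroup G) : Set G).ncard := rfl
    have e6 : Nat.card S = (S : Set G).ncard := rfl
    rw [e4, e5, e6, e3]
  have h3 : Nat.card (center G ⊓ S : Subgroup G) * (center G).relIndex S = Nat.card S := by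
    have := relIndex_mul_relIndex ⊥ (center G ⊓ S) S bot_le inf_le_right
    rw [relIndex_bot_left, relIndex_bot_left, inf_relIndex_right] at this
    exact this
  have h4 : Nat.card X = Nat.card (center G ⊓ S : Subgroup G) * ((center G).relIndex S - 1) := by
    rw [Nat.mul_sub, mul_one, h3]
    omega
  rw [h4] at h1
  apply Nat.Coprime.dvd_of_dvd_mul_left _ h1
  -- coprimality
  have hcop : m.Coprime (Nat.card (center G ⊓ S : Subgroup G)) := by
    rw [card_rgroup (hS.to_le inf_le_right)]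
    apply Nat.Coprime.pow_right
    rw [Nat.coprime_comm, Nat.Prime.coprime_iff_not_dvd hs.out]
    exact fun h => H.not_dvd_n hs.out h hsn
  exact Nat.Coprime.coprime_dvd_left (H.rel_dvd hM) hcop

/-- (iii) analysis of one prime -/
theorem one_prime {r : ℕ} [hr : Fact r.Prime] (hrc : r ∣ (normalizer (M : Set G)).index) :
    (normalizer (M : Set G)).index.factorization r ≤ (M.relIndex (normalizer (M : Set G))).factorization r := by
  set N := normalizer (M : Set G) with hN
  have hMN : M ≤ N := le_normalizer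
  have hNconj : ∀ k ∈ N, ∀ c ∈ M, k * c * k⁻¹ ∈ M := fun k hk c hc => (mem_normalizer_iff.1 hk c).1 hc
  have hrm : r ∣ m := hrc.trans (H.N_index_dvd hM)
  obtain ⟨s, hs, hsn⟩ := Nat.exists_prime_and_dvd (n := n) (by have := H.hn; omega)
  haveI : Fact s.Prime := ⟨hs⟩
  have hrs : r ≠ s := by rintro rfl; exact H.not_dvd_n hs hrm hsn
  obtain ⟨S, hSM, hS, hSv, hSZ, hSall⟩ := H.exists_S hM hsn
  obtain ⟨g0, hg0, hg0Z⟩ := H.exists_nc (r := r) (hrm.mul_right n)
  have hMZ : v r (center G) < v r M := by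
    rw [H.vM_eq hM hrm hg0Z]; exact H.vZ_lt hrm hg0Z
  -- R1
  obtain ⟨R1, -, hR1M, hR1, hR1v⟩ := exists_rsub r M ⊥ bot_le (IsPGroup.of_bot)
  obtain ⟨T, hR1T, hTN, hT, hTv⟩ := exists_rsub r N R1 (hR1M.trans hMN) hR1
  obtain ⟨R, hTR⟩ := hT.exists_le_sylow
  have hRv : v r (R : Subgroup G) = v r (⊤ : Subgroup G) := by
    rw [← not_dvd_index_iff hr.out]; exact R.not_dvd_index
  have hNv : v r N < v r (⊤ : Subgroup G) := by
    rcases lt_or_eq_of_le (v_mono r (le_top : N ≤ ⊤)) with h | h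
    · exact h
    · exact absurd hrc ((not_dvd_index_iff hr.out N).2 h)
  have hTlt : T < (R : Subgroup G) := by
    refine lt_of_le_of_ne hTR (fun h => ?_)
    rw [← h] at hRv
    omega
  have hRN : (R : Subgroup G) ⊓ N = T := by
    symm
    apply eq_of_v_eq (R.isPGroup'.to_le inf_le_left) (le_inf hTR hTN)
    rw [hTv]
    exact v_mono r inf_le_right
  obtain ⟨w, hwR, hwT, hwn⟩ := exists_norm_out R.isPGroup' hTlt
  have hwN : w ∉ N := fun h => hwT (by rw [← hRN]; exact Subgroup.mem_inf.2 ⟨hwR, h⟩)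
  have hwninv : ∀ t ∈ T, w⁻¹ * t * w ∈ T := by
    intro t ht
    have h1 := inv_mem (mem_norm hwn)
    have h2 := (mem_normalizer_iff.1 h1 t).1 ht
    rwa [inv_inv] at h2
  -- (A)
  have hA : ∀ t ∈ M, t ∉ center G → w * t * w⁻¹ ∉ M := fun t ht htZ h => hwN (norm_of hM ht htZ h)
  have hA' : ∀ c ∈ M, w⁻¹ * c * w ∈ M → c ∈ center G := by
    intro c hc h
    by_contra hcZ
    apply hwN
    have h1 := norm_of hM (g := w⁻¹) hc hcZ (by rwa [inv_inv])
    rw [← inv_inv w]
    exact inv_mem h1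
  -- (B)
  have hB : ∀ t ∈ R1, ∀ t1 ∈ R1, t * (w * t1 * w⁻¹) * t⁻¹ * (w * t1 * w⁻¹)⁻¹ ∈ center G := by
    intro t ht t1 ht1
    have ht' : w * t1 * w⁻¹ ∈ N := hTN (hwn t1 (hR1T ht1))
    have hwt : w⁻¹ * t * w ∈ N := hTN (hwninv t (hR1T ht))
    apply hA'
    · have e : t * (w * t1 * w⁻¹) * t⁻¹ * (w * t1 * w⁻¹)⁻¹ = t * ((w * t1 * w⁻¹) * t⁻¹ * (w * t1 * w⁻¹)⁻¹) := by group
      rw [e]
      exact mul_mem (hR1M ht) (hNconj _ ht' _ (inv_mem (hR1M ht)))
    · have e : w⁻¹ * (t * (w * t1 * w⁻¹) * t⁻¹ * (w * t1 * w⁻¹)⁻¹) * w =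
          ((w⁻¹ * t * w) * t1 * (w⁻¹ * t * w)⁻¹) * t1⁻¹ := by group
      rw [e]
      exact mul_mem (hNconj _ hwt _ (hR1M ht1)) (inv_mem (hR1M ht1))
  -- (C)
  have hC : ∀ t ∈ R1, t ∉ center G → ∀ t1 ∈ R1, t1 ∉ center G → t * (w * t1 * w⁻¹) ≠ (w * t1 * w⁻¹) * t := by
    intro t ht htZ t1 ht1 ht1Z h
    apply hA t1 (hR1M ht1) ht1Z
    rw [← hM.cz_eq t (hR1M ht) htZ]
    exact mem_cz.2 h.symm
  -- (D)
  have hD : ∀ t ∈ R1, t ^ r ∈ center G := by
    intro t ht
    by_contra hcon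
    have hex : ∃ k : ℕ, t ^ (r ^ k) ∈ center G := by
      obtain ⟨k, hk⟩ := H24.exists_orderOf_eq_pow_of_mem hR1 ht
      exact ⟨k, by rw [← hk, pow_orderOf_eq_one]; exact one_mem _⟩
    classical
    set K := Nat.find hex with hK
    have hK1 : t ^ (r ^ K) ∈ center G := Nat.find_spec hex
    have hK2 : ∀ k, k < K → t ^ (r ^ k) ∉ center G := fun k hk => Nat.find_min hex hk
    have hK3 : 2 ≤ K := by
      by_contra hlt
      push Not at hlt
      apply hcon
      interval_cases K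
      · rw [pow_zero, pow_one] at hK1
        exact pow_mem hK1 r
      · rwa [pow_one] at hK1
    obtain ⟨l, hl⟩ := Nat.exists_eq_add_of_le hK3
    set t2 := t ^ (r ^ l) with ht2
    have e1 : t2 ^ r = t ^ (r ^ (l + 1)) := by rw [ht2, ← pow_mul, ← pow_succ]
    have e2 : t2 ^ (r * r) = t ^ (r ^ K) := by
      rw [ht2, ← pow_mul, hl]
      congr 1
      ring
    have h1 : t2 ^ r ∉ center G := by rw [e1]; exact hK2 _ (by omega)
    have h2 : t2 ^ (r * r) ∈ center G := by rw [e2]; exact hK1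
    have ht2R : t2 ∈ R1 := pow_mem ht _
    obtain ⟨z, hz, hz2⟩ := comm_of_conj (hB t2 ht2R t2 ht2R)
    have h3 : z ^ (r * r) = 1 := by
      apply z_pow_one hz hz2
      rw [conj_pow, conj_center]
      exact h2
    have h4 := pow_comm_central hz hz2 r r
    rw [h3, one_mul, conj_pow] at h4
    exact hC _ (pow_mem ht2R r) h1 _ (pow_mem ht2R r) h1 h4
  -- conj on S
  have hNS : ∀ k ∈ N, ∀ c ∈ S, k * c * k⁻¹ ∈ S := by
    intro k hk c hc
    exact hSall _ (hNconj k hk c (hSM hc)) (conj_relem (H24.exists_orderOf_eq_pow_of_mem hS hc))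
  have hwR1N : ∀ t ∈ R1, w * t * w⁻¹ ∈ N := fun t ht => hTN (hwn t (hR1T ht))
  -- (E)
  have hE : v r M ≤ v r (center G) + 1 := by
    by_contra hcon
    push Not at hcon
    have hiv : v r (R1 ⊓ center G) ≤ v r (center G) := v_mono r inf_le_right
    obtain ⟨t1, ht1, ht1Z⟩ := exists_relem_of hR1 (A := center G) (by omega)
    obtain ⟨t2, ht2, ht2Z⟩ := exists_outside (T := R1 ⊓ center G) (R := R1) (b := t1) inf_le_left ht1
      (Subgroup.mem_inf.2 ⟨pow_mem ht1 r, hD t1 ht1⟩) (by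
        rw [card_rgroup hR1, card_rgroup (hR1.to_le inf_le_left), ← pow_succ]
        apply Nat.pow_lt_pow_right hr.out.one_lt
        show v r (R1 ⊓ center G) + 1 < v r R1
        omega)
    refine noRank2 hr.out hs hrs S (center G) (fun a ha b hb => hM.comm a (hSM ha) b (hSM hb)) hS hSZ
      (w * t2 * w⁻¹) (w * t1 * w⁻¹) (hNS _ (hwR1N t2 ht2)) (hNS _ (hwR1N t1 ht1)) ?_ ?_ ?_ ?_ ?_
    · intro x _
      have : (w * t2 * w⁻¹) ^ r ∈ center G := by rw [conj_pow, conj_center]; exact hD t2 ht2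
      exact (mem_center_iff.1 this x).symm
    · intro x _
      have : (w * t1 * w⁻¹) ^ r ∈ center G := by rw [conj_pow, conj_center]; exact hD t1 ht1
      exact (mem_center_iff.1 this x).symm
    · intro x _
      have : (w * t2 * w⁻¹) * (w * t1 * w⁻¹) = (w * t1 * w⁻¹) * (w * t2 * w⁻¹) := by
        calc _ = w * (t2 * t1) * w⁻¹ := by group
          _ = w * (t1 * t2) * w⁻¹ := by rw [hM.comm t2 (hR1M ht2) t1 (hR1M ht1)]
          _ = _ := by group
      rw [this]
    · intro i x hx h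
      have e : (w * t2 * w⁻¹) * (w * t1 * w⁻¹) ^ i = w * (t2 * t1 ^ i) * w⁻¹ := by rw [conj_pow]; group
      rw [e] at h
      apply comm_out hM _ (hSM hx) h
      apply hA _ (hR1M (mul_mem ht2 (pow_mem ht1 i)))
      intro hZ
      exact ht2Z i (Subgroup.mem_inf.2 ⟨mul_mem ht2 (pow_mem ht1 i), hZ⟩)
    · intro x hx h
      exact comm_out hM (hA t1 (hR1M ht1) ht1Z) (hSM hx) h
  -- (F)
  have hRZ : ¬ (R : Subgroup G) ≤ center G := by
    intro h
    have := v_mono r h
    have := v_mono r (le_top : M ≤ ⊤)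
    omega
  obtain ⟨g, hgR, hgZ, hgr, hgc⟩ := exists_next R.isPGroup' le_rfl
    (fun k hk x hx => mul_mem (mul_mem hk hx) (inv_mem hk)) hRZ
  have hRZv : v r (center G) ≤ v r ((R : Subgroup G) ⊓ center G) :=
    v_inf_of_normalizes hRv (fun u _ c hc => by rw [mem_center_iff.1 hc u, mul_inv_cancel_right]; exact hc)
  have hgin : ∀ c ∈ (R : Subgroup G) ⊓ cz g, ∃ t ∈ (R : Subgroup G) ⊓ center G, ∃ i < r, c = t * g ^ i := by
    intro c hc
    apply inside (R := (R : Subgroup G) ⊓ cz g) (inf_le_inf_left _ (center_le_cz g))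
      (Subgroup.mem_inf.2 ⟨hgR, self_mem_cz g⟩) (fun h => hgZ h.2) (Subgroup.mem_inf.2 ⟨pow_mem hgR r, hgr⟩) _ hc
    rw [card_rgroup (R.isPGroup'.to_le inf_le_left), card_rgroup (R.isPGroup'.to_le inf_le_left), ← pow_succ]
    apply Nat.pow_le_pow_right hr.out.pos
    have h1 : v r ((R : Subgroup G) ⊓ cz g) ≤ v r (cz g) := v_mono r inf_le_right
    have h2 := H.vM_eq hM hrm hgZ
    show v r ((R : Subgroup G) ⊓ cz g) ≤ v r ((R : Subgroup G) ⊓ center G) + 1
    omega
  obtain ⟨t, ht, htZ⟩ := exists_relem_of hR1 (A := center G) (by omega)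
  have hF1 : ∀ y : (R : Subgroup G), ∃ i : Fin r, ∃ z ∈ center G, (y : G) * t * (y : G)⁻¹ = z * g ^ (i : ℕ) * t := by
    intro y
    have h1 : (t⁻¹ * (y : G)⁻¹)⁻¹ * ((y : G)⁻¹ * t⁻¹) ∈ cz g :=
      comm_mem_cz (hgc _ (inv_mem y.2)) (hgc _ (inv_mem (hTR (hR1T ht))))
    have e : (t⁻¹ * (y : G)⁻¹)⁻¹ * ((y : G)⁻¹ * t⁻¹) = (y : G) * t * (y : G)⁻¹ * t⁻¹ := by group
    rw [e] at h1
    obtain ⟨z, hz, i, hi, h2⟩ := hgin _ (Subgroup.mem_inf.2 ⟨mul_mem (mul_mem (mul_mem y.2 (hTR (hR1T ht))) (inv_mem y.2))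
      (inv_mem (hTR (hR1T ht))), h1⟩)
    refine ⟨⟨i, hi⟩, z, hz.2, ?_⟩
    rw [← h2]; group
  choose ι hι using hF1
  have hidx : (T.subgroupOf (R : Subgroup G)).index ≤ r := by
    rw [index_eq_card]
    suffices hinj : Function.Injective (fun q : (R : Subgroup G) ⧸ T.subgroupOf (R : Subgroup G) => ι q.out) by
      have h := Nat.card_le_card_of_injective _ hinj
      rwa [Nat.card_fin] at h
    intro q1 q2 h
    obtain ⟨z1, hz1, h1⟩ := hι q1.out
    obtain ⟨z2, hz2, h2⟩ := hι q2.out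
    have h' : ι q1.out = ι q2.out := h
    rw [h'] at h1
    set y1 : G := ((q1.out : (R : Subgroup G)) : G) with hy1
    set y2 : G := ((q2.out : (R : Subgroup G)) : G) with hy2
    have hz2i : z2⁻¹ ∈ center G := inv_mem hz2
    have h3 : y1 * t * y1⁻¹ = (z1 * z2⁻¹) * (y2 * t * y2⁻¹) := by
      rw [h1, h2]; group
    have hzz : z1 * z2⁻¹ ∈ center G := mul_mem hz1 hz2i
    have h4 : (y2⁻¹ * y1) * t * (y2⁻¹ * y1)⁻¹ = (z1 * z2⁻¹) * t := by
      calc (y2⁻¹ * y1) * t * (y2⁻¹ * y1)⁻¹ = y2⁻¹ * (y1 * t * y1⁻¹) * y2 := by group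
        _ = y2⁻¹ * ((z1 * z2⁻¹) * (y2 * t * y2⁻¹)) * y2 := by rw [h3]
        _ = (y2⁻¹ * (z1 * z2⁻¹)) * (y2 * t) := by group
        _ = ((z1 * z2⁻¹) * y2⁻¹) * (y2 * t) := by rw [mem_center_iff.1 hzz]
        _ = _ := by group
    have h5 : y2⁻¹ * y1 ∈ N := norm_of hM (hR1M ht) htZ (by rw [h4]; exact mul_mem (hM.Zle hzz) (hR1M ht))
    rw [← Quotient.out_eq' q1, ← Quotient.out_eq' q2]
    symm
    apply Quotient.sound'
    rw [QuotientGroup.leftRel_apply, mem_subgroupOf]
    show y2⁻¹ * y1 ∈ T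
    rw [← hRN]
    exact Subgroup.mem_inf.2 ⟨mul_mem (inv_mem (q2.out).2) (q1.out).2, h5⟩
  have hF : v r (⊤ : Subgroup G) ≤ v r N + 1 := by
    have h1 : Nat.card (R : Subgroup G) ≤ Nat.card T * r := by
      have h2 := Subgroup.card_mul_index (T.subgroupOf (R : Subgroup G))
      rw [Nat.card_congr (subgroupOfEquivOfLe hTR).toEquiv] at h2
      rw [← h2]
      exact Nat.mul_le_mul_left _ hidx
    rw [card_rgroup R.isPGroup', card_rgroup hT, ← pow_succ, Nat.pow_le_pow_iff_right hr.out.one_lt] at h1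
    omega
  -- (G)
  have hG1 := v_index r N
  have hG2 := v_rel r hMN
  have hG3 : v r M < v r N := by
    by_contra hcon
    push Not at hcon
    apply hA t (hR1M ht) htZ
    exact mem_of_normal hMN hcon hNconj (hwR1N t ht)
      (conj_relem (H24.exists_orderOf_eq_pow_of_mem hR1 ht))
  omega

theorem M_normal : M.Normal := by
  obtain ⟨s, hs, hsn⟩ := Nat.exists_prime_and_dvd (n := n) (by have := H.hn; omega)
  haveI : Fact s.Prime := ⟨hs⟩
  obtain ⟨S, hSM, hS, hSv, hSZ, hSall⟩ := H.exists_S hM hsn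
  have h1 := H.c_mod hM hsn hSM hS
  have h2 := H.j_dvd hM hsn hSM hS hSall
  have hN0 : (normalizer (M : Set G)).index ≠ 0 := index_ne_zero_of_finite
  have hj0 : M.relIndex (normalizer (M : Set G)) ≠ 0 := fun h => by
    have := H.rel_dvd hM
    rw [h] at this
    exact H.mpos (Nat.eq_zero_of_zero_dvd this)
  have h3 : (normalizer (M : Set G)).index ∣ M.relIndex (normalizer (M : Set G)) := by
    rw [← Nat.factorization_le_iff_dvd hN0 hj0]
    intro r
    by_cases hr : r.Prime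
    · haveI : Fact r.Prime := ⟨hr⟩
      by_cases hrc : r ∣ (normalizer (M : Set G)).index
      · exact H.one_prime hM hrc
      · rw [Nat.factorization_eq_zero_of_not_dvd hrc]; exact Nat.zero_le _
    · rw [Nat.factorization_eq_zero_of_not_prime _ hr]; exact Nat.zero_le _
  have hν : 1 < (center G).relIndex S := by
    have h4 : (center G).relIndex S ≠ 1 := fun h => hSZ (relIndex_eq_one.1 h)
    have h5 : (center G).relIndex S ≠ 0 := index_ne_zero_of_finite
    omega
  have h4 : M.relIndex (normalizer (M : Set G)) ≤ (center G).relIndex S - 1 := Nat.le_of_dvd (by omega) h2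
  have h5 : (normalizer (M : Set G)).index ≤ M.relIndex (normalizer (M : Set G)) := Nat.le_of_dvd (Nat.pos_of_ne_zero hj0) h3
  have h6 : (normalizer (M : Set G)).index = 1 := by
    by_contra hne
    have h7 := Nat.le_of_dvd (by omega) h1
    omega
  rw [index_eq_one] at h6
  exact normalizer_eq_top_iff.1 h6

end Hyp

end Cfsg.Agent.H25.CS3
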