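import Cfsg.Agent.H25.CSG

set_option autoImplicit false
set_option linter.unusedSectionVars false
set_option linter.unusedVariables false

namespace Cfsg.Agent.H25.CS3

open Subgroup
open scoped commutatorElement

variable {G : Type*} [Group G] [Finite G]

namespace Hyp

variable {m n : ℕ} (H : Hyp G m n) {M : Subgroup G} (hM : MHyp m M)

include H hM

theorem idx_M {t : G} (ht : t ∈ M) (htZ : t ∉ center G) : (cz t).index = m := by
  rw [hM.cz_eq t ht htZ, hM.idx]

theorem notMem_M {y : G} (hy : (cz y).index = m * n) : y ∉ M := by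
  intro h
  have h1 := H.idx_M hM h (H.nc_mn hy)
  have := H.m_lt
  omega

theorem mem_M_iff {y : G} : y ∈ M ↔ (cz y).index = 1 ∨ (cz y).index = m := by
  constructor
  · intro h
    by_cases hZ : y ∈ center G
    · left; exact idx_one.2 hZ
    · right; exact H.idx_M hM h hZ
  · rintro (h | h)
    · exact hM.Zle (idx_one.1 h)
    · obtain ⟨g, hg⟩ := H.conj_into_M hM h
      have h1 := (H.M_normal hM).conj_mem _ hg g⁻¹
      have e : g⁻¹ * (g * y * g⁻¹) * g⁻¹⁻¹ = y := by group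
      rwa [e] at h1

theorem n_mod_prime {s : ℕ} [hs : Fact s.Prime] (hsn : s ∣ n) : s ^ (n.factorization s) ≡ 1 [MOD m] := by
  haveI := H.M_normal hM
  obtain ⟨S, hSM, hS, hSv, hSZ, hSall⟩ := H.exists_S hM hsn
  have h2 := H.j_dvd hM hsn hSM hS hSall
  rw [normalizer_eq_top_iff.2 (H.M_normal hM), relIndex_top_right, hM.idx] at h2
  obtain ⟨y, hy⟩ := H.exmn
  have hyM := H.notMem_M hM hy
  have h3 := H.v_mn hy s
  rw [H.mfac_zero hs.out hsn, zero_add] at h3
  have h4 : v s (cz y) = v s (center G) := by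
    apply le_antisymm _ (v_mono s (center_le_cz y))
    obtain ⟨W, -, hWy, hW, hWv⟩ := exists_rsub s (cz y) ⊥ bot_le (IsPGroup.of_bot)
    rw [← hWv]
    apply v_mono s
    intro w hw
    have hwM : w ∈ M := mem_of_normal (K := ⊤) le_top (H.vM_n hM hsn).ge
      (fun k _ c hc => (H.M_normal hM).conj_mem c hc k) (mem_top w) (H24.exists_orderOf_eq_pow_of_mem hW hw)
    exact comm_out hM hyM hwM (mem_cz.1 (hWy hw)).symm
  have h5 : v s (center G ⊓ S) = v s (center G) := by
    apply le_antisymm (v_mono s inf_le_left)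
    obtain ⟨W, -, hWy, hW, hWv⟩ := exists_rsub s (center G) ⊥ bot_le (IsPGroup.of_bot)
    rw [← hWv]
    apply v_mono s
    refine le_inf hWy (fun w hw => hSall w (hM.Zle (hWy hw)) (H24.exists_orderOf_eq_pow_of_mem hW hw))
  have h6 : Nat.card (center G ⊓ S : Subgroup G) * (center G).relIndex S = Nat.card S := by
    have := relIndex_mul_relIndex ⊥ (center G ⊓ S) S bot_le inf_le_right
    rw [relIndex_bot_left, relIndex_bot_left, inf_relIndex_right] at this
    exact this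
  rw [card_rgroup (hS.to_le inf_le_right), card_rgroup hS] at h6
  have h7 : v s (center G ⊓ S : Subgroup G) + n.factorization s = v s S := by
    rw [h5, hSv]; omega
  rw [← h7, pow_add] at h6
  have h8 := Nat.eq_of_mul_eq_mul_left (pow_pos hs.out.pos _) h6
  rw [h8] at h2
  exact ((Nat.modEq_iff_dvd' (Nat.one_le_pow _ _ hs.out.pos)).2 h2).symm

theorem n_mod : m ∣ n - 1 := by
  have h1 : n ≡ 1 [MOD m] := by
    conv_lhs => rw [← Nat.prod_factorization_pow_eq_self H.npos]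
    apply Finset.prod_induction _ (fun x => x ≡ 1 [MOD m])
    · intro a b ha hb
      exact ha.mul hb
    · rfl
    · intro s hs
      rw [Nat.support_factorization, Nat.mem_primeFactors] at hs
      haveI : Fact s.Prime := ⟨hs.1⟩
      exact H.n_mod_prime hM hs.2.1
  exact (Nat.modEq_iff_dvd' (by have := H.hn; omega)).1 h1.symm

theorem pkg {r : ℕ} [hr : Fact r.Prime] (hrm : r ∣ m) (R : Sylow r G) : ∃ g ∈ (R : Subgroup G) ⊓ M, g ∉ center G ∧
    g ^ r ∈ center G ∧ (∀ u ∈ (R : Subgroup G), u * g * u⁻¹ * g⁻¹ ∈ center G) ∧ m.factorization r = 1 ∧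
    Nat.card (R : Subgroup G) ≤ Nat.card ((R : Subgroup G) ⊓ M : Subgroup G) * r ∧
    Nat.card ((R : Subgroup G) ⊓ M : Subgroup G) ≤ Nat.card ((R : Subgroup G) ⊓ center G : Subgroup G) * r ∧
    v r ((R : Subgroup G) ⊓ M) = v r M := by
  haveI := H.M_normal hM
  obtain ⟨s, hs, hsn⟩ := Nat.exists_prime_and_dvd (n := n) (by have := H.hn; omega)
  haveI : Fact s.Prime := ⟨hs⟩
  have hrs : r ≠ s := by rintro rfl; exact H.not_dvd_n hs hrm hsn
  obtain ⟨S, hSM, hS, hSv, hSZ, hSall⟩ := H.exists_S hM hsn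
  have hRv : v r (R : Subgroup G) = v r (⊤ : Subgroup G) := by
    rw [← not_dvd_index_iff hr.out]; exact R.not_dvd_index
  obtain ⟨g0, hg0, hg0Z⟩ := H.exists_nc (r := r) (hrm.mul_right n)
  have hMZ : v r (center G) < v r M := by
    rw [H.vM_eq hM hrm hg0Z]; exact H.vZ_lt hrm hg0Z
  have hRMv : v r M ≤ v r ((R : Subgroup G) ⊓ M) :=
    v_inf_of_normalizes hRv (fun u _ c hc => (H.M_normal hM).conj_mem c hc u)
  have hRMv' : v r ((R : Subgroup G) ⊓ M) = v r M := le_antisymm (v_mono r inf_le_right) hRMv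
  have hRMZ : ¬ (R : Subgroup G) ⊓ M ≤ center G := by
    intro h
    have := v_mono r h
    omega
  obtain ⟨g, hg, hgZ, hgr, hgc⟩ := exists_next R.isPGroup' (inf_le_left : (R : Subgroup G) ⊓ M ≤ R)
    (fun k hk x hx => Subgroup.mem_inf.2 ⟨mul_mem (mul_mem hk hx.1) (inv_mem hk),
      (H.M_normal hM).conj_mem x hx.2 k⟩) hRMZ
  have hczg : cz g = M := hM.cz_eq g hg.2 hgZ
  have hNS : ∀ k : G, ∀ c ∈ S, k * c * k⁻¹ ∈ S := by
    intro k c hc
    exact hSall _ ((H.M_normal hM).conj_mem c (hSM hc) k) (conj_relem (H24.exists_orderOf_eq_pow_of_mem hS hc))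
  have hpow : ∀ c ∈ (R : Subgroup G), c ^ r ∈ M := by
    intro c hc
    rw [← hczg]; exact pow_mem_cz (hgc c hc) hgr
  have hcard : Nat.card (R : Subgroup G) ≤ Nat.card ((R : Subgroup G) ⊓ M : Subgroup G) * r := by
    by_contra hcon
    push Not at hcon
    have : ∃ b ∈ (R : Subgroup G), b ∉ M := by
      by_contra hc2
      push Not at hc2
      have h1 : (R : Subgroup G) ⊓ M = R := inf_eq_left.2 hc2
      rw [h1] at hcon
      have h2 : 0 < Nat.card (R : Subgroup G) := Nat.card_pos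
      have h3 := hr.out.two_le
      nlinarith
    obtain ⟨b, hb, hbM⟩ := this
    obtain ⟨a, ha, haM⟩ := exists_outside (T := (R : Subgroup G) ⊓ M) (R := R) inf_le_left hb
      (Subgroup.mem_inf.2 ⟨pow_mem hb r, hpow b hb⟩) hcon
    refine noRank2 hr.out hs hrs S (center G) (fun a ha b hb => hM.comm a (hSM ha) b (hSM hb)) hS hSZ
      a b (hNS a) (hNS b) (fun x hx => hM.comm _ (hpow a ha) x (hSM hx)) (fun x hx => hM.comm _ (hpow b hb) x (hSM hx))
      ?_ ?_ (fun x hx h => comm_out hM hbM (hSM hx) h)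
    · intro x hx
      have h1 : (b * a)⁻¹ * (a * b) ∈ cz g := comm_mem_cz (hgc a ha) (hgc b hb)
      rw [hczg] at h1
      have h2 := hM.comm _ h1 x (hSM hx)
      calc a * b * x * (a * b)⁻¹ = (b * a) * ((b * a)⁻¹ * (a * b) * x) * (a * b)⁻¹ := by group
        _ = (b * a) * (x * ((b * a)⁻¹ * (a * b))) * (a * b)⁻¹ := by rw [h2]
        _ = _ := by group
    · intro i x hx h
      apply comm_out hM _ (hSM hx) h
      intro hc
      exact haM i (Subgroup.mem_inf.2 ⟨mul_mem ha (pow_mem hb i), hc⟩)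
  have hvR : v r (⊤ : Subgroup G) ≤ v r M + 1 := by
    have h1 := hcard
    rw [card_rgroup R.isPGroup', card_rgroup (R.isPGroup'.to_le inf_le_left), ← pow_succ,
      Nat.pow_le_pow_iff_right hr.out.one_lt] at h1
    rw [← hRv, ← hRMv']
    exact h1
  have hmf : m.factorization r = 1 := by
    have h1 := H.vM hM r
    have h2 := H.mfac_pos hr.out hrm
    omega
  have hE : v r M ≤ v r (center G) + 1 := by
    obtain ⟨y, -, hy, hyM⟩ := exists_relem (r := r) (A := M) (H := ⊤) (by have := H.vM hM r; omega)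
    have hyZ : y ∉ center G := fun h => hyM (hM.Zle h)
    obtain ⟨W, -, hWy, hW, hWv⟩ := exists_rsub r (cz y) ⊥ bot_le (IsPGroup.of_bot)
    have h1 : M ⊓ W ≤ center G := by
      intro c hc
      exact comm_out hM hyM hc.1 (mem_cz.1 (hWy hc.2)).symm
    have h2 := v_rel r (inf_le_right : M ⊓ W ≤ W)
    rw [inf_relIndex_right] at h2
    have h3 : M.relIndex W ∣ m := by rw [← hM.idx]; exact relIndex_dvd_index_of_normal M W
    have h4 : (M.relIndex W).factorization r ≤ m.factorization r :=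
      (Nat.factorization_le_iff_dvd (fun h => H.mpos (Nat.eq_zero_of_zero_dvd (h ▸ h3))) H.mpos).2 h3 r
    have h5 := v_mono r h1
    have h6 := H.vM_eq hM hrm hyZ
    omega
  refine ⟨g, hg, hgZ, hgr, hgc, hmf, hcard, ?_, hRMv'⟩
  have hRZv : v r (center G) ≤ v r ((R : Subgroup G) ⊓ center G) :=
    v_inf_of_normalizes hRv (fun u _ c hc => by rw [mem_center_iff.1 hc u, mul_inv_cancel_right]; exact hc)
  rw [card_rgroup (R.isPGroup'.to_le inf_le_left), card_rgroup (R.isPGroup'.to_le inf_le_left), ← pow_succ,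
      Nat.pow_le_pow_iff_right hr.out.one_lt]
  show v r ((R : Subgroup G) ⊓ M) ≤ v r ((R : Subgroup G) ⊓ center G) + 1
  omega

theorem unique_prime {r r' : ℕ} (hr : r.Prime) (hr' : r'.Prime) (hrm : r ∣ m) (hrm' : r' ∣ m) : r' = r := by
  by_contra hne
  haveI : Fact r.Prime := ⟨hr⟩
  haveI : Fact r'.Prime := ⟨hr'⟩
  haveI := H.M_normal hM
  obtain ⟨R⟩ : Nonempty (Sylow r G) := inferInstance
  obtain ⟨g, hg, hgZ, hgr, hgc, hmf, hcard, hcard2, hRMv⟩ := H.pkg hM hrm R
  have hczg : cz g = M := hM.cz_eq g hg.2 hgZ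
  have hRv : v r (R : Subgroup G) = v r (⊤ : Subgroup G) := by
    rw [← not_dvd_index_iff hr]; exact R.not_dvd_index
  obtain ⟨y, hyR, hyM⟩ := exists_relem_of R.isPGroup' (A := M) (by have := H.vM hM r; omega)
  have hyZ : y ∉ center G := fun h => hyM (hM.Zle h)
  obtain ⟨y', hy'y, hy'r, hy'Z⟩ := exists_relem (H.vZ_lt hrm' hyZ)
  have hyy' : y' * y = y * y' := mem_cz.1 hy'y
  have hy'M : y' ∉ M := fun h => hy'Z (comm_out hM hyM h hyy'.symm)
  have hgre : ∃ k, orderOf g = r ^ k := H24.exists_orderOf_eq_pow_of_mem R.isPGroup' hg.1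
  -- `y' g y'⁻¹ = z1 * g^a`
  have h1 : y' * g * y'⁻¹ ∈ (R : Subgroup G) ⊓ M := by
    apply mem_of_normal (K := M) inf_le_right hRMv.ge _ ((H.M_normal hM).conj_mem g hg.2 y') (conj_relem hgre)
    intro k hk c hc
    rw [hM.comm k hk c hc.2, mul_inv_cancel_right]
    exact hc
  obtain ⟨z1, hz1, a, ha, h2⟩ := inside (T := (R : Subgroup G) ⊓ center G) (R := (R : Subgroup G) ⊓ M)
    (inf_le_inf_left _ hM.Zle) hg (fun h => hgZ h.2) (Subgroup.mem_inf.2 ⟨pow_mem hg.1 r, hgr⟩) hcard2 h1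
  obtain ⟨z, hz, hzg⟩ := comm_of_conj (hgc y hyR)
  have hzr : z ^ r = 1 := z_pow_one hz hzg hgr
  have hz1' : z ≠ 1 := by
    rintro rfl
    apply hyM
    rw [← hczg]
    rw [one_mul] at hzg
    exact mem_cz.2 hzg
  have hzc := mem_center_iff.1 hz
  have hz1c := mem_center_iff.1 hz1.2
  -- conjugate the relation by y'
  have h3 : y * (y' * g * y'⁻¹) = z * ((y' * g * y'⁻¹) * y) := by
    have hy'i : y * y'⁻¹ = y'⁻¹ * y := by
      calc y * y'⁻¹ = y'⁻¹ * (y' * y) * y'⁻¹ := by group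
        _ = y'⁻¹ * (y * y') * y'⁻¹ := by rw [hyy']
        _ = _ := by group
    calc y * (y' * g * y'⁻¹) = (y * y') * g * y'⁻¹ := by group
      _ = (y' * y) * g * y'⁻¹ := by rw [hyy']
      _ = y' * (y * g) * y'⁻¹ := by group
      _ = y' * (z * (g * y)) * y'⁻¹ := by rw [hzg]
      _ = (y' * z) * g * (y * y'⁻¹) := by group
      _ = (z * y') * g * (y'⁻¹ * y) := by rw [hzc, hy'i]
      _ = _ := by group
  have h4 := pow_comm_central hz hzg 1 a
  rw [one_mul, pow_one] at h4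
  rw [h2] at h3
  have h5 : z ^ a = z := by
    have h6 : y * (z1 * g ^ a) = z ^ a * (z1 * g ^ a * y) := by
      calc y * (z1 * g ^ a) = (y * z1) * g ^ a := by group
        _ = z1 * (y * g ^ a) := by rw [hz1c]; group
        _ = z1 * (z ^ a * (g ^ a * y)) := by rw [h4]
        _ = (z1 * z ^ a) * (g ^ a * y) := by group
        _ = (z ^ a * z1) * (g ^ a * y) := by rw [← hz1c (z ^ a)]
        _ = _ := by group
    rw [h6] at h3
    exact mul_right_cancel h3
  have ha0 : 1 ≤ a := by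
    rcases Nat.eq_zero_or_pos a with h | h
    · rw [h, pow_zero] at h5
      exact absurd h5.symm hz1'
    · exact h
  obtain ⟨b, rfl⟩ := Nat.exists_eq_add_of_le ha0
  have h6 : z ^ b = 1 := by
    rw [pow_add, pow_one] at h5
    exact mul_eq_left.1 h5
  have hzo : orderOf z = r := orderOf_eq_prime hzr hz1'
  have h7 : r ∣ b := by rw [← hzo]; exact orderOf_dvd_of_pow_eq_one h6
  obtain ⟨l, rfl⟩ := h7
  have h8 : y' * g * y'⁻¹ = g * (z1 * (g ^ r) ^ l) := by
    rw [h2, pow_add, pow_one, pow_mul, ← mul_assoc, ← mul_assoc, hz1c]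
  have h9 : z1 * (g ^ r) ^ l ∈ center G := mul_mem hz1.2 (pow_mem hgr l)
  have h10 := center_trick_mem h9 h8 (coprime_of_relem2 hr' hr hne hy'r hgre)
  rw [hczg] at h10
  exact hy'M h10

theorem m_prime : m.Prime := by
  obtain ⟨r, hr, hrm⟩ := Nat.exists_prime_and_dvd (n := m) (by have := H.hm; omega)
  haveI : Fact r.Prime := ⟨hr⟩
  obtain ⟨R⟩ : Nonempty (Sylow r G) := inferInstance
  obtain ⟨g, hg, hgZ, hgr, hgc, hmf, -⟩ := H.pkg hM hrm R
  have h1 : m = r := by
    apply Nat.eq_of_factorization_eq H.mpos hr.ne_zero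
    intro q
    rw [hr.factorization]
    by_cases hqr : q = r
    · rw [hqr, hmf, Finsupp.single_eq_same]
    · rw [Finsupp.single_eq_of_ne hqr]
      by_cases hq : q.Prime
      · apply Nat.factorization_eq_zero_of_not_dvd
        intro hqm
        exact hqr (H.unique_prime hM hr hq hrm hqm)
      · exact Nat.factorization_eq_zero_of_not_prime _ hq
  rw [h1]; exact hr

theorem exists_compl : ∃ N : Subgroup G, N.Normal ∧ (Nat.card N).Coprime m ∧ ∃ a : ℕ, N.index = m ^ a := by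
  haveI := H.M_normal hM
  have hp := H.m_prime hM
  haveI : Fact m.Prime := ⟨hp⟩
  set K : Subgroup G :=
    { carrier := {x | x ∈ M ∧ (orderOf x).Coprime m}
      one_mem' := ⟨one_mem _, by rw [orderOf_one]; exact Nat.coprime_one_left m⟩
      mul_mem' := by
        rintro a b ⟨ha, ha2⟩ ⟨hb, hb2⟩
        refine ⟨mul_mem ha hb, ?_⟩
        have hc : Commute a b := hM.comm a ha b hb
        exact Nat.Coprime.coprime_dvd_left (hc.orderOf_mul_dvd_mul_orderOf) (Nat.Coprime.mul_left ha2 hb2)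
      inv_mem' := by
        rintro a ⟨ha, ha2⟩
        exact ⟨inv_mem ha, by rwa [orderOf_inv]⟩ } with hK
  have hmem : ∀ x, x ∈ K ↔ x ∈ M ∧ (orderOf x).Coprime m := fun x => Iff.rfl
  refine ⟨K, ⟨?_⟩, ?_, ?_⟩
  · intro x hx g
    rw [hmem] at hx ⊢
    refine ⟨(H.M_normal hM).conj_mem x hx.1 g, ?_⟩
    have : orderOf (g * x * g⁻¹) = orderOf x := (MulAut.conj g).orderOf_eq x
    rw [this]
    exact hx.2
  · rw [Nat.coprime_comm, Nat.Prime.coprime_iff_not_dvd hp]
    intro hd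
    obtain ⟨x, hx⟩ := exists_prime_orderOf_dvd_card' (G := K) m hd
    have h1 := ((hmem x).1 x.2).2
    rw [Subgroup.orderOf_coe, hx] at h1
    exact hp.one_lt.ne' ((Nat.coprime_self m).1 h1)
  · have h1 := Nat.eq_prime_pow_of_unique_prime_dvd (n := K.index) (p := m) index_ne_zero_of_finite (by
      intro q hq hqd
      by_contra hne
      haveI : Fact q.Prime := ⟨hq⟩
      apply (not_dvd_index_iff hq K).2 _ hqd
      apply le_antisymm (v_mono q le_top)
      have h2 := H.vM hM q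
      have h3 : m.factorization q = 0 := by
        apply Nat.factorization_eq_zero_of_not_dvd
        intro h
        exact hne ((Nat.prime_dvd_prime_iff_eq hq hp).1 h)
      obtain ⟨W, -, hWM, hW, hWv⟩ := exists_rsub q M ⊥ bot_le (IsPGroup.of_bot)
      have h4 : W ≤ K := by
        intro w hw
        exact (hmem w).2 ⟨hWM hw, coprime_of_relem3 hp hq (fun h => hne h.symm) (H24.exists_orderOf_eq_pow_of_mem hW hw)⟩
      have h5 := v_mono q h4
      omega)
    exact ⟨_, h1⟩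

theorem comm_card [Fact m.Prime] (P : Sylow m G) : Nat.card (commutator (P : Subgroup G)) = m := by
  haveI := H.M_normal hM
  have hp := H.m_prime hM
  obtain ⟨g, hg, hgZ, hgr, hgc, hmf, hcard, hcard2, hRMv⟩ := H.pkg hM dvd_rfl P
  have hczg : cz g = M := hM.cz_eq g hg.2 hgZ
  have hRv : v m (P : Subgroup G) = v m (⊤ : Subgroup G) := by
    rw [← not_dvd_index_iff hp]; exact P.not_dvd_index
  obtain ⟨y, hyP, hyM⟩ := exists_relem_of P.isPGroup' (A := M) (by have := H.vM hM m; omega)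
  obtain ⟨z, hz, hzg⟩ := comm_of_conj (hgc y hyP)
  have hzr : z ^ m = 1 := z_pow_one hz hzg hgr
  have hz1' : z ≠ 1 := by
    rintro rfl
    apply hyM
    rw [← hczg]
    rw [one_mul] at hzg
    exact mem_cz.2 hzg
  have hzo : orderOf z = m := orderOf_eq_prime hzr hz1'
  have hzc := mem_center_iff.1 hz
  have hzP : z ∈ (P : Subgroup G) := by
    have e : z = y * g * y⁻¹ * g⁻¹ := by
      calc z = z * (g * y) * y⁻¹ * g⁻¹ := by group
        _ = _ := by rw [← hzg]
    rw [e]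
    exact mul_mem (mul_mem (mul_mem hyP hg.1) (inv_mem hyP)) (inv_mem hg.1)
  -- general form
  have hform : ∀ a ∈ (P : Subgroup G), ∃ z1 ∈ center G, ∃ i j : ℕ, a = z1 * g ^ i * y ^ j := by
    intro a ha
    obtain ⟨t, ht, j, hj, h1⟩ := inside (T := (P : Subgroup G) ⊓ M) (R := (P : Subgroup G)) inf_le_left hyP
      (fun h => hyM h.2) (Subgroup.mem_inf.2 ⟨pow_mem hyP m, by
        rw [← hczg]; exact pow_mem_cz (hgc y hyP) hgr⟩) hcard ha
    obtain ⟨z1, hz1, i, hi, h2⟩ := inside (T := (P : Subgroup G) ⊓ center G) (R := (P : Subgroup G) ⊓ M)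
      (inf_le_inf_left _ hM.Zle) hg (fun h => hgZ h.2) (Subgroup.mem_inf.2 ⟨pow_mem hg.1 m, hgr⟩) hcard2 ht
    exact ⟨z1, hz1.2, i, j, by rw [h1, h2]⟩
  have hprod : ∀ (z1 z2 : G) (i j k l : ℕ), z1 ∈ center G → z2 ∈ center G →
      (z1 * g ^ i * y ^ j) * (z2 * g ^ k * y ^ l) = z ^ (j * k) * (z1 * z2 * g ^ (i + k) * y ^ (j + l)) := by
    intro z1 z2 i j k l hz1 hz2
    have e1 := pow_comm_central hz hzg j k
    have e2 := mem_center_iff.1 hz2
    have hzk : z ^ (j * k) ∈ center G := pow_mem hz _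
    have e3 := mem_center_iff.1 hzk
    calc (z1 * g ^ i * y ^ j) * (z2 * g ^ k * y ^ l) = (z1 * g ^ i) * (y ^ j * z2) * g ^ k * y ^ l := by group
      _ = (z1 * g ^ i) * (z2 * y ^ j) * g ^ k * y ^ l := by rw [e2]
      _ = z1 * (g ^ i * z2) * (y ^ j * g ^ k) * y ^ l := by group
      _ = z1 * (z2 * g ^ i) * (z ^ (j * k) * (g ^ k * y ^ j)) * y ^ l := by rw [e2, e1]
      _ = (z1 * z2 * g ^ i * z ^ (j * k)) * (g ^ k * y ^ j) * y ^ l := by group
      _ = (z ^ (j * k) * (z1 * z2 * g ^ i)) * (g ^ k * y ^ j) * y ^ l := by rw [e3]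
      _ = z ^ (j * k) * (z1 * z2 * (g ^ i * g ^ k) * (y ^ j * y ^ l)) := by group
      _ = _ := by rw [pow_add, pow_add]
  set zP : (P : Subgroup G) := ⟨z, hzP⟩ with hzPdef
  have hzPo : orderOf zP = m := by rw [hzPdef, Subgroup.orderOf_mk, hzo]
  have h1 : commutator (P : Subgroup G) = zpowers zP := by
    apply le_antisymm
    · rw [commutator_def, commutator_le]
      rintro ⟨a, ha⟩ - ⟨b, hb⟩ -
      obtain ⟨z1, hz1, i, j, rfl⟩ := hform a ha
      obtain ⟨z2, hz2, k, l, rfl⟩ := hform b hb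
      have e1 := hprod z1 z2 i j k l hz1 hz2
      have e2 := hprod z2 z1 k l i j hz2 hz1
      have e3 : z2 * z1 = z1 * z2 := mem_center_iff.1 hz1 z2
      rw [e3, add_comm k i, add_comm l j] at e2
      rw [mem_zpowers_iff]
      refine ⟨((j * k : ℕ) : ℤ) - ((l * i : ℕ) : ℤ), ?_⟩
      apply Subtype.ext
      have hzl : z ^ (l * i) ∈ center G := pow_mem hz _
      show z ^ (((j * k : ℕ) : ℤ) - ((l * i : ℕ) : ℤ)) = (z1 * g ^ i * y ^ j) * (z2 * g ^ k * y ^ l) *
        (z1 * g ^ i * y ^ j)⁻¹ * (z2 * g ^ k * y ^ l)⁻¹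
      rw [zpow_sub, zpow_natCast, zpow_natCast]
      have e4 : (z1 * g ^ i * y ^ j) * (z2 * g ^ k * y ^ l) * (z1 * g ^ i * y ^ j)⁻¹ * (z2 * g ^ k * y ^ l)⁻¹ =
          ((z1 * g ^ i * y ^ j) * (z2 * g ^ k * y ^ l)) * ((z2 * g ^ k * y ^ l) * (z1 * g ^ i * y ^ j))⁻¹ := by group
      rw [e4, e1, e2]
      group
    · rw [zpowers_le]
      have e : zP = ⁅(⟨y, hyP⟩ : (P : Subgroup G)), ⟨g, hg.1⟩⁆ := by
        apply Subtype.ext
        show z = y * g * y⁻¹ * g⁻¹
        calc z = z * (g * y) * y⁻¹ * g⁻¹ := by group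
          _ = _ := by rw [← hzg]
      rw [e, commutator_def]
      exact commutator_mem_commutator (mem_top _) (mem_top _)
  rw [h1, Nat.card_zpowers, hzPo]

end Hyp

end Cfsg.Agent.H25.CS3
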