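import Cfsg.Prelude

set_option autoImplicit false
open Cfsg

/-!
# Transfer of crossed homomorphisms and Gaschütz' splitting criterion
-/

namespace Cfsg.Agent.H25

open Subgroup

variable {G : Type*} [Group G]

/-- crossed homomorphisms into a normal subgroup -/
def IsCr (A : Subgroup G) [A.Normal] (β : G → A) : Prop :=
  ∀ g h, β (g * h) = β g * MulAut.conjNormal g (β h)

/-- the exponents of crossed homomorphisms on `A` -/
def CrExp (A : Subgroup G) [A.Normal] (m : ℤ) : Prop := ∃ β : G → A, IsCr A β ∧ ∀ a : A, β a = a ^ m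

section

variable (A : Subgroup G) [A.Normal] (hA : ∀ x y : A, x * y = y * x)

include hA

theorem CrExp.add {m n : ℤ} (hm : CrExp A m) (hn : CrExp A n) : CrExp A (m + n) := by
  obtain ⟨β, h1, h2⟩ := hm
  obtain ⟨γ, h3, h4⟩ := hn
  refine ⟨fun g => β g * γ g, ?_, ?_⟩
  · intro g h
    show β (g * h) * γ (g * h) = β g * γ g * MulAut.conjNormal g (β h * γ h)
    rw [h1, h3, map_mul]
    calc β g * MulAut.conjNormal g (β h) * (γ g * MulAut.conjNormal g (γ h))
        = β g * (MulAut.conjNormal g (β h) * γ g) * MulAut.conjNormal g (γ h) := by group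
      _ = β g * (γ g * MulAut.conjNormal g (β h)) * MulAut.conjNormal g (γ h) := by rw [hA (γ g)]
      _ = _ := by group
  · intro a
    show β a * γ a = _
    rw [h2, h4, zpow_add]

theorem CrExp.neg {m : ℤ} (hm : CrExp A m) : CrExp A (-m) := by
  obtain ⟨β, h1, h2⟩ := hm
  refine ⟨fun g => (β g)⁻¹, ?_, ?_⟩
  · intro g h
    show (β (g * h))⁻¹ = (β g)⁻¹ * MulAut.conjNormal g (β h)⁻¹
    rw [h1, mul_inv_rev, map_inv, hA]
  · intro a
    show (β a)⁻¹ = _
    rw [h2, zpow_neg]

omit hA in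
theorem CrExp.zero : CrExp A 0 :=
  ⟨fun _ => 1, fun g h => by simp, fun a => by simp⟩

theorem CrExp.mul (k : ℤ) {m : ℤ} (hm : CrExp A m) : CrExp A (k * m) := by
  induction k using Int.induction_on with
  | zero => rw [zero_mul]; exact CrExp.zero A
  | succ k ih =>
    rw [add_mul, one_mul]
    exact CrExp.add A hA ih hm
  | pred k ih =>
    rw [sub_mul, one_mul, sub_eq_add_neg]
    exact CrExp.add A hA ih (CrExp.neg A hA hm)

/-- exponent one gives a complement -/
theorem CrExp.exists_complement (h : CrExp A 1) : ∃ K : Subgroup G, K.IsComplement' A := by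
  obtain ⟨β, h1, h2⟩ := h
  have hone : β 1 = 1 := by
    have := h1 1 1
    rw [mul_one, map_one, MulAut.one_apply] at this
    exact left_eq_mul.1 this
  let K : Subgroup G :=
    { carrier := {g | β g = 1}
      one_mem' := hone
      mul_mem' := by
        intro a b ha hb
        show β (a * b) = 1
        rw [h1, (ha : β a = 1), (hb : β b = 1), map_one, mul_one]
      inv_mem' := by
        intro a ha
        show β a⁻¹ = 1
        have := h1 a⁻¹ a
        rw [inv_mul_cancel, hone, (ha : β a = 1), map_one, mul_one] at this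
        exact this.symm }
  refine ⟨K, ?_⟩
  apply isComplement'_of_disjoint_and_mul_eq_univ
  · rw [disjoint_def]
    intro x hx hxA
    have h3 : β x = 1 := hx
    have h4 := h2 ⟨x, hxA⟩
    rw [zpow_one] at h4
    have : (⟨x, hxA⟩ : A) = 1 := h4.symm.trans h3
    exact congrArg Subtype.val this
  · rw [Set.eq_univ_iff_forall]
    intro g
    -- `g = (g b) b⁻¹` with `b ∈ A`
    have h3 : β ((β g : G)⁻¹ * g) = 1 := by
      have h4 := h1 ((β g : G)⁻¹) g
      have h5 := h2 (β g)⁻¹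
      rw [zpow_one] at h5
      have h5' : β ((β g : G)⁻¹) = (β g)⁻¹ := h5
      rw [h4, h5']
      have h6 : MulAut.conjNormal ((β g : G)⁻¹) (β g) = β g := by
        apply Subtype.ext
        rw [MulAut.conjNormal_apply]
        group
      rw [h6, inv_mul_cancel]
    refine ⟨(β g : G)⁻¹ * g, h3, g⁻¹ * (β g : G) * g, ?_, ?_⟩
    · have := (‹A.Normal›).conj_mem _ (β g).2 g⁻¹
      rwa [inv_inv] at this
    · show (β g : G)⁻¹ * g * (g⁻¹ * (β g : G) * g) = g
      group

end

section transfer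

variable [Finite G] (A : Subgroup G) [A.Normal] (hA : ∀ x y : A, x * y = y * x)

include hA

/-- Transfer of a crossed homomorphism. -/
theorem CrExp.of_partial_complement (H K : Subgroup G) (hAH : A ≤ H) (hKA : K ⊓ A = ⊥)
    (hH : K ⊔ A = H) : CrExp A H.index := by
  classical
  letI : CommGroup A := { (inferInstance : Group A) with mul_comm := hA }
  haveI := Fintype.ofFinite (G ⧸ H)
  -- the crossed homomorphism of `H`
  have hex : ∀ h ∈ H, ∃ a : A, (a : G)⁻¹ * h ∈ K := by
    intro h hh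
    rw [← hH, sup_comm, mem_sup_of_normal_left] at hh
    obtain ⟨a, ha, k, hk, rfl⟩ := hh
    exact ⟨⟨a, ha⟩, by simpa using hk⟩
  have huniq : ∀ (h : G) (a b : A), (a : G)⁻¹ * h ∈ K → (b : G)⁻¹ * h ∈ K → a = b := by
    intro h a b ha hb
    have h1 : (a : G)⁻¹ * b ∈ K ⊓ A := by
      refine ⟨?_, A.mul_mem (A.inv_mem a.2) b.2⟩
      have h2 := K.mul_mem ha (K.inv_mem hb)
      have h3 : (a : G)⁻¹ * h * ((b : G)⁻¹ * h)⁻¹ = (a : G)⁻¹ * b := by group
      rwa [h3] at h2
    rw [hKA, mem_bot, inv_mul_eq_one] at h1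
    exact Subtype.ext h1
  choose! α hα using hex
  have hαA : ∀ a : A, α a = a := by
    intro a
    apply huniq a _ _ (hα a (hAH a.2))
    rw [inv_mul_cancel]; exact K.one_mem
  have hαmul : ∀ h₁ ∈ H, ∀ h₂ ∈ H, α (h₁ * h₂) = α h₁ * MulAut.conjNormal h₁ (α h₂) := by
    intro h₁ hh₁ h₂ hh₂
    apply huniq (h₁ * h₂) _ _ (hα _ (H.mul_mem hh₁ hh₂))
    have e1 := K.mul_mem (hα h₁ hh₁) (hα h₂ hh₂)
    have e2 : ((α h₁ * MulAut.conjNormal h₁ (α h₂) : A) : G) =
        (α h₁ : G) * (h₁ * (α h₂ : G) * h₁⁻¹) := by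
      rw [Subgroup.coe_mul, MulAut.conjNormal_apply]
    have e3 : (α h₁ : G) * (h₁ * (α h₂ : G) * h₁⁻¹) =
        (h₁ * (α h₂ : G) * h₁⁻¹) * (α h₁ : G) := by
      have := hA (α h₁) (MulAut.conjNormal h₁ (α h₂))
      have := congrArg Subtype.val this
      rwa [Subgroup.coe_mul, Subgroup.coe_mul, MulAut.conjNormal_apply] at this
    rw [e2, e3]
    have e4 : ((h₁ * (α h₂ : G) * h₁⁻¹) * (α h₁ : G))⁻¹ * (h₁ * h₂) =
        (α h₁ : G)⁻¹ * h₁ * ((α h₂ : G)⁻¹ * h₂) := by group
    rw [e4]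
    exact e1
  let r : G ⧸ H → G := Quotient.out
  have hr : ∀ q, ((r q : G) : G ⧸ H) = q := fun q => QuotientGroup.out_eq' q
  have hrH : ∀ (g : G) (q : G ⧸ H), (r (g • q))⁻¹ * g * r q ∈ H := by
    intro g q
    rw [mul_assoc, ← QuotientGroup.eq, hr]
    conv_lhs => rw [← hr q]
    rfl
  let F : G → G ⧸ H → A := fun g q => MulAut.conjNormal (r (g • q)) (α ((r (g • q))⁻¹ * g * r q))
  refine ⟨fun g => ∏ q, F g q, ?_, ?_⟩
  · intro g₁ g₂
    have h1 : ∀ q, F (g₁ * g₂) q = F g₁ (g₂ • q) * MulAut.conjNormal g₁ (F g₂ q) := by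
      intro q
      have e1 : (r ((g₁ * g₂) • q))⁻¹ * (g₁ * g₂) * r q =
          ((r (g₁ • g₂ • q))⁻¹ * g₁ * r (g₂ • q)) * ((r (g₂ • q))⁻¹ * g₂ * r q) := by
        rw [mul_smul]; group
      show MulAut.conjNormal (r ((g₁ * g₂) • q)) (α ((r ((g₁ * g₂) • q))⁻¹ * (g₁ * g₂) * r q)) = _
      rw [e1, hαmul _ (hrH g₁ (g₂ • q)) _ (hrH g₂ q), map_mul, ← MulAut.mul_apply, ← map_mul, mul_smul]
      congr 1
      show _ = MulAut.conjNormal g₁ (MulAut.conjNormal (r (g₂ • q)) _)
      rw [← MulAut.mul_apply, ← map_mul]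
      congr 2
      group
    show ∏ q, F (g₁ * g₂) q = (∏ q, F g₁ q) * MulAut.conjNormal g₁ (∏ q, F g₂ q)
    rw [Finset.prod_congr rfl (fun q _ => h1 q), Finset.prod_mul_distrib, map_prod]
    congr 1
    exact Equiv.prod_comp (MulAction.toPerm g₂) (F g₁)
  · intro a
    have h1 : ∀ q, F a q = a := by
      intro q
      have hq : (a : G) • q = q := by
        conv_lhs => rw [← hr q]
        conv_rhs => rw [← hr q]
        show (((a : G) * r q : G) : G ⧸ H) = ((r q : G) : G ⧸ H)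
        rw [QuotientGroup.eq]
        apply hAH
        have := (‹A.Normal›).conj_mem _ (A.inv_mem a.2) (r q)⁻¹
        have e : (r q)⁻¹ * (a : G)⁻¹ * (r q)⁻¹⁻¹ = ((a : G) * r q)⁻¹ * r q := by group
        rwa [e] at this
      show MulAut.conjNormal (r ((a : G) • q)) (α ((r ((a : G) • q))⁻¹ * a * r q)) = a
      rw [hq]
      have h2 : (r q)⁻¹ * (a : G) * r q ∈ A := by
        have := (‹A.Normal›).conj_mem _ a.2 (r q)⁻¹
        rwa [inv_inv] at this
      have h3 := hαA ⟨_, h2⟩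
      have h3' : α ((r q)⁻¹ * (a : G) * r q) = ⟨_, h2⟩ := h3
      rw [h3']
      apply Subtype.ext
      rw [MulAut.conjNormal_apply]
      show r q * ((r q)⁻¹ * (a : G) * r q) * (r q)⁻¹ = a
      group
    show ∏ q, F a q = a ^ (H.index : ℤ)
    rw [Finset.prod_congr rfl (fun q _ => h1 q), Finset.prod_const, Finset.card_univ,
      ← Nat.card_eq_fintype_card, ← index_eq_card, zpow_natCast]

/-- **Gaschütz**: an abelian normal subgroup has a complement as soon as it has one in the preimage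
of a Sylow `p`-subgroup for every prime. -/
theorem exists_complement_of_partial
    (h : ∀ p : ℕ, p.Prime → p ∣ A.index → ∃ H K : Subgroup G, A ≤ H ∧ K ⊓ A = ⊥ ∧ K ⊔ A = H ∧
      ¬ p ∣ H.index) : ∃ K : Subgroup G, K.IsComplement' A := by
  apply CrExp.exists_complement A hA
  let I : AddSubgroup ℤ :=
    { carrier := {m | CrExp A m}
      zero_mem' := CrExp.zero A
      add_mem' := fun hm hn => CrExp.add A hA hm hn
      neg_mem' := fun hm => CrExp.neg A hA hm }
  obtain ⟨d, hd⟩ := Int.subgroup_cyclic I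
  have hmem : ∀ m : ℤ, CrExp A m ↔ d ∣ m := by
    intro m
    have : CrExp A m ↔ m ∈ I := Iff.rfl
    rw [this, hd, AddSubgroup.mem_closure_singleton]
    constructor
    · rintro ⟨k, rfl⟩
      exact Dvd.intro_left k rfl
    · rintro ⟨k, rfl⟩
      exact ⟨k, by rw [smul_eq_mul, mul_comm]⟩
  have hidx : d ∣ (A.index : ℤ) := by
    rw [← hmem]
    exact CrExp.of_partial_complement A hA A ⊥ le_rfl (bot_inf_eq _) (bot_sup_eq _)
  rw [hmem]
  by_contra hd1
  have hd2 : d.natAbs ≠ 1 := by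
    intro h1
    apply hd1
    rw [← Int.natAbs_dvd, h1]
    exact one_dvd _
  obtain ⟨p, hp, hpd⟩ := Nat.exists_prime_and_dvd hd2
  have hpi : p ∣ A.index := by
    have : (p : ℤ) ∣ (A.index : ℤ) := (Int.natCast_dvd.2 hpd).trans hidx
    exact_mod_cast this
  obtain ⟨H, K, h1, h2, h3, h4⟩ := h p hp hpi
  have h5 : d ∣ (H.index : ℤ) := by
    rw [← hmem]
    exact CrExp.of_partial_complement A hA H K h1 h2 h3
  apply h4
  have : (p : ℤ) ∣ (H.index : ℤ) := (Int.natCast_dvd.2 hpd).trans h5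
  exact_mod_cast this

end transfer

end Cfsg.Agent.H25
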