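import Mathlib
import Cfsg.Agent.H23.Coprime5
import Cfsg.Agent.H20.Fpf

/-!
Operator groups whose order is a product of two primes.
-/

set_option autoImplicit false

namespace Cfsg.Agent.H25

open Subgroup
open scoped commutatorElement

theorem prime_of_dvd_mul {p q d : ℕ} (hp : p.Prime) (hq : q.Prime) (h : d ∣ p * q) (h1 : d ≠ 1)
    (h2 : d ≠ p * q) : d.Prime := by
  by_cases hpd : p ∣ d
  · obtain ⟨e, rfl⟩ := hpd
    have h3 : e ∣ q := Nat.dvd_of_mul_dvd_mul_left hp.pos h
    rcases (Nat.dvd_prime hq).mp h3 with h4 | h4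
    · rw [h4, mul_one]; exact hp
    · rw [h4] at h2; exact absurd rfl h2
  · have h3 : Nat.Coprime d p := ((Nat.Prime.coprime_iff_not_dvd hp).mpr hpd).symm
    have h4 : d ∣ q := h3.dvd_of_dvd_mul_left h
    rcases (Nat.dvd_prime hq).mp h4 with h5 | h5
    · exact absurd h5 h1
    · rw [h5]; exact hq

section

variable {Γ : Type*} [Group Γ] [Finite Γ] {A : Subgroup Γ}

theorem sub_prime_pq (hA : ∃ p q : ℕ, p.Prime ∧ q.Prime ∧ Nat.card A = p * q) {D : Subgroup Γ} (hD : D ≤ A)
    (h1 : D ≠ ⊥) (h2 : D ≠ A) : (Nat.card D).Prime := by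
  obtain ⟨p, q, hp, hq, hc⟩ := hA
  refine prime_of_dvd_mul hp hq (hc ▸ card_dvd_of_le hD) (fun h => h1 (card_eq_one.mp h)) fun h => h2 ?_
  rw [← hc] at h
  exact eq_of_le_of_card_ge hD h.ge

theorem eq_or_eq_pq (hA : ∃ p q : ℕ, p.Prime ∧ q.Prime ∧ Nat.card A = p * q) {a : Γ}
    (hap : (orderOf a).Prime) {D : Subgroup Γ} (haD : zpowers a ≤ D) (hD : D ≤ A) :
    D = zpowers a ∨ D = A := by
  by_cases h2 : D = A
  · exact Or.inr h2
  left
  have h1 : D ≠ ⊥ := by
    rintro rfl
    have h3 : a = 1 := mem_bot.mp (haD (mem_zpowers a))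
    rw [h3, orderOf_one] at hap
    exact Nat.not_prime_one hap
  have h3 := sub_prime_pq hA hD h1 h2
  have h4 : Nat.card (zpowers a) ∣ Nat.card D := card_dvd_of_le haD
  rw [Nat.card_zpowers] at h4
  have h5 : orderOf a = Nat.card D := (Nat.prime_dvd_prime_iff_eq hap h3).mp h4
  exact (eq_of_le_of_card_ge haD (by rw [Nat.card_zpowers, h5])).symm

theorem sup_conj_pq (hA : ∃ p q : ℕ, p.Prime ∧ q.Prime ∧ Nat.card A = p * q) {a : Γ} (ha : a ∈ A)
    (hap : (orderOf a).Prime) (hn : ¬ A ≤ normalizer (zpowers a : Set Γ)) {g : Γ} (hg : g ∈ A)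
    (hga : g ∉ zpowers a) : zpowers a ⊔ zpowers (g * a * g⁻¹) = A := by
  have hza : zpowers a ≤ A := zpowers_le.mpr ha
  have h1 : zpowers (g * a * g⁻¹) ≤ A := zpowers_le.mpr (mul_mem (mul_mem hg ha) (inv_mem hg))
  rcases eq_or_eq_pq hA hap le_sup_left (sup_le hza h1) with h2 | h2
  · exfalso
    -- `g` normalizes `<a>`
    have h3 : g * a * g⁻¹ ∈ zpowers a := by
      rw [← h2]; exact mem_sup_right (mem_zpowers _)
    have h4 : g ∈ normalizer (zpowers a : Set Γ) := by
      haveI : Finite (zpowers a : Set Γ) := inferInstanceAs (Finite (zpowers a))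
      apply mem_normalizer_fintype
      rintro _ ⟨i, rfl⟩
      show g * a ^ i * g⁻¹ ∈ zpowers a
      rw [← conj_zpow]
      exact zpow_mem h3 i
    rcases eq_or_eq_pq hA hap (D := A ⊓ normalizer (zpowers a : Set Γ)) (le_inf hza le_normalizer)
      inf_le_left with h5 | h5
    · apply hga
      rw [← h5]; exact ⟨hg, h4⟩
    · apply hn
      rw [← h5]; exact inf_le_right
  · exact h2

/-- `U = [U,a] [U,b] U'` if `a`, `b` generate a coprime group of operators without fixed points -/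
theorem exists_decomp_gen {U : Subgroup Γ} (hn : A ≤ normalizer (U : Set Γ))
    (hcop : (Nat.card A).Coprime (Nat.card U)) (hs : Group.IsSolvable U)
    (hfix : U ⊓ centralizer (A : Set Γ) = ⊥) {a b : Γ} (hab : zpowers a ⊔ zpowers b = A) {y : Γ} (hy : y ∈ U) :
    ∃ m ∈ ⁅U, zpowers a⁆, ∃ m' ∈ ⁅U, zpowers b⁆, ∃ c ∈ ⁅U, U⁆, y = c * (m * m') := by
  have ha : zpowers a ≤ A := hab ▸ le_sup_left
  have hb : zpowers b ≤ A := hab ▸ le_sup_right
  have hXa : ⁅U, zpowers a⁆ ≤ U := H23.commutator_le_of_le_normalizer (ha.trans hn)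
  have hXb : ⁅U, zpowers b⁆ ≤ U := H23.commutator_le_of_le_normalizer (hb.trans hn)
  have hXU : ⁅U, U⁆ ≤ U := H23.commutator_le_of_le_normalizer le_normalizer
  set X : Subgroup Γ := ⁅U, zpowers a⁆ ⊔ ⁅U, zpowers b⁆ ⊔ ⁅U, U⁆ with hX
  have hXle : X ≤ U := sup_le (sup_le hXa hXb) hXU
  have key : ∀ c : Γ, zpowers c ≤ A → ⁅U, zpowers c⁆ ≤ X → zpowers c ≤ H23.centMod U X := by
    intro c hc hcX
    have h1 : zpowers c ≤ normalizer (X : Set Γ) := by
      refine H23.le_normalizer_of_conj_mem fun g hg x hx => ?_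
      have h2 : g * x * g⁻¹ = ⁅x, g⁆⁻¹ * x := by
        rw [commutatorElement_def]; group
      rw [h2]
      exact mul_mem (inv_mem (hcX (commutator_mem_commutator (hXle hx) hg))) hx
    rw [H23.le_centMod_iff h1, commutator_comm]
    exact hcX
  have h1 : A ≤ H23.centMod U X := by
    rw [← hab]
    exact sup_le (key a ha (le_sup_left.trans le_sup_left)) (key b hb (le_sup_right.trans le_sup_left))
  have h2 : ⁅U, A⁆ ≤ X := by
    rw [commutator_comm, commutator_le]
    intro g hg u hu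
    exact (h1 hg).2 u hu
  have h3 : X = U := by
    apply le_antisymm hXle
    have h4 := H23.commutator_sup_centralizer hn hcop (Or.inr hs)
    rw [hfix, sup_bot_eq] at h4
    exact h4.symm.trans_le h2
  have hyX : y ∈ X := by rw [h3]; exact hy
  -- all three subgroups are normal in `U`
  have hn1 : ⁅U, zpowers b⁆ ≤ normalizer ((⁅U, zpowers a⁆ : Subgroup Γ) : Set Γ) :=
    hXb.trans (normalizer_commutator_ge_left _ _)
  have hn2 : ⁅U, zpowers a⁆ ⊔ ⁅U, zpowers b⁆ ≤ normalizer ((⁅U, U⁆ : Subgroup Γ) : Set Γ) :=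
    (sup_le hXa hXb).trans (normalizer_commutator_ge_left _ _)
  obtain ⟨c, hc, w, hw, rfl⟩ := (H23.mem_sup_iff_of_le_normalizer hn2).mp (by
    rw [sup_comm]; exact hyX)
  obtain ⟨m, hm, m', hm', rfl⟩ := (H23.mem_sup_iff_of_le_normalizer hn1).mp hw
  exact ⟨m, hm, m', hm', c, hc, rfl⟩

omit [Finite Γ] in
/-- type I: if `<a>` is normalized by `A` then `C_H(a)` is nilpotent -/
theorem nilpotent_of_normal_pq [Finite Γ] {H : Subgroup Γ} (hA : ∃ p q : ℕ, p.Prime ∧ q.Prime ∧ Nat.card A = p * q)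
    (hn : A ≤ normalizer (H : Set Γ)) (hfix : H ⊓ centralizer (A : Set Γ) = ⊥) {a : Γ} (ha : a ∈ A)
    (hap : (orderOf a).Prime) (han : A ≤ normalizer (zpowers a : Set Γ)) :
    Group.IsNilpotent (H ⊓ centralizer (zpowers a : Set Γ) : Subgroup Γ) := by
  have hza : zpowers a ≤ A := zpowers_le.mpr ha
  have hne : zpowers a ≠ A := by
    intro h
    obtain ⟨p, q, hp, hq, hc⟩ := hA
    rw [← h, Nat.card_zpowers] at hc
    rw [hc] at hap
    exact Nat.not_prime_mul hp.ne_one hq.ne_one hap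
  obtain ⟨b, hbA, hba⟩ : ∃ b ∈ A, b ∉ zpowers a := by
    by_contra hcon
    push Not at hcon
    exact hne (le_antisymm hza hcon)
  have hab : zpowers a ⊔ zpowers b = A := by
    rcases eq_or_eq_pq hA hap le_sup_left (sup_le hza (zpowers_le.mpr hbA)) with h | h
    · exfalso
      apply hba
      rw [← h]; exact mem_sup_right (mem_zpowers b)
    · exact h
  -- the index of `<a>` is a prime `r` and `b ^ r ∈ <a>`
  obtain ⟨r, hr, hbr⟩ : ∃ r : ℕ, r.Prime ∧ b ^ r ∈ zpowers a := by
    obtain ⟨p, q, hp, hq, hc⟩ := hA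
    have h1 : (zpowers a).relIndex A ∣ p * q := by rw [← hc]; exact relIndex_dvd_card _ _
    have h2 : (zpowers a).relIndex A ≠ 1 := by
      intro h; exact hne (le_antisymm hza (relIndex_eq_one.mp h))
    have h3 : (zpowers a).relIndex A ≠ p * q := by
      intro h
      have h4 := relIndex_mul_relIndex ⊥ (zpowers a) A bot_le hza
      rw [relIndex_bot_left, relIndex_bot_left, h, ← hc, Nat.card_zpowers] at h4
      have h5 : 0 < Nat.card A := Nat.card_pos
      have h6 := hap.one_lt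
      nlinarith
    refine ⟨_, prime_of_dvd_mul hp hq h1 h2 h3, ?_⟩
    haveI hnn : ((zpowers a).subgroupOf A).Normal := normal_subgroupOf_of_le_normalizer han
    have h4 := pow_index_mem ((zpowers a).subgroupOf A) ⟨b, hbA⟩
    exact h4
  set C : Subgroup Γ := H ⊓ centralizer (zpowers a : Set Γ) with hC
  have hbH : b ∈ normalizer (H : Set Γ) := hn hbA
  have hbn : b ∈ normalizer (C : Set Γ) := by
    haveI : Finite (C : Set Γ) := inferInstanceAs (Finite C)
    apply mem_normalizer_fintype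
    rintro x ⟨hx1, hx2⟩
    refine ⟨(mem_normalizer_iff.mp hbH x).mp hx1, ?_⟩
    show b * x * b⁻¹ ∈ centralizer _
    rw [mem_centralizer_iff]
    intro z hz
    have h1 : b⁻¹ * z * b ∈ zpowers a := by
      have := (mem_normalizer_iff.mp (inv_mem (han hbA)) z).mp hz
      rwa [inv_inv] at this
    have h2 := mem_centralizer_iff.mp hx2 _ h1
    calc z * (b * x * b⁻¹) = b * ((b⁻¹ * z * b) * x) * b⁻¹ := by group
      _ = b * (x * (b⁻¹ * z * b)) * b⁻¹ := by rw [h2]
      _ = _ := by group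
  set φ : MulAut C := C.normalizerMonoidHom ⟨b, hbn⟩ with hφ
  have hφv : ∀ (j : ℕ) (x : C), (((φ ^ j) x : C) : Γ) = b ^ j * x * (b ^ j)⁻¹ := by
    intro j x
    rw [hφ, ← map_pow]; rfl
  have hit : ∀ (j : ℕ) (x : C), (φ^[j]) x = (φ ^ j) x := by
    intro j
    induction j with
    | zero => intro x; rfl
    | succ j ih => intro x; rw [Function.iterate_succ_apply, ih, pow_succ]; rfl
  refine H20.Fpf.isNilpotent_of_fpf hr _ C le_rfl φ ?_ ?_
  · intro x
    rw [hit]
    apply Subtype.ext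
    rw [hφv]
    have h1 := mem_centralizer_iff.mp x.2.2 _ hbr
    rw [h1, mul_inv_cancel_right]
  · intro x hx
    apply Subtype.ext
    have h1 := hφv 1 x
    rw [pow_one, pow_one, hx] at h1
    have h2 : (x : Γ) ∈ H ⊓ centralizer (A : Set Γ) := by
      refine ⟨x.2.1, ?_⟩
      have h3 : A ≤ centralizer {(x : Γ)} := by
        rw [← hab]
        apply sup_le
        · intro z hz
          rw [mem_centralizer_singleton_iff]
          exact mem_centralizer_iff.mp x.2.2 z hz
        · rw [zpowers_le, mem_centralizer_singleton_iff]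
          exact (mul_inv_eq_iff_eq_mul.mp h1.symm)
      show (x : Γ) ∈ centralizer _
      rw [mem_centralizer_iff]
      intro z hz
      exact mem_centralizer_singleton_iff.mp (h3 hz)
    rw [hfix, mem_bot] at h2
    exact h2

end

end Cfsg.Agent.H25
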