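import Mathlib
import Cfsg.Agent.H23.Coprime
import Cfsg.Agent.H1.Hall

/-!
Fixed point free groups of operators: stabilizers meeting all conjugates.
-/

set_option autoImplicit false

namespace Cfsg.Agent.H25

open Subgroup
open scoped Pointwise

theorem mackey_group {Γ : Type*} [Group Γ] [Finite Γ] {H A T : Subgroup Γ} [H.Normal] (hHA : H ⊔ A = ⊤)
    (hcop : (Nat.card A).Coprime (Nat.card H)) (hs : Group.IsSolvable H)
    (hA : ∀ D : Subgroup Γ, D ≤ A → D ≠ ⊥ → D ≠ A → (Nat.card D).Prime)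
    (hT : ∀ g ∈ H, ∃ a ∈ A, a ≠ 1 ∧ g * a * g⁻¹ ∈ T) :
    (∃ g ∈ H, ∀ a ∈ A, g * a * g⁻¹ ∈ T) ∨
      ∃ a ∈ A, (orderOf a).Prime ∧ (∀ h ∈ H, h * a * h⁻¹ ∈ T) ∧ ∀ a' ∈ A, a' ∈ T → a' ∈ zpowers a := by
  classical
  have hinf : ∀ x ∈ H, x ∈ A → x = 1 := by
    intro x hxH hxA
    have h1 : orderOf x ∣ Nat.card H := by
      have := orderOf_dvd_natCard (⟨x, hxH⟩ : H); rwa [orderOf_mk] at this
    have h2 : orderOf x ∣ Nat.card A := by
      have := orderOf_dvd_natCard (⟨x, hxA⟩ : A); rwa [orderOf_mk] at this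
    exact orderOf_eq_one_iff.mp (Nat.eq_one_of_dvd_coprimes hcop h2 h1)
  have hHAc : Nat.card Γ = Nat.card H * Nat.card A := by
    have h1 := H1.card_sup_mul_card_inf_of_le_normalizer (H := H) (K := A)
      (by rw [normalizer_eq_top]; exact le_top)
    have h2 : H ⊓ A = ⊥ := by
      rw [eq_bot_iff]; rintro x ⟨h3, h4⟩; rw [mem_bot]; exact hinf x h3 h4
    rw [hHA, h2, card_top, card_bot, mul_one] at h1
    exact h1
  have hidx : H.index = Nat.card A := by
    have h1 := H.card_mul_index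
    rw [hHAc] at h1
    exact Nat.eq_of_mul_eq_mul_left Nat.card_pos h1
  -- complement in T
  have hcopT : (Nat.card (H.subgroupOf T)).Coprime (H.subgroupOf T).index := by
    have h1 : (H.subgroupOf T).index ∣ Nat.card A := by
      rw [← hidx]; exact relIndex_dvd_index_of_normal H T
    have h2 : Nat.card (H.subgroupOf T) ∣ Nat.card H := by
      have h3 : Nat.card (H.subgroupOf T) = Nat.card ((H.subgroupOf T).map T.subtype) :=
        (card_map_of_injective T.subtype_injective).symm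
      rw [h3, subgroupOf_map_subtype]
      exact card_dvd_of_le inf_le_left
    exact (Nat.Coprime.coprime_dvd_left h2 (Nat.Coprime.coprime_dvd_right h1 hcop.symm))
  obtain ⟨C0, hC0⟩ := exists_right_complement'_of_coprime hcopT
  set C : Subgroup Γ := C0.map T.subtype with hC
  have hCT : C ≤ T := map_subtype_le _
  have hCcard : Nat.card C = (H.subgroupOf T).index := by
    rw [hC, card_map_of_injective T.subtype_injective]
    exact hC0.symm.index_eq_card.symm
  have hCH : H ⊓ C = ⊥ := by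
    rw [eq_bot_iff]
    rintro x ⟨hxH, ⟨y, hy, rfl⟩⟩
    have h1 : y ∈ H.subgroupOf T ⊓ C0 := ⟨hxH, hy⟩
    rw [hC0.disjoint.eq_bot, mem_bot] at h1
    rw [mem_bot, h1]; rfl
  have hTC : T ≤ H ⊔ C := by
    intro t ht
    have h1 : (⟨t, ht⟩ : T) ∈ H.subgroupOf T ⊔ C0 := by rw [hC0.sup_eq_top]; exact mem_top _
    obtain ⟨a, ha, b, hb, hab⟩ := mem_sup_of_normal_left.mp h1
    have h2 : t = a * b := (congrArg Subtype.val hab).symm
    rw [h2]
    exact mul_mem (mem_sup_left ha) (mem_sup_right ⟨b, hb, rfl⟩)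
  set D : Subgroup Γ := (H ⊔ C) ⊓ A with hD
  have hHD : H ⊔ D = H ⊔ C := by
    apply le_antisymm (sup_le le_sup_left inf_le_left)
    intro x hx
    have h1 : x ∈ H ⊔ A := by rw [hHA]; exact mem_top x
    obtain ⟨a, ha, b, hb, rfl⟩ := mem_sup_of_normal_left.mp h1
    refine mul_mem (mem_sup_left ha) (mem_sup_right ⟨?_, hb⟩)
    have h2 : b = a⁻¹ * (a * b) := by group
    rw [h2]
    exact mul_mem (mem_sup_left (inv_mem ha)) hx
  have hDH : H ⊓ D = ⊥ := by
    rw [eq_bot_iff]; rintro x ⟨h3, h4⟩; rw [mem_bot]; exact hinf x h3 h4.2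
  have hDC : Nat.card C = Nat.card D := by
    have h1 := H1.card_sup_mul_card_inf_of_le_normalizer (H := H) (K := C)
      (by rw [normalizer_eq_top]; exact le_top)
    have h2 := H1.card_sup_mul_card_inf_of_le_normalizer (H := H) (K := D)
      (by rw [normalizer_eq_top]; exact le_top)
    rw [hCH, card_bot, mul_one] at h1
    rw [hDH, card_bot, mul_one, hHD, h1] at h2
    exact Nat.eq_of_mul_eq_mul_left Nat.card_pos h2
  obtain ⟨g, hg, hgC⟩ := H23.sz_conj_ambient (A := D) (G := H) (B := C)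
    (by rw [normalizer_eq_top]; exact le_top)
    (Nat.Coprime.coprime_dvd_left (card_dvd_of_le inf_le_right) hcop) (Or.inr hs)
    (by rw [hHD]; exact le_sup_right) hDC
  have hmemD : ∀ d ∈ D, g⁻¹ * d * g ∈ T := by
    intro d hd
    rw [← hgC] at hd
    obtain ⟨c, hc, hcd⟩ := hd
    have h1 : g * c * g⁻¹ = d := hcd
    rw [← h1]
    have : g⁻¹ * (g * c * g⁻¹) * g = c := by group
    rw [this]; exact hCT hc
  by_cases hDA : D = A
  · left
    refine ⟨g⁻¹, inv_mem hg, fun a ha => ?_⟩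
    rw [inv_inv]
    exact hmemD a (hDA ▸ ha)
  right
  have hD1 : D ≠ ⊥ := by
    intro h
    obtain ⟨a, ha, ha1, haT⟩ := hT 1 (one_mem H)
    rw [one_mul, inv_one, mul_one] at haT
    have h1 : a ∈ D := ⟨hTC haT, ha⟩
    rw [h, mem_bot] at h1
    exact ha1 h1
  have hp := hA D inf_le_right hD1 hDA
  haveI : Fact (Nat.card D).Prime := ⟨hp⟩
  obtain ⟨a, haD, ha1⟩ : ∃ a ∈ D, a ≠ 1 := by
    obtain ⟨x, hx⟩ := D.ne_bot_iff_exists_ne_one.mp hD1
    exact ⟨(x : Γ), x.2, fun h => hx (Subtype.ext h)⟩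
  have hgen : ∀ d ∈ D, d ≠ 1 → zpowers d = D := by
    intro d hd hd1
    apply Subgroup.eq_of_le_of_card_ge (zpowers_le.mpr hd)
    rw [Nat.card_zpowers]
    have h1 : orderOf d ∣ Nat.card D := by
      have := orderOf_dvd_natCard (⟨d, hd⟩ : D); rwa [orderOf_mk] at this
    rcases (Nat.dvd_prime hp).mp h1 with h2 | h2
    · exact absurd (orderOf_eq_one_iff.mp h2) hd1
    · rw [h2]
  refine ⟨a, haD.2, ?_, ?_, ?_⟩
  · rw [← Nat.card_zpowers, hgen a haD ha1]; exact hp
  · intro h hh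
    obtain ⟨a', ha', ha'1, ha'T⟩ := hT h hh
    have h1 : a' ∈ D := by
      refine ⟨?_, ha'⟩
      have h2 := hTC ha'T
      have h3 : a' = h⁻¹ * (h * a' * h⁻¹) * h := by group
      rw [h3]
      exact mul_mem (mul_mem (mem_sup_left (inv_mem hh)) h2) (mem_sup_left hh)
    have h2 : a ∈ zpowers a' := by rw [hgen a' h1 ha'1]; exact haD
    obtain ⟨k, rfl⟩ := h2
    show h * a' ^ k * h⁻¹ ∈ T
    rw [← conj_zpow]
    exact zpow_mem ha'T k
  · intro a' ha' ha'T
    have h1 : a' ∈ D := ⟨hTC ha'T, ha'⟩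
    rw [hgen a haD ha1]; exact h1

end Cfsg.Agent.H25
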