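import Mathlib
import Cfsg.Agent.H3.Core1
import Cfsg.Agent.H23.HHSemi3

/-!
Weights of normal abelian subgroups on modules without fixed vectors of an operator group.
-/

set_option autoImplicit false

namespace Cfsg.Agent.H25

open Subgroup Module

section

variable {K : Type*} [Field K] {M : Type*} [AddCommGroup M] [Module K M] {Γ : Type*} [Group Γ]
variable (π : Γ →* Module.End K M) (B : Subgroup Γ)

/-- weight space -/
def WS (χ : B →* Kˣ) : Submodule K M where
  carrier := {v | ∀ b : B, π b v = (χ b : K) • v}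
  add_mem' := by
    intro v w hv hw b
    rw [map_add, hv b, hw b, smul_add]
  zero_mem' := by intro b; simp
  smul_mem' := by
    intro c v hv b
    rw [map_smul, hv b, smul_comm]

theorem mem_WS {χ : B →* Kˣ} {v : M} : v ∈ WS π B χ ↔ ∀ b : B, π b v = (χ b : K) • v := Iff.rfl

end

section

variable {E : Type*} [CommGroup E] {Γ : Type*} [Group Γ] (B : Subgroup Γ)

/-- the conjugation action on characters -/
noncomputable def dualAct [B.Normal] : Γ →* MulAut (B →* E) where
  toFun g :=
    { toFun := fun χ => χ.comp (MulAut.conjNormal g⁻¹ : MulAut B).toMonoidHom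
      invFun := fun χ => χ.comp (MulAut.conjNormal g : MulAut B).toMonoidHom
      left_inv := by
        intro χ
        ext b
        show χ (MulAut.conjNormal g⁻¹ (MulAut.conjNormal g b)) = χ b
        rw [← MulAut.mul_apply, ← map_mul, inv_mul_cancel, map_one]; rfl
      right_inv := by
        intro χ
        ext b
        show χ (MulAut.conjNormal g (MulAut.conjNormal g⁻¹ b)) = χ b
        rw [← MulAut.mul_apply, ← map_mul, mul_inv_cancel, map_one]; rfl
      map_mul' := by intro χ ψ; rfl }
  map_one' := by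
    ext χ b
    show χ (MulAut.conjNormal (1 : Γ)⁻¹ b) = χ b
    rw [inv_one, map_one]; rfl
  map_mul' := by
    intro g h
    ext χ b
    show χ (MulAut.conjNormal (g * h)⁻¹ b) =
      χ (MulAut.conjNormal h⁻¹ (MulAut.conjNormal g⁻¹ b))
    rw [mul_inv_rev, map_mul]; rfl

theorem dualAct_apply [hB : B.Normal] (g : Γ) (χ : B →* E) (b : B) :
    dualAct B g χ b = χ ⟨g⁻¹ * b * g, by
      have := hB.conj_mem b b.2 g⁻¹
      rwa [inv_inv] at this⟩ := by
  show χ (MulAut.conjNormal g⁻¹ b) = _
  have h1 : MulAut.conjNormal g⁻¹ b = (⟨g⁻¹ * b * g, by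
      have := hB.conj_mem b b.2 g⁻¹
      rwa [inv_inv] at this⟩ : B) := by
    apply Subtype.ext
    rw [MulAut.conjNormal_apply]
    show g⁻¹ * (b : Γ) * g⁻¹⁻¹ = g⁻¹ * b * g
    rw [inv_inv]
  rw [h1]

end

section

variable {K : Type*} [Field K] {M : Type*} [AddCommGroup M] [Module K M] {Γ : Type*} [Group Γ]
variable (π : Γ →* Module.End K M) (B : Subgroup Γ)

theorem map_WS [hB : B.Normal] {χ : B →* Kˣ} {v : M} (hv : v ∈ WS π B χ) (g : Γ) :
    π g v ∈ WS π B (dualAct B g χ) := by
  intro b
  rw [dualAct_apply]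
  have h1 : (b : Γ) * g = g * (g⁻¹ * b * g) := by group
  rw [← Module.End.mul_apply, ← map_mul, h1, map_mul, Module.End.mul_apply]
  have hb : g⁻¹ * b * g ∈ B := by
    have := hB.conj_mem b b.2 g⁻¹
    rwa [inv_inv] at this
  rw [hv ⟨g⁻¹ * b * g, hb⟩, map_smul]

open Classical in
/-- projection onto a weight space, up to the scalar `#B` -/
noncomputable def prj [Fintype B] (χ : B →* Kˣ) : Module.End K M :=
  ∑ b : B, ((χ b)⁻¹ : Kˣ).val • π b

theorem prj_self [Fintype B] {χ : B →* Kˣ} {v : M} (hv : v ∈ WS π B χ) :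
    prj π B χ v = (Fintype.card B : K) • v := by
  unfold prj
  rw [LinearMap.sum_apply]
  have : ∀ b ∈ (Finset.univ : Finset B), ((((χ b)⁻¹ : Kˣ).val • π b) : Module.End K M) v = v := by
    intro b _
    rw [LinearMap.smul_apply, hv b, smul_smul]
    simp
  rw [Finset.sum_congr rfl this, Finset.sum_const, Finset.card_univ, Nat.cast_smul_eq_nsmul]

theorem prj_ne [Fintype B] {χ ψ : B →* Kˣ} (hne : χ ≠ ψ) {v : M} (hv : v ∈ WS π B ψ) :
    prj π B χ v = 0 := by
  classical
  unfold prj
  rw [LinearMap.sum_apply]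
  have h1 : ∀ b ∈ (Finset.univ : Finset B), ((((χ b)⁻¹ : Kˣ).val • π b) : Module.End K M) v =
      (((Units.coeHom K).comp (χ⁻¹ * ψ)) b) • v := by
    intro b _
    rw [LinearMap.smul_apply, hv b, smul_smul]
    rfl
  rw [Finset.sum_congr rfl h1, ← Finset.sum_smul, sum_hom_units_eq_zero, zero_smul]
  intro h
  apply hne
  have h2 : χ⁻¹ * ψ = 1 := by
    ext b
    have := DFunLike.congr_fun h b
    simpa using this
  exact (inv_mul_eq_one.mp h2)

/-- vectors of a weight space fixed by the stabilizer of the weight vanish -/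
theorem ws_fixed_zero [Finite Γ] [B.Normal] (hB : (Nat.card B : K) ≠ 0) {A : Subgroup Γ}
    (hAK : (Nat.card A : K) ≠ 0) (hA : ∀ v : M, (∀ a ∈ A, π a v = v) → v = 0) {χ : B →* Kˣ} {v : M}
    (hv : v ∈ WS π B χ) (hfix : ∀ a ∈ A, dualAct B a χ = χ → π a v = v) : v = 0 := by
  classical
  haveI : Fintype B := Fintype.ofFinite B
  haveI : Fintype A := Fintype.ofFinite A
  set u : M := ∑ a : A, π a v with hu
  have hu0 : u = 0 := by
    apply hA
    intro c hc
    rw [hu, map_sum]
    refine Fintype.sum_equiv (Equiv.mulLeft (⟨c, hc⟩ : A)) _ _ fun a => ?_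
    rw [← Module.End.mul_apply, ← map_mul]; rfl
  have h1 : prj π B χ u = ∑ a : A, if dualAct B (a : Γ) χ = χ then (Fintype.card B : K) • v else 0 := by
    rw [hu, map_sum]
    refine Finset.sum_congr rfl fun a _ => ?_
    have h2 := map_WS π B hv (a : Γ)
    split_ifs with h
    · rw [h] at h2
      rw [prj_self π B h2, hfix a a.2 h]
    · exact prj_ne π B (fun h3 => h h3.symm) h2
  rw [hu0, map_zero, ← Finset.sum_filter, Finset.sum_const, ← Nat.cast_smul_eq_nsmul K, smul_smul] at h1
  -- the stabilizer is a subgroup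
  let D : Subgroup A :=
    { carrier := {a | dualAct B (a : Γ) χ = χ}
      one_mem' := by
        show dualAct B ((1 : A) : Γ) χ = χ
        rw [OneMemClass.coe_one, map_one]; rfl
      mul_mem' := by
        intro a b ha hb
        show dualAct B ((a * b : A) : Γ) χ = χ
        rw [Subgroup.coe_mul, map_mul, MulAut.mul_apply]
        have hb' : dualAct B (b : Γ) χ = χ := hb
        rw [hb']; exact ha
      inv_mem' := by
        intro a ha
        show dualAct B ((a⁻¹ : A) : Γ) χ = χ
        have ha' : dualAct B (a : Γ) χ = χ := ha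
        nth_rewrite 1 [← ha']
        rw [← MulAut.mul_apply, ← map_mul, Subgroup.coe_inv, inv_mul_cancel, map_one]; rfl }
  have hD : (Finset.univ.filter fun a : A => dualAct B (a : Γ) χ = χ).card = Nat.card D := by
    rw [← Fintype.card_subtype, ← Nat.card_eq_fintype_card]
    rfl
  rw [hD] at h1
  have hDK : (Nat.card D : K) ≠ 0 := by
    obtain ⟨k, hk⟩ := Subgroup.card_subgroup_dvd_card D
    intro h
    apply hAK
    rw [hk, Nat.cast_mul, h, zero_mul]
  have hBK : (Fintype.card B : K) ≠ 0 := by rwa [← Nat.card_eq_fintype_card]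
  have h2 : ((Nat.card D : K) * (Fintype.card B : K)) • v = 0 := h1.symm
  rcases smul_eq_zero.mp h2 with h3 | h3
  · exact absurd h3 (mul_ne_zero hDK hBK)
  · exact h3

/-- elements killed by all weights act trivially -/
theorem eq_one_of_weights [IsAlgClosed K] [FiniteDimensional K M] [Finite B] (hc : IsMulCommutative B)
    (hB : (Nat.card B : K) ≠ 0) {b : B} (h : ∀ χ : B →* Kˣ, WS π B χ ≠ ⊥ → χ b = 1) : π b = 1 := by
  haveI := hc
  haveI : NeZero (Nat.card B : K) := ⟨hB⟩
  obtain ⟨ι, _, e, μ, he⟩ := H3.exists_simul_eigenbasis (k := K) (A := B) (π.comp B.subtype)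
  apply e.ext
  intro i
  have h1 : ∀ a : B, π a (e i) = (μ i a : K) • e i := fun a => he a i
  have h2 : WS π B (μ i) ≠ ⊥ := by
    intro h3
    have h4 : e i ∈ WS π B (μ i) := h1
    rw [h3, Submodule.mem_bot] at h4
    exact e.ne_zero i h4
  rw [h1, h _ h2, Units.val_one, one_smul]
  rfl

end

end Cfsg.Agent.H25
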