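import Mathlib
import Cfsg.Agent.H25.FpfWt

/-!
Elements of prime order without fixed vectors, acting on an invariant subspace.
-/

set_option autoImplicit false

namespace Cfsg.Agent.H25

open Subgroup Module

section

variable {K : Type*} [Field K] {M : Type*} [AddCommGroup M] [Module K M] {Γ : Type*} [Group Γ]
variable (π : Γ →* Module.End K M) (W : Submodule K M)

/-- the stabilizer of a subspace -/
def stabW [Finite Γ] : Subgroup Γ where
  carrier := {g | ∀ w ∈ W, π g w ∈ W}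
  one_mem' := by intro w hw; rw [map_one]; exact hw
  mul_mem' := by
    intro a b ha hb w hw
    rw [map_mul, Module.End.mul_apply]
    exact ha _ (hb w hw)
  inv_mem' := by
    intro a ha
    have key : ∀ n : ℕ, ∀ w ∈ W, π (a ^ n) w ∈ W := by
      intro n
      induction n with
      | zero => intro w hw; rw [pow_zero, map_one]; exact hw
      | succ n ih =>
        intro w hw
        rw [pow_succ, map_mul, Module.End.mul_apply]
        exact ih _ (ha w hw)
    have h1 : a⁻¹ = a ^ (Nat.card Γ - 1) := by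
      have h2 : a * a ^ (Nat.card Γ - 1) = 1 := by
        rw [← pow_succ', Nat.sub_add_cancel Nat.card_pos, pow_card_eq_one']
      exact (eq_inv_of_mul_eq_one_right h2).symm
    show ∀ w ∈ W, π a⁻¹ w ∈ W
    rw [h1]; exact key _

theorem mem_stabW [Finite Γ] {g : Γ} : g ∈ stabW π W ↔ ∀ w ∈ W, π g w ∈ W := Iff.rfl

/-- restriction of the action to an invariant subspace -/
def resW (L : Subgroup Γ) (hL : ∀ g ∈ L, ∀ w ∈ W, π g w ∈ W) : L →* Module.End K W where
  toFun g := (π g).restrict (hL g g.2)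
  map_one' := by
    ext w
    show π ((1 : L) : Γ) w = w
    rw [OneMemClass.coe_one, map_one]; rfl
  map_mul' := by
    intro g h
    ext w
    show π ((g * h : L) : Γ) w = π g (π h w)
    rw [Subgroup.coe_mul, map_mul]; rfl

theorem resW_apply (L : Subgroup Γ) (hL : ∀ g ∈ L, ∀ w ∈ W, π g w ∈ W) (g : L) (w : W) :
    ((resW π W L hL g w : W) : M) = π g w := rfl

variable [IsAlgClosed K] [FiniteDimensional K M]

theorem lemmaP [Finite Γ] {r s : ℕ} [Fact r.Prime] [Fact s.Prime] (hrs : r ≠ s) (hrK : (r : K) ≠ 0)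
    (hsK : (s : K) ≠ 0) (hexc : ¬ ∃ m, 1 ≤ m ∧ r - 1 = s ^ m) {S : Subgroup Γ} (hS : IsPGroup s S)
    {a : Γ} (ha : a ∈ normalizer (S : Set Γ)) (har : a ^ r = 1) (hSW : ∀ x ∈ S, ∀ w ∈ W, π x w ∈ W)
    (haW : ∀ w ∈ W, π a w ∈ W) (hno : ∀ w ∈ W, π a w = w → w = 0) {x : Γ} (hx : x ∈ S) {w : M}
    (hw : w ∈ W) : π (a * x * a⁻¹ * x⁻¹) w = w := by
  classical
  set L : Subgroup Γ := S ⊔ zpowers a with hLdef
  have hL : ∀ g ∈ L, ∀ w ∈ W, π g w ∈ W := by
    have h1 : L ≤ stabW π W := sup_le hSW (zpowers_le.mpr haW)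
    exact h1
  set ρ0 := resW π W L hL with hρ0
  set φ : L →* (Module.End K W)ˣ := MonoidHom.toHomUnits ρ0 with hφ
  have hφv : ∀ g : L, ((φ g : (Module.End K W)ˣ) : Module.End K W) = ρ0 g := fun g => rfl
  haveI : Finite φ.range := by
    have : Finite (Set.range φ) := Set.finite_range φ
    exact this
  have hSL : S ≤ L := le_sup_left
  have haL : a ∈ L := mem_sup_right (mem_zpowers a)
  set Q₀ : Subgroup φ.range := (S.subgroupOf L).map φ.rangeRestrict with hQ₀
  set ρ1 : φ.range →* Module.End K W := (Units.coeHom _).comp φ.range.subtype with hρ1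
  have hinj : Function.Injective ρ1 := by
    intro g h hgh
    apply Subtype.ext
    exact Units.ext hgh
  set a' : φ.range := φ.rangeRestrict ⟨a, haL⟩ with ha'
  have ha'r : a' ^ r = 1 := by
    rw [ha', ← map_pow]
    have : (⟨a, haL⟩ : L) ^ r = 1 := Subtype.ext har
    rw [this, map_one]
  have hpg : IsPGroup r (zpowers a') := by
    rintro ⟨_, n, rfl⟩
    refine ⟨1, ?_⟩
    apply Subtype.ext
    show ((fun x => a' ^ x) n : φ.range) ^ r ^ 1 = 1
    simp only [pow_one]
    rw [← zpow_natCast, ← zpow_mul, mul_comm, zpow_mul, zpow_natCast, ha'r, one_zpow]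
  have hQp : IsPGroup s Q₀ := by
    rw [hQ₀]
    exact (hS.comap_subtype (K := L)).map _
  have hQn : a' ∈ normalizer (Q₀ : Set φ.range) := by
    haveI : Finite (Q₀ : Set φ.range) := inferInstanceAs (Finite Q₀)
    apply mem_normalizer_fintype
    rintro _ ⟨y, hy, rfl⟩
    refine ⟨⟨a, haL⟩ * y * ⟨a, haL⟩⁻¹, ?_, ?_⟩
    · show a * (y : Γ) * a⁻¹ ∈ S
      exact (mem_normalizer_iff.mp ha y).mp hy
    · rw [map_mul, map_mul, map_inv]
  have hcomm : ∀ u ∈ Q₀, a' * u = u * a' := by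
    by_contra hcon
    push Not at hcon
    have h1 := H23.hh_qgroup_semi (K := K) (V := W) (r := r) (q := s) hrs hrK hsK ρ1 hinj hpg (c := 1)
      (by rw [one_smul, ← map_pow, ha'r, map_one]) Q₀ hQp hQn hcon (Or.inl (by
        rintro ⟨w, hw⟩ h
        rw [one_smul] at h
        apply Subtype.ext
        exact hno w hw (congrArg Subtype.val h)))
    exact hexc h1.1
  have h2 := hcomm (φ.rangeRestrict ⟨x, hSL hx⟩) ⟨⟨x, hSL hx⟩, hx, rfl⟩
  have h3 : ρ0 (⟨a, haL⟩ * ⟨x, hSL hx⟩ * ⟨a, haL⟩⁻¹ * ⟨x, hSL hx⟩⁻¹) = 1 := by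
    have h4 : a' * (φ.rangeRestrict ⟨x, hSL hx⟩) * a'⁻¹ * (φ.rangeRestrict ⟨x, hSL hx⟩)⁻¹ = 1 := by
      rw [h2, mul_inv_cancel_right, mul_inv_cancel]
    have h5 := congrArg ρ1 h4
    rw [map_one] at h5
    rw [← h5, ha', ← map_inv, ← map_inv, ← map_mul, ← map_mul, ← map_mul]
    rfl
  have h6 := LinearMap.congr_fun h3 ⟨w, hw⟩
  exact congrArg Subtype.val h6

end

end Cfsg.Agent.H25
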