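import Mathlib
import Cfsg.Agent.H25.FpfLemP
import Cfsg.Agent.H25.FpfMackey

/-!
The symmetric group of degree 3 acting without fixed points: normal abelian subgroups.
-/

set_option autoImplicit false

namespace Cfsg.Agent.H25

open Subgroup Module
open scoped commutatorElement

/-- a solvable normal subgroup with a group of operators generated by `ρ`, `τ` -/
structure S3Data {Γ : Type*} [Group Γ] (H : Subgroup Γ) (ρ τ : Γ) : Prop where
  hρ : ρ ^ 3 = 1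
  hτ : τ ^ 2 = 1
  hrel : τ * ρ * τ⁻¹ = ρ⁻¹
  hcop : (Nat.card H).Coprime 6
  hsolv : Group.IsSolvable H
  hfix : ∀ g ∈ H, ρ * g = g * ρ → τ * g = g * τ → g = 1
  hsup : H ⊔ closure {ρ, τ} = ⊤

namespace S3Data

variable {Γ : Type*} [Group Γ] {H : Subgroup Γ} {ρ τ : Γ}

theorem mul_tau (d : S3Data H ρ τ) (i : ℤ) : τ * ρ ^ i = ρ ^ (-i) * τ := by
  have h1 : τ * ρ ^ i * τ⁻¹ = ρ ^ (-i) := by
    rw [← conj_zpow, d.hrel, inv_zpow, zpow_neg]
  rw [← h1, inv_mul_cancel_right]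

theorem tau_mul (d : S3Data H ρ τ) (i : ℤ) : ρ ^ i * τ = τ * ρ ^ (-i) := by
  rw [d.mul_tau, neg_neg]

theorem tau_inv (d : S3Data H ρ τ) : τ⁻¹ = τ := by
  have h := d.hτ
  rw [pow_two] at h
  exact inv_eq_of_mul_eq_one_left h

theorem mem_cases (d : S3Data H ρ τ) {a : Γ} (ha : a ∈ closure {ρ, τ}) :
    ∃ i : ℤ, a = ρ ^ i ∨ a = ρ ^ i * τ := by
  induction ha using closure_induction with
  | mem x hx =>
    rcases hx with rfl | hx
    · exact ⟨1, Or.inl (by rw [zpow_one])⟩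
    · rw [Set.mem_singleton_iff] at hx
      exact ⟨0, Or.inr (by rw [hx, zpow_zero, one_mul])⟩
  | one => exact ⟨0, Or.inl (by rw [zpow_zero])⟩
  | mul x y _ _ hx hy =>
    obtain ⟨i, hi⟩ := hx
    obtain ⟨j, hj⟩ := hy
    rcases hi with rfl | rfl <;> rcases hj with rfl | rfl
    · exact ⟨i + j, Or.inl (zpow_add _ _ _).symm⟩
    · exact ⟨i + j, Or.inr (by rw [← mul_assoc, ← zpow_add])⟩
    · exact ⟨i - j, Or.inr (by rw [mul_assoc, d.mul_tau, ← mul_assoc, ← zpow_add, sub_eq_add_neg])⟩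
    · refine ⟨i - j, Or.inl ?_⟩
      have h := d.hτ
      rw [pow_two] at h
      rw [mul_assoc, ← mul_assoc τ, d.mul_tau, mul_assoc, h, mul_one, ← zpow_add, sub_eq_add_neg]
  | inv x _ hx =>
    obtain ⟨i, hi⟩ := hx
    rcases hi with rfl | rfl
    · exact ⟨-i, Or.inl (by rw [zpow_neg])⟩
    · refine ⟨i, Or.inr ?_⟩
      rw [mul_inv_rev, d.tau_inv, ← zpow_neg, d.mul_tau, neg_neg]

theorem zpow_mem_gen (d : S3Data H ρ τ) {i : ℤ} (hi : ρ ^ i ≠ 1) : ρ ∈ zpowers (ρ ^ i) := by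
  have h3 : ¬ (3 : ℤ) ∣ i := by
    rintro ⟨k, rfl⟩
    apply hi
    rw [zpow_mul]
    have : ρ ^ (3 : ℤ) = 1 := by exact_mod_cast d.hρ
    rw [this, one_zpow]
  have h4 : IsCoprime i 3 := by
    rw [Int.isCoprime_iff_gcd_eq_one, Int.gcd_comm]
    exact (Int.prime_three.coprime_iff_not_dvd).mpr h3 |> Int.isCoprime_iff_gcd_eq_one.mp
  obtain ⟨u, v, huv⟩ := h4
  refine ⟨u, ?_⟩
  show (ρ ^ i) ^ u = ρ
  have : ρ ^ (3 : ℤ) = 1 := by exact_mod_cast d.hρ
  calc (ρ ^ i) ^ u = ρ ^ (u * i) * (ρ ^ (3 : ℤ)) ^ v := by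
        rw [this, one_zpow, mul_one, ← zpow_mul, mul_comm]
    _ = ρ ^ (u * i + v * 3) := by rw [← zpow_mul, ← zpow_add, mul_comm 3 v]
    _ = ρ := by rw [huv, zpow_one]

theorem change (d : S3Data H ρ τ) (i : ℤ) : S3Data H ρ (ρ ^ i * τ) := by
  have hτ2 : τ * τ = 1 := by rw [← pow_two]; exact d.hτ
  have hsq : (ρ ^ i * τ) ^ 2 = 1 := by
    rw [pow_two, mul_assoc, ← mul_assoc τ, d.mul_tau, mul_assoc, hτ2, mul_one, ← zpow_add,
      add_neg_cancel, zpow_zero]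
  refine ⟨d.hρ, hsq, ?_, d.hcop, d.hsolv, ?_, ?_⟩
  · have h1 : ρ ^ i * τ * ρ * (ρ ^ i * τ)⁻¹ = ρ ^ i * (τ * ρ * τ⁻¹) * (ρ ^ i)⁻¹ := by group
    rw [h1, d.hrel]
    group
  · intro g hg h1 h2
    refine d.hfix g hg h1 ?_
    have h3 : Commute (ρ ^ i) g := Commute.zpow_left h1 i
    have h4 : Commute (ρ ^ i * τ) g := h2
    have h5 : τ = (ρ ^ i)⁻¹ * (ρ ^ i * τ) := by group
    rw [h5]
    exact (h3.inv_left.mul_left h4)
  · rw [← d.hsup]
    congr 1
    have m1 : ∀ x y : Γ, x ∈ closure ({x, y} : Set Γ) := fun x y => subset_closure (Or.inl rfl)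
    have m2 : ∀ x y : Γ, y ∈ closure ({x, y} : Set Γ) := fun x y => subset_closure (Or.inr rfl)
    apply le_antisymm
    · rw [closure_le]
      rintro x (hx | hx)
      · rw [hx]; exact m1 _ _
      · rw [Set.mem_singleton_iff] at hx
        rw [hx]
        exact mul_mem (zpow_mem (m1 _ _) i) (m2 _ _)
    · rw [closure_le]
      rintro x (hx | hx)
      · rw [hx]; exact m1 _ _
      · rw [Set.mem_singleton_iff] at hx
        rw [hx]
        have h5 : (ρ ^ i)⁻¹ * (ρ ^ i * τ) ∈ closure ({ρ, ρ ^ i * τ} : Set Γ) :=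
          mul_mem (inv_mem (zpow_mem (m1 _ _) i)) (m2 _ _)
        rwa [inv_mul_cancel_left] at h5

/-- conjugating the generators of the group of operators -/
theorem card_dvd [Finite Γ] (d : S3Data H ρ τ) : Nat.card (closure {ρ, τ} : Subgroup Γ) ∣ 6 := by
  have h1 : (closure {ρ, τ} : Subgroup Γ) = zpowers ρ ⊔ zpowers τ := by
    rw [Set.insert_eq, Subgroup.closure_union, ← zpowers_eq_closure, ← zpowers_eq_closure]
  have h2 := H1.card_sup_mul_card_inf_of_le_normalizer (H := zpowers ρ) (K := zpowers τ) (by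
    rw [zpowers_le]
    haveI : Finite (zpowers ρ : Set Γ) := inferInstanceAs (Finite (zpowers ρ))
    apply mem_normalizer_fintype
    rintro _ ⟨i, rfl⟩
    refine ⟨-i, ?_⟩
    show ρ ^ (-i) = τ * ρ ^ i * τ⁻¹
    rw [d.mul_tau, mul_inv_cancel_right])
  rw [h1]
  have h3 : Nat.card (zpowers ρ) ∣ 3 := by rw [Nat.card_zpowers]; exact orderOf_dvd_of_pow_eq_one d.hρ
  have h4 : Nat.card (zpowers τ) ∣ 2 := by rw [Nat.card_zpowers]; exact orderOf_dvd_of_pow_eq_one d.hτ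
  exact (Dvd.intro _ h2).trans (mul_dvd_mul h3 h4)

theorem sub_prime [Finite Γ] (d : S3Data H ρ τ) {D : Subgroup Γ} (hD : D ≤ closure {ρ, τ}) (h1 : D ≠ ⊥)
    (h2 : D ≠ closure {ρ, τ}) : (Nat.card D).Prime := by
  have h3 := card_dvd_of_le hD
  have h4 := d.card_dvd
  have h5 : Nat.card D ≠ 1 := fun h => h1 (card_eq_one.mp h)
  have h6 : Nat.card D ≠ Nat.card (closure {ρ, τ} : Subgroup Γ) := fun h =>
    h2 (eq_of_le_of_card_ge hD h.ge)
  have h7 : Nat.card (closure {ρ, τ} : Subgroup Γ) ≤ 6 := Nat.le_of_dvd (by norm_num) h4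
  have h8 : Nat.card D ≤ 6 := Nat.le_of_dvd (by norm_num) (h3.trans h4)
  have h9 := h3.trans h4
  have h10 : 0 < Nat.card (closure {ρ, τ} : Subgroup Γ) := Nat.card_pos
  generalize Nat.card D = n at *
  generalize Nat.card (closure {ρ, τ} : Subgroup Γ) = m at *
  interval_cases n
  · simp at h9
  · exact absurd rfl h5
  · norm_num
  · norm_num
  · revert h9; decide
  · revert h9; decide
  · exfalso; apply h6
    interval_cases m <;> revert h3 <;> decide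

section

variable [Finite Γ] [hHn : H.Normal]

omit hHn in
theorem cop (d : S3Data H ρ τ) {D B : Subgroup Γ} (hD : D ≤ closure {ρ, τ}) (hB : B ≤ H) :
    (Nat.card D).Coprime (Nat.card B) := by
  have h1 := (card_dvd_of_le hD).trans d.card_dvd
  exact Nat.Coprime.coprime_dvd_left h1 (Nat.Coprime.coprime_dvd_right (card_dvd_of_le hB) d.hcop.symm)

theorem inv_of_comm (d : S3Data H ρ τ) {x : Γ} (hx : x ∈ H) (hρx : ρ * x = x * ρ) :
    τ * x * τ⁻¹ = x⁻¹ ∧ ∀ y ∈ H, ρ * y = y * ρ → x * y = y * x := by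
  set C : Subgroup Γ := H ⊓ centralizer {ρ} with hC
  have hmemC : ∀ y, y ∈ C ↔ y ∈ H ∧ ρ * y = y * ρ := by
    intro y
    rw [hC, mem_inf, mem_centralizer_singleton_iff]
    constructor
    · rintro ⟨h1, h2⟩; exact ⟨h1, h2.symm⟩
    · rintro ⟨h1, h2⟩; exact ⟨h1, h2.symm⟩
  have hτC : ∀ y ∈ C, τ * y * τ⁻¹ ∈ C := by
    intro y hy
    rw [hmemC] at hy ⊢
    refine ⟨hHn.conj_mem y hy.1 τ, ?_⟩
    have h1 : ρ * τ = τ * ρ⁻¹ := by
      have := d.tau_mul 1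
      rwa [zpow_one, zpow_neg, zpow_one] at this
    have h2 : ρ⁻¹ * y = y * ρ⁻¹ := (show Commute ρ y from hy.2).inv_left
    have h3 : ρ⁻¹ * τ⁻¹ = τ⁻¹ * ρ := by
      have := congrArg (·⁻¹) (d.mul_tau 1)
      simp only [zpow_one, mul_inv_rev, zpow_neg, inv_inv] at this
      exact this
    calc ρ * (τ * y * τ⁻¹) = (ρ * τ) * y * τ⁻¹ := by group
      _ = τ * (ρ⁻¹ * y) * τ⁻¹ := by rw [h1]; group
      _ = τ * y * (ρ⁻¹ * τ⁻¹) := by rw [h2]; group
      _ = τ * y * τ⁻¹ * ρ := by rw [h3]; group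
  let φ : C →* C :=
    { toFun := fun y => ⟨τ * y * τ⁻¹, hτC y y.2⟩
      map_one' := by apply Subtype.ext; show τ * 1 * τ⁻¹ = 1; group
      map_mul' := by
        intro y z; apply Subtype.ext
        show τ * (y * z) * τ⁻¹ = (τ * y * τ⁻¹) * (τ * z * τ⁻¹); group }
  have hφv : ∀ y : C, ((φ y : C) : Γ) = τ * y * τ⁻¹ := fun y => rfl
  have hfp : MonoidHom.FixedPointFree φ := by
    intro y hy
    apply Subtype.ext
    have h1 := congrArg Subtype.val hy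
    rw [hφv] at h1
    exact d.hfix y ((hmemC _).mp y.2).1 ((hmemC _).mp y.2).2 (mul_inv_eq_iff_eq_mul.mp h1)
  have hinv : Function.Involutive φ := by
    intro y
    apply Subtype.ext
    rw [hφv, hφv]
    have hτ2 : τ * τ = 1 := by rw [← pow_two]; exact d.hτ
    calc τ * (τ * y * τ⁻¹) * τ⁻¹ = (τ * τ) * y * (τ * τ)⁻¹ := by group
      _ = y := by rw [hτ2]; group
  have hxC : x ∈ C := (hmemC x).mpr ⟨hx, hρx⟩
  constructor
  · have h1 := congrFun (hfp.coe_eq_inv_of_involutive hinv) ⟨x, hxC⟩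
    exact congrArg Subtype.val h1
  · intro y hy hρy
    have hyC : y ∈ C := (hmemC y).mpr ⟨hy, hρy⟩
    exact congrArg Subtype.val (hfp.commute_all_of_involutive hinv ⟨x, hxC⟩ ⟨y, hyC⟩)

end

end S3Data

section

variable {E : Type*} [CommGroup E] {Γ : Type*} [Group Γ] (B : Subgroup Γ) [hBn : B.Normal]

/-- the stabilizer of a character -/
def stabChi (χ : B →* E) : Subgroup Γ where
  carrier := {g | dualAct B g χ = χ}
  one_mem' := by
    show dualAct B (1 : Γ) χ = χ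
    rw [map_one]; rfl
  mul_mem' := by
    intro a b ha hb
    show dualAct B (a * b) χ = χ
    rw [map_mul, MulAut.mul_apply]
    have hb' : dualAct B b χ = χ := hb
    rw [hb']; exact ha
  inv_mem' := by
    intro a ha
    show dualAct B a⁻¹ χ = χ
    have ha' : dualAct B a χ = χ := ha
    nth_rewrite 1 [← ha']
    rw [← MulAut.mul_apply, ← map_mul, inv_mul_cancel, map_one]; rfl

variable {B}

theorem mem_stabChi {χ : B →* E} {g : Γ} : g ∈ stabChi B χ ↔ dualAct B g χ = χ := Iff.rfl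

theorem dualAct_mul_apply (g h : Γ) (χ : B →* E) :
    dualAct B (g * h) χ = dualAct B g (dualAct B h χ) := by
  rw [map_mul]; rfl

theorem dualAct_apply_of_mem (g : Γ) (χ : B →* E) {b : Γ} (hb : b ∈ B) (hb' : g⁻¹ * b * g ∈ B) :
    dualAct B g χ ⟨b, hb⟩ = χ ⟨g⁻¹ * b * g, hb'⟩ := dualAct_apply B g χ ⟨b, hb⟩

/-- a character fixed by `D` vanishes on `[B,D]` -/
theorem chi_commutator {χ : B →* E} {D : Subgroup Γ} (hD : D ≤ stabChi B χ) {z : Γ} (hz : z ∈ ⁅B, D⁆)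
    (hzB : z ∈ B) : χ ⟨z, hzB⟩ = 1 := by
  have h1 : ⁅B, D⁆ ≤ χ.ker.map B.subtype := by
    rw [commutator_le]
    intro b hb x hx
    have hb' : x * b⁻¹ * x⁻¹ ∈ B := hBn.conj_mem _ (inv_mem hb) x
    refine ⟨⟨b, hb⟩ * ⟨x * b⁻¹ * x⁻¹, hb'⟩, ?_, ?_⟩
    · show _ ∈ χ.ker
      rw [MonoidHom.mem_ker, map_mul]
      have h2 := hD (inv_mem hx)
      rw [mem_stabChi] at h2
      have h3 : dualAct B x⁻¹ χ ⟨b⁻¹, inv_mem hb⟩ = χ ⟨x * b⁻¹ * x⁻¹, hb'⟩ := by
        rw [dualAct_apply_of_mem x⁻¹ χ (inv_mem hb) (by rw [inv_inv]; exact hb')]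
        simp only [inv_inv]
      rw [← h3, h2, ← map_mul]
      have h4 : (⟨b, hb⟩ : B) * ⟨b⁻¹, inv_mem hb⟩ = 1 := Subtype.ext (mul_inv_cancel b)
      rw [h4, map_one]
    · show b * (x * b⁻¹ * x⁻¹) = ⁅b, x⁆
      rw [commutatorElement_def]; group
  obtain ⟨y, hy, hyz⟩ := h1 hz
  have : y = ⟨z, hzB⟩ := Subtype.ext hyz
  rw [← this]
  exact hy

end

end Cfsg.Agent.H25
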