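import Mathlib
import Cfsg.Agent.H25.FpfS3

/-!
The symmetric group of degree 3 acting without fixed points: normal abelian subgroups, continued.
-/

set_option autoImplicit false

namespace Cfsg.Agent.H25

open Subgroup Module
open scoped commutatorElement

namespace S3Data

variable {E : Type*} [CommGroup E] {Γ : Type*} [Group Γ] [Finite Γ] {H : Subgroup Γ} [hHn : H.Normal] {ρ τ : Γ}
variable {B : Subgroup Γ} [hBn : B.Normal]

omit hHn in
theorem chi_eq_one (d : S3Data H ρ τ) (hBH : B ≤ H) {φ : B →* E} (hρ : dualAct B ρ φ = φ)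
    (hτ : dualAct B τ φ = φ) : φ = 1 := by
  have hD : closure {ρ, τ} ≤ stabChi B φ := by
    rw [closure_le]
    rintro x (hx | hx)
    · rw [hx]; exact hρ
    · rw [Set.mem_singleton_iff] at hx
      rw [hx]; exact hτ
  have h1 := H23.commutator_sup_centralizer (A := closure {ρ, τ}) (G := B)
    (by rw [normalizer_eq_top]; exact le_top) (d.cop le_rfl hBH) (Or.inr (H1.isSolvable_of_le hBH d.hsolv))
  have h2 : B ⊓ centralizer ((closure {ρ, τ} : Subgroup Γ) : Set Γ) = ⊥ := by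
    rw [eq_bot_iff]
    rintro x ⟨hx1, hx2⟩
    rw [mem_bot]
    replace hx2 := mem_centralizer_iff.mp hx2
    exact d.hfix x (hBH hx1) (hx2 ρ (subset_closure (Or.inl rfl))) (hx2 τ (subset_closure (Or.inr rfl)))
  rw [h2, sup_bot_eq] at h1
  ext b
  have h3 : (b : Γ) ∈ ⁅B, closure {ρ, τ}⁆ := by rw [h1]; exact b.2
  have h4 := chi_commutator hD h3 b.2
  exact h4

theorem chi_cent (d : S3Data H ρ τ) (hBH : B ≤ H) {φ : B →* E} (hρ : dualAct B ρ φ = φ) {c : Γ}
    (hc : c ∈ H) (hcρ : ρ * c = c * ρ) : dualAct B c φ = φ := by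
  have hle : zpowers ρ ≤ closure {ρ, τ} := by
    rw [zpowers_le]; exact subset_closure (Or.inl rfl)
  have hD : zpowers ρ ≤ stabChi B φ := by rw [zpowers_le]; exact hρ
  have hnorm : zpowers ρ ≤ normalizer (B : Set Γ) := by rw [normalizer_eq_top]; exact le_top
  have hNB : ⁅B, zpowers ρ⁆ ≤ B := H23.commutator_le_of_le_normalizer hnorm
  have hinv : ∀ n ∈ ⁅B, zpowers ρ⁆, c⁻¹ * n * c ∈ ⁅B, zpowers ρ⁆ := by
    intro n hn
    have h1 : c⁻¹ ∈ normalizer ((⁅B, zpowers ρ⁆ : Subgroup Γ) : Set Γ) := by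
      rw [H1.mem_normalizer_iff_conj_smul, H23.conj_smul_commutator]
      congr 1
      · exact H1.mem_normalizer_iff_conj_smul.mp (by rw [normalizer_eq_top]; trivial)
      · apply H23.conj_smul_eq_of_mem_centralizer
        rw [mem_centralizer_iff]
        rintro _ ⟨i, rfl⟩
        have : Commute ρ c := hcρ
        exact (this.inv_right.zpow_left i).eq
    have := (mem_normalizer_iff.mp h1 n).mp hn
    rwa [inv_inv] at this
  ext b
  obtain ⟨y, hy, n, hn, hb⟩ := H23.exists_centralizer_mul_commutator (A := zpowers ρ) (G := B) hnorm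
    (d.cop hle hBH) (Or.inr (H1.isSolvable_of_le hBH d.hsolv)) b.2
  have hnB : n ∈ B := hNB hn
  have hyB : y ∈ B := hy.1
  have hyρ : ρ * y = y * ρ := (mem_centralizer_iff.mp hy.2 ρ (mem_zpowers ρ))
  have hcy : c * y = y * c := (d.inv_of_comm hc hcρ).2 y (hBH hyB) hyρ
  have hb' : b = ⟨y, hyB⟩ * ⟨n, hnB⟩ := Subtype.ext hb
  have h1 : c⁻¹ * y * c = y := by rw [mul_assoc, ← hcy, inv_mul_cancel_left]
  rw [hb', map_mul, map_mul]
  rw [dualAct_apply_of_mem c φ hyB (by rw [h1]; exact hyB),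
    dualAct_apply_of_mem c φ hnB (hNB (hinv n hn)), chi_commutator hD hn hnB,
    chi_commutator hD (hinv n hn) (hNB (hinv n hn))]
  simp only [h1]

omit hHn in
theorem sum_eq_one (d : S3Data H ρ τ) (hBH : B ≤ H) {φ : B →* E} (hτ : dualAct B τ φ = φ) :
    φ * dualAct B ρ φ * dualAct B (ρ ^ 2) φ = 1 := by
  have e1 : ρ * ρ ^ 2 = 1 := by rw [← pow_succ']; exact d.hρ
  have e2 : τ * ρ = ρ ^ 2 * τ := by
    have h1 := d.mul_tau 1
    have h2 : ρ ^ (-1 : ℤ) = ρ ^ 2 := by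
      rw [zpow_neg, zpow_one]; exact inv_eq_of_mul_eq_one_right e1
    rwa [zpow_one, h2] at h1
  have e3 : τ * ρ ^ 2 = ρ * τ := by
    have h1 := d.mul_tau 2
    have h2 : ρ ^ (-2 : ℤ) = ρ := by
      rw [zpow_neg]
      have : ρ ^ (2 : ℤ) = ρ ^ 2 := by norm_cast
      rw [this]; exact inv_eq_of_mul_eq_one_left e1
    rw [h2] at h1
    have : ρ ^ (2 : ℤ) = ρ ^ 2 := by norm_cast
    rwa [this] at h1
  apply d.chi_eq_one hBH
  · rw [map_mul, map_mul, ← dualAct_mul_apply, ← dualAct_mul_apply, e1, map_one, ← pow_two]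
    show dualAct B ρ φ * dualAct B (ρ ^ 2) φ * φ = _
    rw [mul_comm, mul_assoc]
  · rw [map_mul, map_mul, ← dualAct_mul_apply, ← dualAct_mul_apply, hτ, e2, e3, dualAct_mul_apply,
      dualAct_mul_apply, hτ, mul_assoc, mul_comm (dualAct B (ρ ^ 2) φ), ← mul_assoc]

theorem rho_comm (d : S3Data H ρ τ) (hBH : B ≤ H) {χ : B →* E}
    (hT : ∀ h ∈ H, dualAct B (h * τ * h⁻¹) χ = χ) {x : Γ} (hx : x ∈ H) :
    dualAct B (ρ * x) χ = dualAct B (x * ρ) χ := by
  have hstab : ∀ g y : Γ, dualAct B (g⁻¹ * y * g) χ = χ → dualAct B y (dualAct B g χ) = dualAct B g χ := by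
    intro g y h
    nth_rewrite 2 [← h]
    rw [← dualAct_mul_apply, ← dualAct_mul_apply]
    congr 2
    group
  have hx' : x⁻¹ ∈ H := inv_mem hx
  -- relations
  have s1 := d.sum_eq_one hBH (φ := χ) (by
    have := hT 1 (one_mem H)
    rwa [one_mul, inv_one, mul_one] at this)
  have s2 := d.sum_eq_one hBH (φ := dualAct B x χ) (by
    apply hstab
    have := hT x⁻¹ hx'
    rwa [inv_inv] at this)
  have s3 := congrArg (dualAct B x) s1
  rw [map_mul, map_mul, map_one, ← dualAct_mul_apply, ← dualAct_mul_apply] at s3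
  rw [← dualAct_mul_apply, ← dualAct_mul_apply] at s2
  set ψ : B →* E := dualAct B (ρ * x) χ * (dualAct B (x * ρ) χ)⁻¹ with hψ
  have hψ2 : ψ = dualAct B (x * ρ ^ 2) χ * (dualAct B (ρ ^ 2 * x) χ)⁻¹ := by
    rw [hψ, mul_inv_eq_iff_eq_mul, mul_right_comm, eq_mul_inv_iff_mul_eq]
    have h1 : dualAct B x χ * (dualAct B (ρ * x) χ * dualAct B (ρ ^ 2 * x) χ) =
        dualAct B x χ * (dualAct B (x * ρ ^ 2) χ * dualAct B (x * ρ) χ) := by
      rw [← mul_assoc, s2, mul_comm (dualAct B (x * ρ ^ 2) χ), ← mul_assoc, s3]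
    exact mul_left_cancel h1
  have f1 : dualAct B (ρ * τ * ρ⁻¹) ψ = ψ := by
    rw [hψ, map_mul, map_inv]
    congr 1
    · apply hstab
      have := hT x⁻¹ hx'
      convert this using 2
      group
    · congr 1
      apply hstab
      have := hT (ρ⁻¹ * x⁻¹ * ρ) (by have := hHn.conj_mem _ hx' ρ⁻¹; rwa [inv_inv] at this)
      convert this using 2
      group
  have f2 : dualAct B (ρ ^ 2 * τ * (ρ ^ 2)⁻¹) ψ = ψ := by
    rw [hψ2, map_mul, map_inv]
    congr 1
    · apply hstab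
      have := hT ((ρ ^ 2)⁻¹ * x⁻¹ * ρ ^ 2) (by
        have := hHn.conj_mem _ hx' (ρ ^ 2)⁻¹; rwa [inv_inv] at this)
      convert this using 2
      group
    · congr 1
      apply hstab
      have := hT x⁻¹ hx'
      convert this using 2
      group
  have e1 : ρ * ρ ^ 2 = 1 := by rw [← pow_succ']; exact d.hρ
  have g1 : (ρ * τ * ρ⁻¹) * (ρ ^ 2 * τ * (ρ ^ 2)⁻¹) = ρ := by
    have h1 : τ * ρ = ρ⁻¹ * τ := by
      have := d.mul_tau 1
      rwa [zpow_one, zpow_neg, zpow_one] at this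
    have hτ2 : τ * τ = 1 := by rw [← pow_two]; exact d.hτ
    calc (ρ * τ * ρ⁻¹) * (ρ ^ 2 * τ * (ρ ^ 2)⁻¹) = ρ * (τ * ρ) * τ * (ρ ^ 2)⁻¹ := by group
      _ = ρ * ρ⁻¹ * (τ * τ) * (ρ ^ 2)⁻¹ := by rw [h1]; group
      _ = (ρ ^ 2)⁻¹ := by rw [hτ2]; group
      _ = ρ := inv_eq_of_mul_eq_one_left e1
  have f3 : dualAct B ρ ψ = ψ := by
    nth_rewrite 1 [← g1]
    rw [dualAct_mul_apply, f2, f1]
  have f4 : dualAct B τ ψ = ψ := by
    have hm : τ ∈ stabChi B ψ := by
      have a1 : ρ ∈ stabChi B ψ := f3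
      have a2 : ρ * τ * ρ⁻¹ ∈ stabChi B ψ := f1
      have a3 : ρ⁻¹ * (ρ * τ * ρ⁻¹) * ρ ∈ stabChi B ψ := mul_mem (mul_mem (inv_mem a1) a2) a1
      have a4 : ρ⁻¹ * (ρ * τ * ρ⁻¹) * ρ = τ := by group
      rwa [a4] at a3
    exact hm
  have h5 := d.chi_eq_one hBH f3 f4
  rw [hψ] at h5
  exact mul_inv_eq_one.mp h5

theorem le_stab_tau (d : S3Data H ρ τ) (hBH : B ≤ H) {χ : B →* E}
    (hT : ∀ h ∈ H, dualAct B (h * τ * h⁻¹) χ = χ) {x : Γ} (hx : x ∈ H) : dualAct B x χ = χ := by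
  have hTall : ∀ y ∈ H, ∀ h ∈ H, dualAct B (h * τ * h⁻¹) (dualAct B y χ) = dualAct B y χ := by
    intro y hy h hh
    have h1 := hT (y⁻¹ * h) (mul_mem (inv_mem hy) hh)
    nth_rewrite 2 [← h1]
    rw [← dualAct_mul_apply, ← dualAct_mul_apply]
    congr 2
    group
  have hle : zpowers ρ ≤ closure {ρ, τ} := by
    rw [zpowers_le]; exact subset_closure (Or.inl rfl)
  have hnorm : zpowers ρ ≤ normalizer (H : Set Γ) := by rw [normalizer_eq_top]; exact le_top
  -- [x, ρ] and [x, ρ⁻¹]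
  have k1 : ∀ y ∈ H, ⁅y, ρ⁆ ∈ stabChi B χ := by
    intro y hy
    have h1 := d.rho_comm hBH hT (x := ρ * y⁻¹ * ρ⁻¹) (hHn.conj_mem _ (inv_mem hy) ρ)
    have h2 : dualAct B ((ρ * y⁻¹ * ρ⁻¹ * ρ)⁻¹ * (ρ * (ρ * y⁻¹ * ρ⁻¹))) χ = χ := by
      rw [dualAct_mul_apply, h1, ← dualAct_mul_apply, inv_mul_cancel, map_one]; rfl
    rw [mem_stabChi, commutatorElement_def]
    convert h2 using 2
    group
  have k2 : ∀ y ∈ H, ⁅y, ρ⁻¹⁆ ∈ stabChi B χ := by
    intro y hy
    have h1 := d.rho_comm hBH (χ := dualAct B y⁻¹ χ) (hTall _ (inv_mem hy)) hy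
    rw [← dualAct_mul_apply, ← dualAct_mul_apply, mul_assoc, mul_inv_cancel, mul_one] at h1
    -- ρ χ = y ρ y⁻¹ χ
    have h2 : dualAct B (y * ρ⁻¹ * y⁻¹ * ρ) χ = χ := by
      rw [dualAct_mul_apply, h1, ← dualAct_mul_apply]
      have : y * ρ⁻¹ * y⁻¹ * (y * ρ * y⁻¹) = 1 := by group
      rw [this, map_one]; rfl
    rw [mem_stabChi, commutatorElement_def, inv_inv]
    exact h2
  have hcle : ⁅H, zpowers ρ⁆ ≤ stabChi B χ := by
    rw [commutator_le]
    rintro y hy _ ⟨i, rfl⟩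
    show ⁅y, ρ ^ i⁆ ∈ _
    have h3 : ρ ^ i = ρ ^ (i % 3) := by
      conv_lhs => rw [← Int.emod_add_mul_ediv i 3]
      rw [zpow_add, zpow_mul]
      have : ρ ^ (3 : ℤ) = 1 := by exact_mod_cast d.hρ
      rw [this, one_zpow, mul_one]
    have h4 : 0 ≤ i % 3 := Int.emod_nonneg _ (by norm_num)
    have h5 : i % 3 < 3 := Int.emod_lt_of_pos _ (by norm_num)
    rw [h3]
    generalize i % 3 = j at *
    interval_cases j
    · rw [zpow_zero, commutatorElement_one_right]; exact one_mem _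
    · rw [zpow_one]; exact k1 y hy
    · have : ρ ^ (2 : ℤ) = ρ⁻¹ := by
        have e : ρ ^ 2 * ρ = 1 := by rw [← pow_succ]; exact d.hρ
        have : ρ ^ (2 : ℤ) = ρ ^ 2 := by norm_cast
        rw [this]; exact (inv_eq_of_mul_eq_one_left e).symm
      rw [this]; exact k2 y hy
  obtain ⟨c, hc, n, hn, rfl⟩ := H23.exists_centralizer_mul_commutator (A := zpowers ρ) (G := H) hnorm
    (d.cop hle le_rfl) (Or.inr d.hsolv) hx
  have hcρ : ρ * c = c * ρ := mem_centralizer_iff.mp hc.2 ρ (mem_zpowers ρ)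
  have hcT : c ∈ stabChi B χ := by
    have h1 : c * τ * c⁻¹ ∈ stabChi B χ := hT c hc.1
    have h2 : τ ∈ stabChi B χ := by
      have := hT 1 (one_mem H)
      rwa [one_mul, inv_one, mul_one] at this
    have h3 : c * c ∈ stabChi B χ := by
      have h4 := mul_mem h1 (inv_mem h2)
      have h5 := (d.inv_of_comm (inv_mem hc.1) (by
        have : Commute ρ c := hcρ
        exact this.inv_right)).1
      have h6 : c * τ * c⁻¹ * τ⁻¹ = c * c := by
        calc c * τ * c⁻¹ * τ⁻¹ = c * (τ * c⁻¹ * τ⁻¹) := by group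
          _ = c * c := by rw [h5, inv_inv]
      rwa [h6] at h4
    have hodd : Odd (Nat.card H) := by
      rw [← Nat.coprime_two_right]
      exact Nat.Coprime.coprime_dvd_right (by norm_num) d.hcop
    obtain ⟨m, hm⟩ := hodd
    have h7 : c ^ (Nat.card H) = 1 := by
      have := pow_card_eq_one' (G := H) (x := ⟨c, hc.1⟩)
      exact congrArg Subtype.val this
    have h8 : (c * c) ^ (m + 1) = c := by
      rw [← pow_two, ← pow_mul]
      have : 2 * (m + 1) = Nat.card H + 1 := by omega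
      rw [this, pow_succ, h7, one_mul]
    rw [← h8]
    exact pow_mem h3 _
  exact (stabChi B χ).mul_mem hcT (hcle hn)

variable {K : Type*} [Field K] {M : Type*} [AddCommGroup M] [Module K M] (π : Γ →* Module.End K M)

omit hHn [Finite Γ] in
theorem all_fix {ρ τ : Γ} {v : M} (h1 : π ρ v = v) (h2 : π τ v = v) {a : Γ} (ha : a ∈ closure {ρ, τ}) :
    π a v = v := by
  induction ha using closure_induction with
  | mem x hx =>
    rcases hx with hx | hx
    · rw [hx]; exact h1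
    · rw [Set.mem_singleton_iff] at hx
      rw [hx]; exact h2
  | one => rw [map_one]; rfl
  | mul x y _ _ hx hy => rw [map_mul, Module.End.mul_apply, hy, hx]
  | inv x _ hx =>
    nth_rewrite 1 [← hx]
    rw [← Module.End.mul_apply, ← map_mul, inv_mul_cancel, map_one]; rfl

omit hHn in
theorem card_ne (d : S3Data H ρ τ) (h6 : (6 : K) ≠ 0) :
    (Nat.card (closure {ρ, τ} : Subgroup Γ) : K) ≠ 0 := by
  obtain ⟨k, hk⟩ := d.card_dvd
  intro h
  apply h6
  have : (6 : K) = ((6 : ℕ) : K) := by norm_num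
  rw [this, hk, Nat.cast_mul, h, zero_mul]

omit hHn in
theorem exists_stab (d : S3Data H ρ τ) (hBK : (Nat.card B : K) ≠ 0) (h6 : (6 : K) ≠ 0)
    (hA : ∀ v : M, π ρ v = v → π τ v = v → v = 0) {χ : B →* Kˣ} (hχ : WS π B χ ≠ ⊥) :
    ∃ a ∈ closure {ρ, τ}, a ≠ 1 ∧ dualAct B a χ = χ := by
  by_contra hcon
  push Not at hcon
  obtain ⟨v, hv, hv0⟩ := Submodule.exists_mem_ne_zero_of_ne_bot hχ
  apply hv0
  refine ws_fixed_zero π B hBK (A := closure {ρ, τ}) (d.card_ne h6) (fun w hw =>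
    hA w (hw ρ (subset_closure (Or.inl rfl))) (hw τ (subset_closure (Or.inr rfl)))) hv ?_
  intro a ha h
  by_cases h1 : a = 1
  · rw [h1, map_one]; rfl
  · exact absurd h (hcon a ha h1)

/-- **weights of normal abelian subgroups are invariant** -/
theorem dualAct_eq (d : S3Data H ρ τ) (hBH : B ≤ H) (hBK : (Nat.card B : K) ≠ 0) (h6 : (6 : K) ≠ 0)
    (hA : ∀ v : M, π ρ v = v → π τ v = v → v = 0) {χ : B →* Kˣ} (hχ : WS π B χ ≠ ⊥) {h : Γ} (hh : h ∈ H) :
    dualAct B h χ = χ := by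
  have hWS : ∀ g : Γ, WS π B (dualAct B g χ) ≠ ⊥ := by
    intro g
    obtain ⟨v, hv, hv0⟩ := Submodule.exists_mem_ne_zero_of_ne_bot hχ
    intro hbot
    have h1 := map_WS π B hv g
    rw [hbot, Submodule.mem_bot] at h1
    apply hv0
    have h2 : π g⁻¹ (π g v) = v := by
      rw [← Module.End.mul_apply, ← map_mul, inv_mul_cancel, map_one]; rfl
    rw [← h2, h1, map_zero]
  rcases mackey_group (H := H) (A := closure {ρ, τ}) (T := stabChi B χ) d.hsup
    (d.cop le_rfl le_rfl) d.hsolv (fun D h1 h2 h3 => d.sub_prime h1 h2 h3) (by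
      intro g _
      obtain ⟨a, ha, ha1, hafix⟩ := d.exists_stab π hBK h6 hA (hWS g⁻¹)
      refine ⟨a, ha, ha1, ?_⟩
      rw [mem_stabChi, mul_assoc, dualAct_mul_apply, dualAct_mul_apply, hafix, ← dualAct_mul_apply,
        mul_inv_cancel, map_one]
      rfl) with ⟨g, hg, hgA⟩ | ⟨a, ha, hap, haT, _⟩
  · have hfix : ∀ a ∈ closure {ρ, τ}, dualAct B a (dualAct B g⁻¹ χ) = dualAct B g⁻¹ χ := by
      intro a ha
      have h1 : dualAct B (g * a * g⁻¹) χ = χ := hgA a ha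
      nth_rewrite 2 [← h1]
      rw [← dualAct_mul_apply, ← dualAct_mul_apply]
      congr 2
      group
    have h2 := d.chi_eq_one hBH (hfix ρ (subset_closure (Or.inl rfl))) (hfix τ (subset_closure (Or.inr rfl)))
    have h3 : χ = 1 := by
      have h4 : dualAct B g (dualAct B g⁻¹ χ) = χ := by
        rw [← dualAct_mul_apply, mul_inv_cancel, map_one]; rfl
      rw [← h4, h2, map_one]
    rw [h3, map_one]
  · have ha1 : a ≠ 1 := by
      rintro rfl
      rw [orderOf_one] at hap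
      exact Nat.not_prime_one hap
    obtain ⟨i, hi | hi⟩ := d.mem_cases ha
    · -- rotation
      have hρa : ρ ∈ zpowers a := by
        rw [hi]; exact d.zpow_mem_gen (by rw [← hi]; exact ha1)
      obtain ⟨k, hk⟩ := hρa
      have hk' : a ^ k = ρ := hk
      have hρT : ∀ y ∈ H, y * ρ * y⁻¹ ∈ stabChi B χ := by
        intro y hy
        rw [← hk', ← conj_zpow]
        exact zpow_mem (haT y hy) k
      have hρfix : ρ ∈ stabChi B χ := by
        have := hρT 1 (one_mem H)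
        rwa [one_mul, inv_one, mul_one] at this
      have hle : zpowers ρ ≤ closure {ρ, τ} := by
        rw [zpowers_le]; exact subset_closure (Or.inl rfl)
      have hnorm : zpowers ρ ≤ normalizer (H : Set Γ) := by rw [normalizer_eq_top]; exact le_top
      have hcle : ⁅H, zpowers ρ⁆ ≤ stabChi B χ := by
        rw [commutator_le]
        rintro y hy _ ⟨j, rfl⟩
        show y * ρ ^ j * y⁻¹ * (ρ ^ j)⁻¹ ∈ _
        rw [← conj_zpow]
        exact mul_mem (zpow_mem (hρT y hy) j) (inv_mem (zpow_mem hρfix j))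
      obtain ⟨c, hc, n, hn, hhc⟩ := H23.exists_centralizer_mul_commutator (A := zpowers ρ) (G := H) hnorm
        (d.cop hle le_rfl) (Or.inr d.hsolv) hh
      have hcρ : ρ * c = c * ρ := mem_centralizer_iff.mp hc.2 ρ (mem_zpowers ρ)
      have h1 : c ∈ stabChi B χ := d.chi_cent hBH hρfix hc.1 hcρ
      rw [hhc]
      exact (stabChi B χ).mul_mem h1 (hcle hn)
    · subst hi
      exact (d.change i).le_stab_tau hBH haT hh

end S3Data

end Cfsg.Agent.H25
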