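import Mathlib
import Cfsg.Agent.H23.Coprime2

/-!
Operator groups of order `pq`: the self-centralizing prime case.
-/

set_option autoImplicit false

namespace Cfsg.Agent.H25

open Subgroup
open scoped commutatorElement

theorem eq_zero_of_coprime_nsmul {V : Type*} [AddCommGroup V] {m n : ℕ} (h : m.Coprime n) {v : V}
    (h1 : m • v = 0) (h2 : n • v = 0) : v = 0 := by
  have h3 : addOrderOf v ∣ m := addOrderOf_dvd_of_nsmul_eq_zero h1
  have h4 : addOrderOf v ∣ n := addOrderOf_dvd_of_nsmul_eq_zero h2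
  have h5 := Nat.eq_one_of_dvd_coprimes h h3 h4
  exact AddMonoid.addOrderOf_eq_one_iff.mp h5

/-- a unipotent element of coprime order is trivial -/
theorem unip_trivial {V : Type*} [AddCommGroup V] (X : AddMonoid.End V) {N n : ℕ} (hXN : X ^ N = 1)
    (hcop : n.Coprime N) (k : ℕ) : ∀ {v : V}, n • v = 0 → ((X - 1) ^ k) v = 0 → X v = v := by
  induction k with
  | zero =>
    intro v _ h
    rw [pow_zero] at h
    have h' : v = 0 := h
    rw [h', map_zero]
  | succ k ih =>
    intro v hn h
    set w := (X - 1) v with hw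
    have hnw : n • w = 0 := by rw [hw, ← map_nsmul, hn, map_zero]
    have h1 : ((X - 1) ^ k) w = 0 := by
      rw [pow_succ] at h
      exact h
    have h2 := ih hnw h1
    -- X w = w, X v = v + w
    have h3 : X v = v + w := by
      rw [hw]
      show X v = v + (X v - v)
      abel
    have h4 : ∀ j : ℕ, (X ^ j) v = v + j • w := by
      intro j
      induction j with
      | zero => rw [pow_zero, zero_smul, add_zero]; rfl
      | succ j ihj =>
        rw [pow_succ']
        show X ((X ^ j) v) = _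
        rw [ihj, map_add, map_nsmul, h2, h3, add_smul, one_smul]
        abel
    have h5 := h4 N
    rw [hXN] at h5
    have h6 : N • w = 0 := by
      have : v = v + N • w := h5
      exact left_eq_add.mp this
    have h7 : w = 0 := eq_zero_of_coprime_nsmul hcop hnw h6
    rw [h3, h7, add_zero]

open Classical in
theorem lemmaT2 {V : Type*} [AddCommGroup V] {Γ : Type*} [Group Γ] [Finite Γ]
    (σ R : Γ →* AddMonoid.End V) (hRσ : ∀ g h : Γ, ∀ w : V, R g (σ h w) = σ (g * h * g⁻¹) (R g w))
    {U A : Subgroup Γ} (hAU : A ≤ normalizer (U : Set Γ)) [Fintype A]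
    (hcomm : ∀ x ∈ U, ∀ y ∈ U, σ (x * y) = σ (y * x)) {a : Γ} (ha : a ∈ A) (v : V)
    (hsum : ∑ g : A, R g v = 0) (hav : R a v = v) (hEv : ∀ m ∈ ⁅U, zpowers a⁆, σ m v = v)
    (hgen : ∀ g ∈ A, g ∉ zpowers a → ∀ y ∈ U, ∃ y' ∈ ⁅U, zpowers (g * a * g⁻¹)⁆, σ y' v = σ y v)
    {n : ℕ} (hn : n • v = 0) (hcop1 : n.Coprime (Nat.card (zpowers a))) (hcop2 : n.Coprime (Nat.card U))
    {y : Γ} (hy : y ∈ U) : σ y v = v := by
  have hza : zpowers a ≤ A := zpowers_le.mpr ha
  have hRz : ∀ g ∈ zpowers a, R g v = v := by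
    rintro _ ⟨i, rfl⟩
    show R (a ^ i) v = v
    have key : ∀ j : ℕ, R (a ^ j) v = v := by
      intro j
      induction j with
      | zero => rw [pow_zero, map_one]; rfl
      | succ j ih => rw [pow_succ, map_mul]; show R (a ^ j) (R a v) = v; rw [hav, ih]
    obtain ⟨j, hj⟩ := (isOfFinOrder_of_finite a).mem_powers_iff_mem_zpowers.mpr ⟨i, rfl⟩
    have hj' : a ^ j = a ^ i := hj
    rw [← hj']; exact key j
  have hcommle : ∀ g ∈ A, ⁅U, zpowers (g * a * g⁻¹)⁆ ≤ U := by
    intro g hg
    apply H23.commutator_le_of_le_normalizer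
    rw [zpowers_le]
    exact hAU (mul_mem (mul_mem hg ha) (inv_mem hg))
  -- elements of `[U, a^g]` fix `g v`
  have hfix : ∀ g ∈ A, ∀ y' ∈ ⁅U, zpowers (g * a * g⁻¹)⁆, σ y' (R g v) = R g v := by
    intro g hg y' hy'
    have h1 : g⁻¹ * y' * g ∈ ⁅U, zpowers a⁆ := by
      have h2 : ⁅U, zpowers (g * a * g⁻¹)⁆ ≤ ⁅U, zpowers a⁆.map (MulAut.conj g).toMonoidHom := by
        rw [map_commutator]
        apply commutator_mono
        · intro x hx
          refine ⟨g⁻¹ * x * g, ?_, ?_⟩
          · have := (mem_normalizer_iff.mp (hAU (inv_mem hg)) x).mp hx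
            rwa [inv_inv] at this
          · show g * (g⁻¹ * x * g) * g⁻¹ = x
            group
        · rw [zpowers_le]
          exact ⟨a, mem_zpowers a, rfl⟩
      obtain ⟨z, hz, hzy⟩ := h2 hy'
      have h3 : g * z * g⁻¹ = y' := hzy
      rw [← h3]
      have h4 : g⁻¹ * (g * z * g⁻¹) * g = z := by group
      rw [h4]; exact hz
    have h2 := hRσ g (g⁻¹ * y' * g) v
    rw [hEv _ h1] at h2
    have h3 : g * (g⁻¹ * y' * g) * g⁻¹ = y' := by group
    rw [h3] at h2
    exact h2.symm
  -- the elimination operators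
  have key : ∀ E : Finset Γ, (∀ g ∈ E, g ∈ A ∧ g ∉ zpowers a) → ∃ (D : AddMonoid.End V) (k : ℕ),
      (∀ z ∈ U, D * σ z = σ z * D) ∧ (∀ g ∈ E, D (R g v) = 0) ∧ D v = ((σ y - 1) ^ k) v := by
    intro E
    induction E using Finset.induction_on with
    | empty =>
      intro _
      refine ⟨1, 0, fun z _ => by rw [one_mul, mul_one], fun g hg => absurd hg (Finset.notMem_empty g), ?_⟩
      rw [pow_zero]
    | insert g E hgE ih =>
      intro hE
      obtain ⟨D, k, hD1, hD2, hD3⟩ := ih (fun g' hg' => hE g' (Finset.mem_insert_of_mem hg'))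
      obtain ⟨hgA, hga⟩ := hE g (Finset.mem_insert_self g E)
      obtain ⟨y', hy', hyv⟩ := hgen g hgA hga y hy
      have hy'U : y' ∈ U := hcommle g hgA hy'
      refine ⟨(σ y' - 1) * D, k + 1, ?_, ?_, ?_⟩
      · intro z hz
        rw [mul_assoc, hD1 z hz, ← mul_assoc, ← mul_assoc, sub_mul, mul_sub, one_mul, mul_one, ← map_mul,
          ← map_mul, hcomm y' hy'U z hz]
      · intro g' hg'
        rw [Finset.mem_insert] at hg'
        rcases hg' with rfl | hg'
        · show (σ y' - 1) (D (R g' v)) = 0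
          have h1 : (σ y' - 1) * D = D * (σ y' - 1) := by
            rw [sub_mul, mul_sub, one_mul, mul_one, hD1 y' hy'U]
          have h2 : (σ y' - 1) (D (R g' v)) = D ((σ y' - 1) (R g' v)) :=
            congrArg (fun φ : AddMonoid.End V => φ (R g' v)) h1
          rw [h2]
          have h3 : (σ y' - 1) (R g' v) = σ y' (R g' v) - R g' v := rfl
          rw [h3, hfix g' hgA y' hy', sub_self, map_zero]
        · show (σ y' - 1) (D (R g' v)) = 0
          rw [hD2 g' hg', map_zero]
      · show (σ y' - 1) (D v) = _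
        rw [hD3]
        have h1 : (σ y' - 1) * (σ y - 1) ^ k = (σ y - 1) ^ k * (σ y' - 1) := by
          have h2 : Commute (σ y' - 1) (σ y - 1) := by
            have h3 : Commute (σ y') (σ y) := by
              show σ y' * σ y = σ y * σ y'
              rw [← map_mul, ← map_mul, hcomm y' hy'U y hy]
            exact (h3.sub_left (Commute.one_left _)).sub_right (Commute.one_right _)
          exact (h2.pow_right k).eq
        have h2 : (σ y' - 1) (((σ y - 1) ^ k) v) = ((σ y - 1) ^ k) ((σ y' - 1) v) :=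
          congrArg (fun φ : AddMonoid.End V => φ v) h1
        rw [h2]
        have h3 : (σ y' - 1) v = (σ y - 1) v := by
          show σ y' v - v = σ y v - v
          rw [hyv]
        rw [h3, pow_succ]
        rfl
  obtain ⟨D, k, hD1, hD2, hD3⟩ := key ((Finset.univ : Finset A).image (fun g : A => (g : Γ)) |>.filter
      (fun g => g ∉ zpowers a)) (by
    intro g hg
    rw [Finset.mem_filter, Finset.mem_image] at hg
    obtain ⟨⟨g', _, rfl⟩, hg2⟩ := hg
    exact ⟨g'.2, hg2⟩)
  have h1 : D (∑ g : A, R g v) = ∑ g : A, if (g : Γ) ∈ zpowers a then D v else 0 := by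
    rw [map_sum]
    refine Finset.sum_congr rfl fun g _ => ?_
    split_ifs with h
    · rw [hRz g h]
    · apply hD2
      rw [Finset.mem_filter, Finset.mem_image]
      exact ⟨⟨g, Finset.mem_univ g, rfl⟩, h⟩
  rw [hsum, map_zero, ← Finset.sum_filter, Finset.sum_const] at h1
  have h2 : (Finset.univ.filter fun g : A => (g : Γ) ∈ zpowers a).card = Nat.card (zpowers a) := by
    rw [← Fintype.card_subtype, ← Nat.card_eq_fintype_card]
    refine Nat.card_congr ⟨fun g => ⟨g.1.1, g.2⟩, fun g => ⟨⟨g.1, hza g.2⟩, g.2⟩, fun g => rfl, fun g => rfl⟩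
  rw [h2, hD3] at h1
  have h3 : n • (((σ y - 1) ^ k) v) = 0 := by rw [← map_nsmul, hn, map_zero]
  have h4 := eq_zero_of_coprime_nsmul hcop1 h3 h1.symm
  refine unip_trivial (σ y) (N := Nat.card U) ?_ hcop2 k hn h4
  rw [← map_pow]
  have h5 : y ^ Nat.card U = 1 := congrArg Subtype.val (pow_card_eq_one' (G := U) (x := ⟨y, hy⟩))
  rw [h5, map_one]

end Cfsg.Agent.H25
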