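import Mathlib
import Cfsg.Agent.H25.FpfT2
import Cfsg.Agent.H25.FpfA
import Cfsg.Agent.H25.FpfMackey
import Cfsg.Agent.H25.FpfS3b

/-!
Operator groups of order `pq`: abelian kernels.
-/

set_option autoImplicit false

namespace Cfsg.Agent.H25

open Subgroup Module
open scoped commutatorElement

theorem mackey_group' {Γ : Type*} [Group Γ] [Finite Γ] {U A T : Subgroup Γ}
    (hAU : A ≤ normalizer (U : Set Γ))
    (hcop : (Nat.card A).Coprime (Nat.card U)) (hs : Group.IsSolvable U)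
    (hA : ∀ D : Subgroup Γ, D ≤ A → D ≠ ⊥ → D ≠ A → (Nat.card D).Prime)
    (hT : ∀ g ∈ U, ∃ a ∈ A, a ≠ 1 ∧ g * a * g⁻¹ ∈ T) :
    (∃ g ∈ U, ∀ a ∈ A, g * a * g⁻¹ ∈ T) ∨
      ∃ a ∈ A, (orderOf a).Prime ∧ (∀ h ∈ U, h * a * h⁻¹ ∈ T) ∧ ∀ a' ∈ A, a' ∈ T → a' ∈ zpowers a := by
  classical
  set L : Subgroup Γ := U ⊔ A with hL
  have hUL : U ≤ L := le_sup_left
  have hAL : A ≤ L := le_sup_right
  haveI hUn : (U.subgroupOf L).Normal :=
    normal_subgroupOf_of_le_normalizer (H23.sup_le_normalizer hAU)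
  have hcU : Nat.card (U.subgroupOf L) = Nat.card U := Nat.card_congr (subgroupOfEquivOfLe hUL).toEquiv
  have hcA : Nat.card (A.subgroupOf L) = Nat.card A := Nat.card_congr (subgroupOfEquivOfLe hAL).toEquiv
  rcases mackey_group (Γ := L) (H := U.subgroupOf L) (A := A.subgroupOf L) (T := T.subgroupOf L)
    (by rw [← subgroupOf_sup hUL hAL, subgroupOf_self]) (by rw [hcU, hcA]; exact hcop)
    (H1.isSolvable_subgroupOf hUL hs) (by
      intro D hD h1 h2
      have h3 : (Nat.card (D.map L.subtype)).Prime := by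
        apply hA
        · rintro _ ⟨x, hx, rfl⟩; exact hD hx
        · intro h
          exact h1 ((map_eq_bot_iff_of_injective D L.subtype_injective).mp h)
        · intro h
          apply h2
          apply map_injective L.subtype_injective
          rw [h, subgroupOf_map_subtype, inf_eq_left.mpr hAL]
      rwa [card_map_of_injective L.subtype_injective] at h3) (by
      intro g hg
      obtain ⟨a, ha, ha1, haT⟩ := hT g hg
      exact ⟨⟨a, hAL ha⟩, ha, fun h => ha1 (congrArg Subtype.val h), haT⟩) with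
    ⟨g, hg, h⟩ | ⟨a, ha, hap, haT, ha'⟩
  · left
    exact ⟨g, hg, fun a ha => h ⟨a, hAL ha⟩ ha⟩
  · right
    refine ⟨a, ha, ?_, fun h hh => haT ⟨h, hUL hh⟩ hh, fun a' ha'A ha'T => ?_⟩
    · rw [Subgroup.orderOf_coe]; exact hap
    · obtain ⟨i, hi⟩ := ha' ⟨a', hAL ha'A⟩ ha'A ha'T
      exact ⟨i, congrArg Subtype.val hi⟩

/-- the configuration `S = [S,U]` with operators `A` -/
structure Cfg {Γ : Type*} [Group Γ] (S U A : Subgroup Γ) (s : ℕ) : Prop where
  hA : ∃ p q : ℕ, p.Prime ∧ q.Prime ∧ Nat.card A = p * q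
  hS : IsPGroup s S
  hAU : A ≤ normalizer (U : Set Γ)
  hcS : (Nat.card A).Coprime (Nat.card S)
  hcU : (Nat.card A).Coprime (Nat.card U)
  hSU : (Nat.card S).Coprime (Nat.card U)
  hUs : Group.IsSolvable U
  hfS : S ⊓ centralizer (A : Set Γ) = ⊥
  hfU : U ⊓ centralizer (A : Set Γ) = ⊥
  hgen : ⁅S, U⁆ = S
  hUU : ⁅U, U⁆ ≤ centralizer (S : Set Γ)
  hnil : ∀ a ∈ A, (orderOf a).Prime → A ≤ normalizer (zpowers a : Set Γ) → ∀ x ∈ S, ∀ y ∈ U,
    a * x = x * a → a * y = y * a → x * y = y * x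

section

variable {E : Type*} [CommGroup E] {Γ : Type*} [Group Γ] [Finite Γ] {B A : Subgroup Γ} [hBn : B.Normal]

theorem chi_one_of_fixed (hcop : (Nat.card A).Coprime (Nat.card B)) (hs : Group.IsSolvable B)
    (hfix : B ⊓ centralizer (A : Set Γ) = ⊥) {φ : B →* E} (hφ : ∀ a ∈ A, dualAct B a φ = φ) : φ = 1 := by
  have h1 := H23.commutator_sup_centralizer (A := A) (G := B)
    (by rw [normalizer_eq_top]; exact le_top) hcop (Or.inr hs)
  rw [hfix, sup_bot_eq] at h1
  ext b
  have h3 : (b : Γ) ∈ ⁅B, A⁆ := by rw [h1]; exact b.2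
  exact chi_commutator (D := A) (fun a ha => hφ a ha) h3 b.2

omit [Finite Γ] in
theorem dualAct_eq_one_of_comm {g : Γ} (hg : ∀ b ∈ B, b * g = g * b) :
    (dualAct B g : MulAut (B →* E)) = 1 := by
  ext φ b
  rw [dualAct_apply]
  have h3 : (⟨g⁻¹ * b * g, by
    have := hBn.conj_mem b b.2 g⁻¹
    rwa [inv_inv] at this⟩ : B) = b := by
    apply Subtype.ext
    show g⁻¹ * (b : Γ) * g = b
    rw [mul_assoc, hg b b.2, inv_mul_cancel_left]
  rw [h3]; rfl

end

section

variable {K : Type*} [Field K] {M : Type*} [AddCommGroup M] [Module K M] {Γ : Type*} [Group Γ] [Finite Γ]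
variable (π : Γ →* Module.End K M) {A : Subgroup Γ} {B : Subgroup Γ} [hBn : B.Normal]

theorem exists_stab' (hBK : (Nat.card B : K) ≠ 0) (hAK : (Nat.card A : K) ≠ 0)
    (hA : ∀ v : M, (∀ a ∈ A, π a v = v) → v = 0) {χ : B →* Kˣ} (hχ : WS π B χ ≠ ⊥) :
    ∃ a ∈ A, a ≠ 1 ∧ dualAct B a χ = χ := by
  by_contra hcon
  push Not at hcon
  obtain ⟨v, hv, hv0⟩ := Submodule.exists_mem_ne_zero_of_ne_bot hχ
  apply hv0
  refine ws_fixed_zero π B hBK (A := A) hAK hA hv ?_
  intro a ha h
  by_cases h1 : a = 1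
  · rw [h1, map_one]; rfl
  · exact absurd h (hcon a ha h1)

omit [Finite Γ] in
theorem WS_ne_bot_dualAct {χ : B →* Kˣ} (hχ : WS π B χ ≠ ⊥) (g : Γ) : WS π B (dualAct B g χ) ≠ ⊥ := by
  obtain ⟨v, hv, hv0⟩ := Submodule.exists_mem_ne_zero_of_ne_bot hχ
  intro hbot
  have h1 := map_WS π B hv g
  rw [hbot, Submodule.mem_bot] at h1
  apply hv0
  have h2 : π g⁻¹ (π g v) = v := by
    rw [← Module.End.mul_apply, ← map_mul, inv_mul_cancel, map_one]; rfl
  rw [← h2, h1, map_zero]

end

section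

variable {Γ : Type*} [Group Γ] [Finite Γ] {S U A : Subgroup Γ} {s : ℕ}

/-- type II conclusion -/
theorem Cfg.typeII {V : Type*} [AddCommGroup V] (c : Cfg S U A s) (σ R : Γ →* AddMonoid.End V)
    (hRσ : ∀ g h : Γ, ∀ w : V, R g (σ h w) = σ (g * h * g⁻¹) (R g w))
    (hσ1 : ∀ g ∈ centralizer (S : Set Γ), σ g = 1) {a : Γ} (ha : a ∈ A) (hap : (orderOf a).Prime)
    (hnn : ¬ A ≤ normalizer (zpowers a : Set Γ)) (v : V) [Fintype A]
    (hsum : ∑ g : A, R g v = 0) (hav : R a v = v) (hEv : ∀ m ∈ ⁅U, zpowers a⁆, σ m v = v)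
    (hn : Nat.card S • v = 0) {y : Γ} (hy : y ∈ U) : σ y v = v := by
  classical
  have hcomm : ∀ x ∈ U, ∀ y ∈ U, σ (x * y) = σ (y * x) := by
    intro x hx y hy
    have h1 : x * y = ⁅x, y⁆ * (y * x) := by rw [commutatorElement_def]; group
    rw [h1, map_mul, hσ1 _ (c.hUU (commutator_mem_commutator hx hy)), one_mul]
  refine lemmaT2 σ R hRσ c.hAU hcomm ha v hsum hav hEv ?_ hn ?_ c.hSU hy
  · intro g hg hga y hy
    have hsup := sup_conj_pq c.hA ha hap hnn hg hga
    obtain ⟨m, hm, m', hm', z, hz, rfl⟩ := exists_decomp_gen c.hAU c.hcU c.hUs c.hfU hsup hy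
    have hmU : m ∈ U := H23.commutator_le_of_le_normalizer ((zpowers_le.mpr ha).trans c.hAU) hm
    have hm'U : m' ∈ U := H23.commutator_le_of_le_normalizer ((zpowers_le.mpr
      (mul_mem (mul_mem hg ha) (inv_mem hg))).trans c.hAU) hm'
    refine ⟨m', hm', ?_⟩
    rw [map_mul, hσ1 z (c.hUU hz), one_mul, hcomm m hmU m' hm'U, map_mul]
    show σ m' v = σ m' (σ m v)
    rw [hEv m hm]
  · exact (Nat.Coprime.coprime_dvd_left (card_dvd_of_le (zpowers_le.mpr ha)) c.hcS).symm

end

/-- additive version of the dual action -/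
noncomputable def addDual {E : Type*} [CommGroup E] {Γ : Type*} [Group Γ] (B : Subgroup Γ) [B.Normal] :
    Γ →* AddMonoid.End (Additive (B →* E)) where
  toFun g := (dualAct B g).toMonoidHom.toAdditive
  map_one' := by rw [map_one]; rfl
  map_mul' := by intro g h; rw [map_mul]; rfl

section

variable {K : Type*} [Field K] {M : Type*} [AddCommGroup M] [Module K M] {Γ : Type*} [Group Γ] [Finite Γ]
variable (π : Γ →* Module.End K M) {S U A : Subgroup Γ} {s : ℕ} [hSn : S.Normal]

theorem Cfg.weight_trivial (c : Cfg S U A s) (hSc : IsMulCommutative S) (hSK : (Nat.card S : K) ≠ 0)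
    (hAK : (Nat.card A : K) ≠ 0) (hA : ∀ v : M, (∀ a ∈ A, π a v = v) → v = 0) {χ : S →* Kˣ}
    (hχ : WS π S χ ≠ ⊥) : χ = 1 := by
  classical
  haveI := hSc
  have hSs : Group.IsSolvable S := Group.isSolvable_of_comm (fun a b => hSc.is_comm.comm a b)
  have hone : ∀ φ : S →* Kˣ, (∀ a ∈ A, dualAct S a φ = φ) → φ = 1 := fun φ h =>
    chi_one_of_fixed c.hcS hSs c.hfS h
  -- it is enough that `U` fixes `χ`
  have hfin : (∀ y ∈ U, dualAct S y χ = χ) → χ = 1 := by
    intro h
    ext x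
    have h1 : (x : Γ) ∈ ⁅S, U⁆ := by rw [c.hgen]; exact x.2
    exact congrArg Units.val (chi_commutator (D := U) (fun y hy => h y hy) h1 x.2)
  rcases mackey_group' (T := stabChi S χ) c.hAU c.hcU c.hUs (fun D h1 h2 h3 => sub_prime_pq c.hA h1 h2 h3) (by
      intro g _
      obtain ⟨a, ha, ha1, hafix⟩ := exists_stab' π hSK hAK hA (WS_ne_bot_dualAct π hχ g⁻¹)
      refine ⟨a, ha, ha1, ?_⟩
      rw [mem_stabChi, mul_assoc, dualAct_mul_apply, dualAct_mul_apply, hafix, ← dualAct_mul_apply,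
        mul_inv_cancel, map_one]
      rfl) with ⟨g, hg, hgA⟩ | ⟨a, ha, hap, haT, _⟩
  · have hfix : ∀ a ∈ A, dualAct S a (dualAct S g⁻¹ χ) = dualAct S g⁻¹ χ := by
      intro a ha
      have h1 : dualAct S (g * a * g⁻¹) χ = χ := hgA a ha
      nth_rewrite 2 [← h1]
      rw [← dualAct_mul_apply, ← dualAct_mul_apply]
      congr 2
      group
    have h2 := hone _ hfix
    have h4 : dualAct S g (dualAct S g⁻¹ χ) = χ := by
      rw [← dualAct_mul_apply, mul_inv_cancel, map_one]; rfl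
    rw [← h4, h2]
    exact map_one _
  · have haχ : dualAct S a χ = χ := by
      have := haT 1 (one_mem U)
      rwa [one_mul, inv_one, mul_one] at this
    have hcle : ⁅U, zpowers a⁆ ≤ stabChi S χ := by
      rw [commutator_le]
      rintro y hy _ ⟨j, rfl⟩
      show y * a ^ j * y⁻¹ * (a ^ j)⁻¹ ∈ _
      rw [← conj_zpow]
      exact mul_mem (zpow_mem (haT y hy) j) (inv_mem (zpow_mem haχ j))
    by_cases hI : A ≤ normalizer (zpowers a : Set Γ)
    · -- type I
      apply hfin
      intro y hy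
      have hza : zpowers a ≤ A := zpowers_le.mpr ha
      obtain ⟨d, hd, m, hm, rfl⟩ := H23.exists_centralizer_mul_commutator (A := zpowers a) (G := U)
        (hza.trans c.hAU) (Nat.Coprime.coprime_dvd_left (card_dvd_of_le hza) c.hcU) (Or.inr c.hUs) hy
      have hdU : d ∈ U := hd.1
      have hdm : dualAct S (d * m) χ = dualAct S d χ := by
        rw [dualAct_mul_apply, hcle hm]
      have hfixall : ∀ h ∈ U, zpowers a ≤ stabChi S (dualAct S h χ) := by
        intro h hh
        rw [zpowers_le, mem_stabChi]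
        have h1 := haT h⁻¹ (inv_mem hh)
        rw [inv_inv, mem_stabChi] at h1
        nth_rewrite 2 [← h1]
        rw [← dualAct_mul_apply, ← dualAct_mul_apply]
        congr 2
        group
      rw [hdm]
      ext x
      obtain ⟨x1, hx1, n, hn, hx⟩ := H23.exists_centralizer_mul_commutator (A := zpowers a) (G := S)
        (by rw [normalizer_eq_top]; exact le_top)
        (Nat.Coprime.coprime_dvd_left (card_dvd_of_le hza) c.hcS) (Or.inr hSs) x.2
      have hnS : n ∈ S := H23.commutator_le_of_le_normalizer (by rw [normalizer_eq_top]; exact le_top) hn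
      have hx1S : x1 ∈ S := hx1.1
      have hxe : x = ⟨x1, hx1S⟩ * ⟨n, hnS⟩ := Subtype.ext hx
      have h1 : dualAct S d χ ⟨n, hnS⟩ = 1 := chi_commutator (hfixall d hdU) hn hnS
      have h2 : χ ⟨n, hnS⟩ = 1 := chi_commutator (D := zpowers a) (by
        rw [zpowers_le]; exact haχ) hn hnS
      have h3 : x1 * d = d * x1 := c.hnil a ha hap hI x1 hx1S d hdU
        (mem_centralizer_iff.mp hx1.2 a (mem_zpowers a)) (mem_centralizer_iff.mp hd.2 a (mem_zpowers a))
      have h4 : d⁻¹ * x1 * d = x1 := by rw [mul_assoc, h3, inv_mul_cancel_left]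
      have h5 : dualAct S d χ ⟨x1, hx1S⟩ = χ ⟨x1, hx1S⟩ := by
        rw [dualAct_apply_of_mem d χ hx1S (by rw [h4]; exact hx1S)]
        simp only [h4]
      rw [hxe, map_mul, map_mul, h1, h2, h5]
    · -- type II
      apply hfin
      intro y hy
      haveI : Fintype A := Fintype.ofFinite A
      have h1 := c.typeII (addDual (E := Kˣ) S) (addDual (E := Kˣ) S) (by
        intro g h w
        show (addDual (E := Kˣ) S g * addDual (E := Kˣ) S h) w =
          (addDual (E := Kˣ) S (g * h * g⁻¹) * addDual (E := Kˣ) S g) w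
        rw [← map_mul, ← map_mul, inv_mul_cancel_right]) (by
        intro g hg
        have h2 : (dualAct S g : MulAut (S →* Kˣ)) = 1 :=
          dualAct_eq_one_of_comm (fun b hb => mem_centralizer_iff.mp hg b hb)
        refine AddMonoidHom.ext fun w => ?_
        show Additive.ofMul ((dualAct S g : MulAut (S →* Kˣ)) w.toMul) = w
        rw [h2]; rfl) ha hap hI (Additive.ofMul χ) (by
        have h3 : Additive.toMul (∑ g : A, addDual (E := Kˣ) S (g : Γ) (Additive.ofMul χ)) = 1 := by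
          apply hone
          intro b hb
          have h4 : addDual (E := Kˣ) S b (∑ g : A, addDual (E := Kˣ) S (g : Γ) (Additive.ofMul χ)) =
              ∑ g : A, addDual (E := Kˣ) S (g : Γ) (Additive.ofMul χ) := by
            rw [map_sum]
            refine Fintype.sum_equiv (Equiv.mulLeft (⟨b, hb⟩ : A)) _ _ fun g => ?_
            show (addDual (E := Kˣ) S b * addDual (E := Kˣ) S (g : Γ)) (Additive.ofMul χ) = _
            rw [← map_mul]; rfl
          exact h4
        exact h3) (congrArg Additive.ofMul haχ) (fun m hm => congrArg Additive.ofMul (hcle hm)) (by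
        have h3 : χ ^ Nat.card S = 1 := by
          ext x
          have h4 : χ x ^ Nat.card S = 1 := by rw [← map_pow, pow_card_eq_one', map_one]
          exact congrArg Units.val h4
        exact h3) hy
      exact h1

variable [IsAlgClosed K] [FiniteDimensional K M]

theorem Cfg.eq_bot_of_comm (c : Cfg S U A s) (hSc : IsMulCommutative S) (hSK : (Nat.card S : K) ≠ 0)
    (hAK : (Nat.card A : K) ≠ 0) (hA : ∀ v : M, (∀ a ∈ A, π a v = v) → v = 0)
    (hfaith : ∀ x ∈ S, π x = 1 → x = 1) : S = ⊥ := by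
  rw [eq_bot_iff]
  intro x hx
  rw [mem_bot]
  apply hfaith x hx
  refine eq_one_of_weights π S hSc hSK (b := ⟨x, hx⟩) ?_
  intro χ hχ
  have h1 : χ = 1 := c.weight_trivial π hSc hSK hAK hA hχ
  rw [h1]; rfl

end

end Cfsg.Agent.H25
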