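import Mathlib
import Cfsg.Agent.H25.FpfS3b

/-!
The symmetric group of degree 3 acting without fixed points: groups of class two.
-/

set_option autoImplicit false

namespace Cfsg.Agent.H25

open Subgroup Module
open scoped commutatorElement

theorem commutator_zpowers_le {Γ : Type*} [Group Γ] [Finite Γ] {S R : Subgroup Γ} {a : Γ}
    (ha : a ∈ normalizer (S : Set Γ)) (h : ∀ x ∈ S, ⁅x, a⁆ ∈ R) : ⁅S, zpowers a⁆ ≤ R := by
  have key : ∀ j : ℕ, ∀ x ∈ S, ⁅x, a ^ j⁆ ∈ R := by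
    intro j
    induction j with
    | zero => intro x _; rw [pow_zero, commutatorElement_one_right]; exact one_mem _
    | succ j ih =>
      intro x hx
      have h1 : a ^ j * x * (a ^ j)⁻¹ ∈ S := (mem_normalizer_iff.mp (pow_mem ha j) x).mp hx
      have h2 : ⁅x, a ^ (j + 1)⁆ = ⁅x, a ^ j⁆ * ⁅a ^ j * x * (a ^ j)⁻¹, a⁆ := by
        rw [commutatorElement_def, commutatorElement_def, commutatorElement_def, pow_succ]
        group
      rw [h2]
      exact mul_mem (ih x hx) (h _ h1)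
  rw [commutator_le]
  intro x hx g hg
  obtain ⟨n, rfl⟩ := (isOfFinOrder_of_finite a).mem_powers_iff_mem_zpowers.mpr hg
  exact key n x hx

/-- the pointwise stabilizer of a subspace -/
def fixW {K : Type*} [Field K] {M : Type*} [AddCommGroup M] [Module K M] {Γ : Type*} [Group Γ]
    (π : Γ →* Module.End K M) (W : Submodule K M) : Subgroup Γ where
  carrier := {g | ∀ w ∈ W, π g w = w}
  one_mem' := by intro w _; rw [map_one]; rfl
  mul_mem' := by
    intro a b ha hb w hw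
    rw [map_mul, Module.End.mul_apply, hb w hw, ha w hw]
  inv_mem' := by
    intro a ha w hw
    nth_rewrite 1 [← ha w hw]
    rw [← Module.End.mul_apply, ← map_mul, inv_mul_cancel, map_one]; rfl

section

variable {K : Type*} [Field K] {M : Type*} [AddCommGroup M] [Module K M] {Γ : Type*} [Group Γ]
variable (π : Γ →* Module.End K M) (W : Submodule K M)

theorem mem_fixW {g : Γ} : g ∈ fixW π W ↔ ∀ w ∈ W, π g w = w := Iff.rfl

variable {π} {W}

/-- commutators of elements congruent modulo the kernel on `W` act in the same way -/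
theorem comm_congr {S : Subgroup Γ} (hSW : ∀ x ∈ S, ∀ w ∈ W, π x w ∈ W) {c c' n n' : Γ} (hc : c ∈ S)
    (hc' : c' ∈ S) (hn : n ∈ fixW π W) (hn' : n' ∈ fixW π W) {w : M} (hw : w ∈ W) :
    π ⁅c * n, c' * n'⁆ w = π ⁅c, c'⁆ w := by
  rw [commutatorElement_def, commutatorElement_def, mul_inv_rev, mul_inv_rev]
  simp only [map_mul, Module.End.mul_apply]
  have i1 : π c'⁻¹ w ∈ W := hSW _ (inv_mem hc') w hw
  rw [inv_mem hn' _ i1]
  have i2 : π c⁻¹ (π c'⁻¹ w) ∈ W := hSW _ (inv_mem hc) _ i1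
  rw [inv_mem hn _ i2, hn' _ i2]
  have i3 : π c' (π c⁻¹ (π c'⁻¹ w)) ∈ W := hSW _ hc' _ i2
  rw [hn _ i3]

end

namespace S3Data

variable {K : Type*} [Field K] {Γ : Type*} [Group Γ] [Finite Γ] {H : Subgroup Γ} [hHn : H.Normal] {ρ τ : Γ}
variable {M : Type*} [AddCommGroup M] [Module K M] (π : Γ →* Module.End K M)

variable {S : Subgroup Γ} [hSn : S.Normal]

omit [Finite Γ] hSn in
theorem mem_Z {x : Γ} : x ∈ S ⊓ centralizer (S : Set Γ) ↔ x ∈ S ∧ ∀ y ∈ S, y * x = x * y := by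
  rw [mem_inf, mem_centralizer_iff]; rfl

variable {Z : Subgroup Γ} [hZn : Z.Normal]

omit [Finite Γ] hSn in
theorem map_S (hZm : ∀ x, x ∈ Z ↔ x ∈ S ∧ ∀ y ∈ S, y * x = x * y) {χ : Z →* Kˣ} {x : Γ} (hx : x ∈ S)
    {w : M} (hw : w ∈ WS π Z χ) : π x w ∈ WS π Z χ := by
  have h1 := map_WS π _ hw x
  have h2 : dualAct Z x χ = χ := by
    ext b
    rw [dualAct_apply]
    have h3 : (⟨x⁻¹ * b * x, by
      have := hZn.conj_mem b b.2 x⁻¹
      rwa [inv_inv] at this⟩ : Z) = b := by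
      apply Subtype.ext
      show x⁻¹ * (b : Γ) * x = b
      rw [mul_assoc, ← ((hZm b).mp b.2).2 x hx, inv_mul_cancel_left]
    rw [h3]
  rwa [h2] at h1

omit hSn hZn [Finite Γ] in
theorem card_Z_ne {s : ℕ} (hZS : Z ≤ S) (hs : s.Prime) (hS : IsPGroup s S) (hsK : (s : K) ≠ 0) [Finite Γ] :
    (Nat.card Z : K) ≠ 0 := by
  haveI := Fact.mk hs
  obtain ⟨e, he⟩ := (hS.to_le hZS).exists_card_eq
  rw [he, Nat.cast_pow]
  exact pow_ne_zero _ hsK

variable [IsAlgClosed K] [FiniteDimensional K M]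

theorem class_two_tau (d : S3Data H ρ τ) {s : ℕ} [hs : Fact s.Prime] (hs2 : s ≠ 2) (hs3 : s ≠ 3)
    (hSH : S ≤ H) (hS : IsPGroup s S) (hc : ∀ x ∈ S, ∀ y ∈ S, ∀ z ∈ S, z * ⁅x, y⁆ = ⁅x, y⁆ * z)
    (hsK : (s : K) ≠ 0) (h6 : (6 : K) ≠ 0) (hA : ∀ v : M, π ρ v = v → π τ v = v → v = 0)
    (hZm : ∀ x, x ∈ Z ↔ x ∈ S ∧ ∀ y ∈ S, y * x = x * y)
    {χ : Z →* Kˣ} (hτ : dualAct Z τ χ = χ)
    (hρ : dualAct Z ρ χ ≠ χ) (hχ : WS π Z χ ≠ ⊥) {x y : Γ} (hx : x ∈ S) (hy : y ∈ S)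
    (hxy : ⁅x, y⁆ ∈ Z) : χ ⟨⁅x, y⁆, hxy⟩ = 1 := by
  classical
  set W := WS π Z χ with hW
  have hZS : Z ≤ S := fun z hz => ((hZm z).mp hz).1
  have hZH : Z ≤ H := hZS.trans hSH
  have hcommZ : ∀ x ∈ S, ∀ y ∈ S, ⁅x, y⁆ ∈ Z := by
    intro x hx y hy
    rw [hZm]
    refine ⟨?_, fun z hz => hc x hx y hy z hz⟩
    rw [commutatorElement_def]
    exact mul_mem (mul_mem (mul_mem hx hy) (inv_mem hx)) (inv_mem hy)
  have hSW : ∀ x ∈ S, ∀ w ∈ W, π x w ∈ W := fun x hx w hw => map_S π hZm hx hw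
  have hτW : ∀ w ∈ W, π τ w ∈ W := by
    intro w hw
    have h1 := map_WS π Z hw τ
    rwa [hτ] at h1
  have h2K : (2 : K) ≠ 0 := by
    intro h
    apply h6
    have : (6 : K) = 2 * 3 := by norm_num
    rw [this, h, zero_mul]
  obtain ⟨e, he⟩ := hS.exists_card_eq
  have hZK : (Nat.card Z : K) ≠ 0 := card_Z_ne hZS hs.out hS hsK
  -- no fixed vectors
  have hno : ∀ w ∈ W, π τ w = w → w = 0 := by
    intro w hw hfix
    refine ws_fixed_zero π Z hZK (A := closure {ρ, τ}) (d.card_ne h6) (fun w hw =>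
      hA w (hw ρ (subset_closure (Or.inl rfl))) (hw τ (subset_closure (Or.inr rfl)))) hw ?_
    intro a ha h
    have hpow : ∀ i : ℤ, ρ ^ i ∈ stabChi Z χ → ρ ^ i = 1 := by
      intro i hi
      by_contra hne
      obtain ⟨k, hk⟩ := d.zpow_mem_gen hne
      have hk' : (ρ ^ i) ^ k = ρ := hk
      apply hρ
      have h3 : ρ ∈ stabChi Z χ := by rw [← hk']; exact zpow_mem hi k
      exact h3
    obtain ⟨i, hi | hi⟩ := d.mem_cases ha
    · have h4 : ρ ^ i = 1 := hpow i (by rw [← hi]; exact h)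
      rw [hi, h4, map_one]; rfl
    · have h4 : ρ ^ i = 1 := by
        apply hpow
        have h5 : ρ ^ i * τ ∈ stabChi Z χ := by rw [← hi]; exact h
        have h6 : τ ∈ stabChi Z χ := hτ
        have h7 := mul_mem h5 (inv_mem h6)
        rwa [mul_inv_cancel_right] at h7
      rw [hi, h4, one_mul]; exact hfix
  -- [S, τ] acts trivially
  have hcomR : ∀ x ∈ S, ⁅x, τ⁆ ∈ fixW π W := by
    intro x hx
    have h1 : ⁅τ, x⁆ ∈ fixW π W := by
      intro w hw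
      rw [commutatorElement_def]
      exact lemmaP π W (r := 2) (s := s) (Ne.symm hs2) (by exact_mod_cast h2K) hsK (by
        rintro ⟨m, hm, h⟩
        have : 1 < s ^ m := Nat.one_lt_pow (by omega) hs.out.one_lt
        omega) hS (by rw [normalizer_eq_top]; trivial) d.hτ hSW hτW hno hx hw
    rw [← commutatorElement_inv]
    exact inv_mem h1
  have hcle : ⁅S, zpowers τ⁆ ≤ fixW π W :=
    commutator_zpowers_le (by rw [normalizer_eq_top]; trivial) hcomR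
  -- the form
  have hkey : ∀ z (hz : z ∈ Z), (∀ w ∈ W, π z w = w) → χ ⟨z, hz⟩ = 1 := by
    intro z hz h
    obtain ⟨w, hw, hw0⟩ := Submodule.exists_mem_ne_zero_of_ne_bot hχ
    have h1 : π z w = (χ ⟨z, hz⟩ : K) • w := hw ⟨z, hz⟩
    rw [h w hw] at h1
    have h2 : ((χ ⟨z, hz⟩ : K) - 1) • w = 0 := by rw [sub_smul, one_smul, ← h1, sub_self]
    rcases smul_eq_zero.mp h2 with h3 | h3
    · exact Units.ext (sub_eq_zero.mp h3)
    · exact absurd h3 hw0
  set f : Γ → Γ → Kˣ := fun x y => if h : ⁅x, y⁆ ∈ Z then χ ⟨⁅x, y⁆, h⟩ else 1 with hf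
  have hfv : ∀ x ∈ S, ∀ y ∈ S, ∀ h : ⁅x, y⁆ ∈ Z, f x y = χ ⟨⁅x, y⁆, h⟩ := by
    intro x _ y _ h
    rw [hf]
    simp only [dif_pos h]
  have hmul : ∀ x ∈ S, ∀ x' ∈ S, ∀ y ∈ S, f (x * x') y = f x y * f x' y := by
    intro x hx x' hx' y hy
    rw [hfv _ (mul_mem hx hx') y hy (hcommZ _ (mul_mem hx hx') y hy), hfv x hx y hy (hcommZ x hx y hy),
      hfv x' hx' y hy (hcommZ x' hx' y hy), ← map_mul]
    congr 1
    apply Subtype.ext
    show ⁅x * x', y⁆ = ⁅x, y⁆ * ⁅x', y⁆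
    have h1 : ⁅x * x', y⁆ = x * ⁅x', y⁆ * x⁻¹ * ⁅x, y⁆ := by
      rw [commutatorElement_def, commutatorElement_def, commutatorElement_def]; group
    rw [h1, hc x' hx' y hy x hx, mul_inv_cancel_right]
    exact (hc x hx y hy _ (hZS (hcommZ x' hx' y hy)))
  have hsym : ∀ x ∈ S, ∀ y ∈ S, f y x = (f x y)⁻¹ := by
    intro x hx y hy
    rw [hfv x hx y hy (hcommZ x hx y hy), hfv y hy x hx (hcommZ y hy x hx), ← map_inv]
    congr 1
    apply Subtype.ext
    exact (commutatorElement_inv x y).symm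
  have hmul2 : ∀ x ∈ S, ∀ y ∈ S, ∀ y' ∈ S, f x (y * y') = f x y * f x y' := by
    intro x hx y hy y' hy'
    rw [hsym _ (mul_mem hy hy') x hx, hmul y hy y' hy' x hx, mul_inv, hsym y hy x hx, hsym y' hy' x hx]
  have hR : ∀ r ∈ S, r ∈ fixW π W → ∀ y ∈ S, f r y = 1 := by
    intro r hr hrR y hy
    rw [hfv r hr y hy (hcommZ r hr y hy)]
    apply hkey
    intro w hw
    have := comm_congr (π := π) (W := W) hSW (c := 1) (c' := y) (n := r) (n' := 1) (one_mem S) hy hrR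
      (one_mem _) hw
    rw [one_mul, mul_one, commutatorElement_one_left, map_one] at this
    exact this
  have hZf : ∀ z ∈ Z, ∀ y ∈ S, f z y = 1 := by
    intro z hz y hy
    rw [hfv z (hZS hz) y hy (hcommZ z (hZS hz) y hy)]
    have : (⟨⁅z, y⁆, hcommZ z (hZS hz) y hy⟩ : Z) = 1 := by
      apply Subtype.ext
      show ⁅z, y⁆ = 1
      rw [commutatorElement_eq_one_iff_mul_comm]
      exact (((hZm z).mp hz).2 y hy).symm
    rw [this, map_one]
  have hconj : ∀ g x, x ∈ S → g * x * g⁻¹ ∈ S := fun g x hx => hSn.conj_mem x hx g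
  -- facts for elements centralized by τ
  have hρ3 : ρ * ρ * ρ = 1 := by
    have := d.hρ
    rw [pow_succ, pow_two] at this; exact this
  have hτρ : τ * ρ = ρ⁻¹ * τ := by
    have := d.mul_tau 1
    rwa [zpow_one, zpow_neg, zpow_one] at this
  have hρinv : ρ⁻¹ = ρ * ρ := (eq_inv_of_mul_eq_one_left hρ3).symm
  have fact1 : ∀ x ∈ S, τ * x = x * τ → ∀ y ∈ S, f (ρ * x * ρ⁻¹) y = f (ρ⁻¹ * x * ρ) y := by
    intro x hx hxτ y hy
    have h1 : τ * (ρ * x * ρ⁻¹) * τ⁻¹ = ρ⁻¹ * x * ρ := by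
      have h2 : ρ⁻¹ * τ⁻¹ = τ⁻¹ * ρ := by
        have := congrArg (·⁻¹) hτρ
        simp only [mul_inv_rev, inv_inv] at this
        exact this
      calc τ * (ρ * x * ρ⁻¹) * τ⁻¹ = (τ * ρ) * x * (ρ⁻¹ * τ⁻¹) := by group
        _ = ρ⁻¹ * (τ * x) * τ⁻¹ * ρ := by rw [hτρ, h2]; group
        _ = ρ⁻¹ * x * ρ := by rw [hxτ]; group
    have h3 : ρ * x * ρ⁻¹ = ⁅ρ * x * ρ⁻¹, τ⁆ * (ρ⁻¹ * x * ρ) := by
      rw [← h1, commutatorElement_def]; group
    have hx1 : ρ * x * ρ⁻¹ ∈ S := hconj ρ x hx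
    have hx2 : ρ⁻¹ * x * ρ ∈ S := by have := hconj ρ⁻¹ x hx; rwa [inv_inv] at this
    have h4 : ⁅ρ * x * ρ⁻¹, τ⁆ ∈ S := by
      have : ⁅ρ * x * ρ⁻¹, τ⁆ = (ρ * x * ρ⁻¹) * (ρ⁻¹ * x * ρ)⁻¹ := by
        rw [← h1, commutatorElement_def]; group
      rw [this]; exact mul_mem hx1 (inv_mem hx2)
    rw [h3, hmul _ h4 _ hx2 y hy, hR _ h4 (hcomR _ hx1) y hy, one_mul]
  have fact2 : ∀ x ∈ S, τ * x = x * τ → ∀ y ∈ S, f x y * f (ρ * x * ρ⁻¹) y ^ 2 = 1 := by
    intro x hx hxτ y hy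
    have hx1 : ρ * x * ρ⁻¹ ∈ S := hconj ρ x hx
    have hx2 : ρ⁻¹ * x * ρ ∈ S := by have := hconj ρ⁻¹ x hx; rwa [inv_inv] at this
    set g := x * (ρ * x * ρ⁻¹) * (ρ⁻¹ * x * ρ) with hg
    have hgS : g ∈ S := mul_mem (mul_mem hx hx1) hx2
    have hgZ : g ∈ Z := by
      -- g is fixed modulo Z
      have hq : ∀ u ∈ S, ∀ v ∈ S, (QuotientGroup.mk' Z) (u * v) = (QuotientGroup.mk' Z) (v * u) := by
        intro u hu v hv
        have h1 : u * v = ⁅u, v⁆ * (v * u) := by rw [commutatorElement_def]; group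
        rw [h1, map_mul]
        have h2 : (QuotientGroup.mk' Z) ⁅u, v⁆ = 1 := (QuotientGroup.eq_one_iff _).mpr (hcommZ u hu v hv)
        rw [h2, one_mul]
      have hρg : (QuotientGroup.mk' Z) (ρ * g) = (QuotientGroup.mk' Z) (g * ρ) := by
        have h1 : ρ * g * ρ⁻¹ = ((ρ * x * ρ⁻¹) * (ρ⁻¹ * x * ρ)) * x := by
          have e1 : ρ * (ρ * x * ρ⁻¹) * ρ⁻¹ = ρ⁻¹ * x * ρ := by
            have : ρ = ρ⁻¹ * ρ⁻¹ := by
              rw [← mul_inv_rev, ← hρinv, inv_inv]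
            calc ρ * (ρ * x * ρ⁻¹) * ρ⁻¹ = (ρ * ρ) * x * (ρ * ρ)⁻¹ := by group
              _ = ρ⁻¹ * x * ρ := by rw [← hρinv, inv_inv]
          calc ρ * g * ρ⁻¹ = (ρ * x * ρ⁻¹) * (ρ * (ρ * x * ρ⁻¹) * ρ⁻¹) * (ρ * (ρ⁻¹ * x * ρ) * ρ⁻¹) := by
                rw [hg]; group
            _ = _ := by rw [e1]; group
        have h2 : (QuotientGroup.mk' Z) (ρ * g * ρ⁻¹) = (QuotientGroup.mk' Z) g := by
          rw [h1, hq _ (mul_mem hx1 hx2) _ hx, hg]
          congr 1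
          group
        rw [map_mul, map_inv, mul_inv_eq_iff_eq_mul] at h2
        rw [h2]
        exact (map_mul _ _ _).symm
      have hτg : (QuotientGroup.mk' Z) (τ * g) = (QuotientGroup.mk' Z) (g * τ) := by
        have h1 : τ * g * τ⁻¹ = x * ((ρ⁻¹ * x * ρ) * (ρ * x * ρ⁻¹)) := by
          have hτ2 : τ⁻¹ = τ := d.tau_inv
          have e0 : τ * x * τ⁻¹ = x := by rw [hxτ, mul_inv_cancel_right]
          have h2 : ρ⁻¹ * τ⁻¹ = τ⁻¹ * ρ := by
            have := congrArg (·⁻¹) hτρ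
            simp only [mul_inv_rev, inv_inv] at this
            exact this
          have e1 : τ * (ρ * x * ρ⁻¹) * τ⁻¹ = ρ⁻¹ * x * ρ := by
            calc τ * (ρ * x * ρ⁻¹) * τ⁻¹ = (τ * ρ) * x * (ρ⁻¹ * τ⁻¹) := by group
              _ = ρ⁻¹ * (τ * x) * τ⁻¹ * ρ := by rw [hτρ, h2]; group
              _ = ρ⁻¹ * x * ρ := by rw [hxτ]; group
          have e2 : τ * (ρ⁻¹ * x * ρ) * τ⁻¹ = ρ * x * ρ⁻¹ := by
            rw [← e1, hτ2]
            have : τ * τ = 1 := by rw [← pow_two]; exact d.hτ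
            calc τ * (τ * (ρ * x * ρ⁻¹) * τ) * τ = (τ * τ) * (ρ * x * ρ⁻¹) * (τ * τ) := by group
              _ = _ := by rw [this, one_mul, mul_one]
          calc τ * g * τ⁻¹ = (τ * x * τ⁻¹) * ((τ * (ρ * x * ρ⁻¹) * τ⁻¹) * (τ * (ρ⁻¹ * x * ρ) * τ⁻¹)) := by
                rw [hg]; group
            _ = _ := by rw [e0, e1, e2]
        have h2 : (QuotientGroup.mk' Z) (τ * g * τ⁻¹) = (QuotientGroup.mk' Z) g := by
          rw [h1, map_mul, hq _ hx2 _ hx1, ← map_mul, hg]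
          congr 1
          group
        rw [map_mul, map_inv, mul_inv_eq_iff_eq_mul] at h2
        rw [h2]
        exact (map_mul _ _ _).symm
      have hall : ∀ a ∈ closure {ρ, τ}, (QuotientGroup.mk' Z) (a * g) = (QuotientGroup.mk' Z) (g * a) := by
        intro a ha
        have h1 : (closure {ρ, τ} : Subgroup Γ) ≤
            (centralizer {(QuotientGroup.mk' Z) g}).comap (QuotientGroup.mk' Z) := by
          rw [closure_le]
          rintro u (hu | hu)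
          · rw [hu]
            show (QuotientGroup.mk' Z) ρ ∈ centralizer {(QuotientGroup.mk' Z) g}
            rw [mem_centralizer_singleton_iff, ← map_mul, ← map_mul]; exact hρg
          · rw [Set.mem_singleton_iff] at hu
            rw [hu]
            show (QuotientGroup.mk' Z) τ ∈ centralizer {(QuotientGroup.mk' Z) g}
            rw [mem_centralizer_singleton_iff, ← map_mul, ← map_mul]; exact hτg
        have h2 : (QuotientGroup.mk' Z) a ∈ centralizer {(QuotientGroup.mk' Z) g} := h1 ha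
        rw [mem_centralizer_singleton_iff, ← map_mul, ← map_mul] at h2
        exact h2
      obtain ⟨c, hcc, n, hn, hgn⟩ := H23.mem_sup_of_commutator_mem (A := closure {ρ, τ}) (N := Z)
        (by rw [normalizer_eq_top]; exact le_top) (d.cop le_rfl hZH)
        (Or.inr (H1.isSolvable_of_le hZH d.hsolv)) (g := g) (fun a ha => by
          rw [← QuotientGroup.eq_one_iff]
          show (QuotientGroup.mk' Z) ⁅g⁻¹, a⁆ = 1
          have h3 := hall a ha
          have h4 : ⁅g⁻¹, a⁆ = g⁻¹ * (a * g) * a⁻¹ := by rw [commutatorElement_def]; group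
          rw [h4, map_mul, map_mul, h3, ← map_mul, ← map_mul]
          have h5 : g⁻¹ * (g * a) * a⁻¹ = 1 := by group
          rw [h5, map_one])
      have hcH : c ∈ H := by
        have : c = g * n⁻¹ := by rw [hgn]; group
        rw [this]; exact mul_mem (hSH hgS) (inv_mem (hZH hn))
      have hc1 : c = 1 := d.hfix c hcH (mem_centralizer_iff.mp hcc ρ (subset_closure (Or.inl rfl)))
        (mem_centralizer_iff.mp hcc τ (subset_closure (Or.inr rfl)))
      rw [hgn, hc1, one_mul]; exact hn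
    have h5 := hZf g hgZ y hy
    rw [hg, hmul _ (mul_mem hx hx1) _ hx2 y hy, hmul _ hx _ hx1 y hy, ← fact1 x hx hxτ y hy] at h5
    rw [pow_two, ← mul_assoc]; exact h5
  -- main computation for centralized elements
  have main : ∀ x ∈ S, τ * x = x * τ → ∀ y ∈ S, τ * y = y * τ → f x y = 1 := by
    intro x hx hxτ y hy hyτ
    have hx1 : ρ * x * ρ⁻¹ ∈ S := hconj ρ x hx
    have hx2 : ρ⁻¹ * x * ρ ∈ S := by have := hconj ρ⁻¹ x hx; rwa [inv_inv] at this
    have hy1 : ρ * y * ρ⁻¹ ∈ S := hconj ρ y hy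
    have hy2 : ρ⁻¹ * y * ρ ∈ S := by have := hconj ρ⁻¹ y hy; rwa [inv_inv] at this
    set φ := f (ρ * x * ρ⁻¹) (ρ * y * ρ⁻¹) with hφ
    have e1 := fact2 x hx hxτ y hy
    have e2 : f (ρ * x * ρ⁻¹) y * φ ^ 2 = 1 := by
      have := fact2 y hy hyτ _ hx1
      rw [hsym _ hx1 y hy, hsym _ hx1 _ hy1] at this
      have h3 := congrArg (·⁻¹) this
      simp only [mul_inv_rev, inv_one, inv_inv] at h3
      rw [← h3, mul_comm, inv_pow, inv_inv]
    have e3 : f x y = φ ^ 4 := by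
      have h4 : f (ρ * x * ρ⁻¹) y = (φ ^ 2)⁻¹ := eq_inv_of_mul_eq_one_left e2
      rw [h4] at e1
      have h5 : f x y = (((φ ^ 2)⁻¹) ^ 2)⁻¹ := eq_inv_of_mul_eq_one_left e1
      rw [h5, inv_pow, inv_inv, ← pow_mul]
    have e4 : f x y * φ ^ 2 = 1 := by
      have h1 := d.sum_eq_one hZH (φ := χ) hτ
      have h2 := DFunLike.congr_fun h1 ⟨⁅x, y⁆, hcommZ x hx y hy⟩
      have h3 : ρ⁻¹ * ⁅x, y⁆ * ρ = ⁅ρ⁻¹ * x * ρ, ρ⁻¹ * y * ρ⁆ := by
        rw [commutatorElement_def, commutatorElement_def]; group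
      have h4 : (ρ ^ 2)⁻¹ * ⁅x, y⁆ * ρ ^ 2 = ⁅ρ * x * ρ⁻¹, ρ * y * ρ⁻¹⁆ := by
        have h5 : (ρ ^ 2)⁻¹ = ρ := by
          rw [pow_two, ← hρinv, inv_inv]
        have h6 : ρ ^ 2 = ρ⁻¹ := by rw [pow_two, ← hρinv]
        rw [h5, h6, commutatorElement_def, commutatorElement_def]; group
      have h5 : dualAct Z ρ χ ⟨⁅x, y⁆, hcommZ x hx y hy⟩ = φ := by
        rw [dualAct_apply_of_mem ρ χ _ (by rw [h3]; exact hcommZ _ hx2 _ hy2), hφ,
          fact1 x hx hxτ _ hy1]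
        have h7 : f (ρ⁻¹ * x * ρ) (ρ * y * ρ⁻¹) = f (ρ⁻¹ * x * ρ) (ρ⁻¹ * y * ρ) := by
          have := fact1 y hy hyτ _ hx2
          rw [hsym _ hx2 _ hy1, hsym _ hx2 _ hy2] at this
          exact inv_injective this
        rw [h7, hfv _ hx2 _ hy2 (hcommZ _ hx2 _ hy2)]
        congr 1
        exact Subtype.ext h3
      have h6 : dualAct Z (ρ ^ 2) χ ⟨⁅x, y⁆, hcommZ x hx y hy⟩ = φ := by
        rw [dualAct_apply_of_mem (ρ ^ 2) χ _ (by rw [h4]; exact hcommZ _ hx1 _ hy1), hφ,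
          hfv _ hx1 _ hy1 (hcommZ _ hx1 _ hy1)]
        congr 1
        exact Subtype.ext h4
      have h7 : χ ⟨⁅x, y⁆, hcommZ x hx y hy⟩ * dualAct Z ρ χ ⟨⁅x, y⁆, hcommZ x hx y hy⟩ *
          dualAct Z (ρ ^ 2) χ ⟨⁅x, y⁆, hcommZ x hx y hy⟩ = 1 := h2
      rw [h5, h6, mul_assoc, ← pow_two, ← hfv x hx y hy] at h7
      exact h7
    have e5 : φ ^ 6 = 1 := by
      rw [e3, ← pow_add] at e4
      exact e4
    have e6 : φ ^ (s ^ e) = 1 := by
      rw [hφ, hfv _ hx1 _ hy1 (hcommZ _ hx1 _ hy1), ← map_pow]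
      have h1 : (⟨⁅ρ * x * ρ⁻¹, ρ * y * ρ⁻¹⁆, hcommZ _ hx1 _ hy1⟩ : Z) ^ (s ^ e) = 1 := by
        apply Subtype.ext
        show ⁅ρ * x * ρ⁻¹, ρ * y * ρ⁻¹⁆ ^ (s ^ e) = 1
        have h2 := pow_card_eq_one' (G := S)
          (x := ⟨⁅ρ * x * ρ⁻¹, ρ * y * ρ⁻¹⁆, hZS (hcommZ _ hx1 _ hy1)⟩)
        rw [he] at h2
        exact congrArg Subtype.val h2
      rw [h1, map_one]
    have hcop : Nat.Coprime 6 (s ^ e) := by
      apply Nat.Coprime.pow_right
      have h2 : Nat.Coprime 2 s := (Nat.coprime_primes Nat.prime_two hs.out).mpr (Ne.symm hs2)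
      have h3 : Nat.Coprime 3 s := (Nat.coprime_primes Nat.prime_three hs.out).mpr (Ne.symm hs3)
      exact Nat.Coprime.mul_left h2 h3
    have e7 : φ = 1 := by
      have h1 : orderOf φ ∣ 6 := orderOf_dvd_of_pow_eq_one e5
      have h2 : orderOf φ ∣ s ^ e := orderOf_dvd_of_pow_eq_one e6
      exact orderOf_eq_one_iff.mp (Nat.eq_one_of_dvd_coprimes hcop h1 h2)
    rw [e3, e7, one_pow]
  -- reduction to centralized elements
  have hle : zpowers τ ≤ closure {ρ, τ} := by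
    rw [zpowers_le]; exact subset_closure (Or.inr rfl)
  have hnorm : zpowers τ ≤ normalizer (S : Set Γ) := by rw [normalizer_eq_top]; exact le_top
  have hsol : Group.IsSolvable S := H1.isSolvable_of_le hSH d.hsolv
  obtain ⟨c, hc1, n, hn, rfl⟩ := H23.exists_centralizer_mul_commutator (A := zpowers τ) (G := S) hnorm
    (d.cop hle hSH) (Or.inr hsol) hx
  obtain ⟨c', hc1', n', hn', rfl⟩ := H23.exists_centralizer_mul_commutator (A := zpowers τ) (G := S) hnorm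
    (d.cop hle hSH) (Or.inr hsol) hy
  have hcτ : τ * c = c * τ := mem_centralizer_iff.mp hc1.2 τ (mem_zpowers τ)
  have hcτ' : τ * c' = c' * τ := mem_centralizer_iff.mp hc1'.2 τ (mem_zpowers τ)
  have hm := main c hc1.1 hcτ c' hc1'.1 hcτ'
  apply hkey
  intro w hw
  rw [comm_congr (π := π) (W := W) hSW hc1.1 hc1'.1 (hcle hn) (hcle hn') hw]
  have h1 : π ⁅c, c'⁆ w = (χ ⟨⁅c, c'⁆, hcommZ _ hc1.1 _ hc1'.1⟩ : K) • w :=
    hw ⟨⁅c, c'⁆, hcommZ _ hc1.1 _ hc1'.1⟩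
  rw [h1, ← hfv c hc1.1 c' hc1'.1, hm, Units.val_one, one_smul]

end S3Data

end Cfsg.Agent.H25
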