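import Mathlib
import Cfsg.Agent.H25.FpfPA
import Cfsg.Agent.H25.FpfS3c
import Cfsg.Agent.H23.HHSemi2

/-!
Operator groups of order `pq`: the commutator form of a group of class two.
-/

set_option autoImplicit false

namespace Cfsg.Agent.H25

open Subgroup Module
open scoped commutatorElement

section form

variable {E : Type*} [CommGroup E] {Γ : Type*} [Group Γ] {S Z : Subgroup Γ}

/-- the commutator form -/
def form (hZm : ∀ x, x ∈ Z ↔ x ∈ S ∧ ∀ y ∈ S, y * x = x * y) (hc : ∀ x ∈ S, ∀ y ∈ S, ⁅x, y⁆ ∈ Z)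
    (χ : Z →* E) : S →* (S →* E) where
  toFun x :=
    { toFun := fun y => χ ⟨⁅(x : Γ), y⁆, hc x x.2 y y.2⟩
      map_one' := by
        have : (⟨⁅(x : Γ), ((1 : S) : Γ)⁆, hc x x.2 (1 : S) (1 : S).2⟩ : Z) = 1 :=
          Subtype.ext (by show ⁅(x : Γ), ((1 : S) : Γ)⁆ = 1; rw [OneMemClass.coe_one, commutatorElement_one_right])
        rw [this, map_one]
      map_mul' := by
        intro y y'
        rw [← map_mul]
        congr 1
        apply Subtype.ext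
        show ⁅(x : Γ), (y : Γ) * y'⁆ = ⁅(x : Γ), (y : Γ)⁆ * ⁅(x : Γ), (y' : Γ)⁆
        have h1 : ⁅(x : Γ), (y : Γ) * y'⁆ =
            ⁅(x : Γ), (y : Γ)⁆ * (y * ⁅(x : Γ), (y' : Γ)⁆ * (y : Γ)⁻¹) := by
          rw [commutatorElement_def, commutatorElement_def, commutatorElement_def]; group
        rw [h1, ((hZm _).mp (hc x x.2 y' y'.2)).2 y y.2, mul_inv_cancel_right] }
  map_one' := by
    ext y
    show χ ⟨⁅((1 : S) : Γ), (y : Γ)⁆, _⟩ = 1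
    have : (⟨⁅((1 : S) : Γ), (y : Γ)⁆, hc (1 : S) (1 : S).2 y y.2⟩ : Z) = 1 :=
      Subtype.ext (by show ⁅((1 : S) : Γ), (y : Γ)⁆ = 1; rw [OneMemClass.coe_one, commutatorElement_one_left])
    rw [this, map_one]
  map_mul' := by
    intro x x'
    ext y
    show χ ⟨⁅((x * x' : S) : Γ), (y : Γ)⁆, _⟩ = χ ⟨⁅(x : Γ), (y : Γ)⁆, hc x x.2 y y.2⟩ *
      χ ⟨⁅(x' : Γ), (y : Γ)⁆, hc x' x'.2 y y.2⟩
    rw [← map_mul]
    congr 1
    apply Subtype.ext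
    show ⁅(x : Γ) * x', (y : Γ)⁆ = ⁅(x : Γ), (y : Γ)⁆ * ⁅(x' : Γ), (y : Γ)⁆
    have h1 : ⁅(x : Γ) * x', (y : Γ)⁆ = (x * ⁅(x' : Γ), (y : Γ)⁆ * (x : Γ)⁻¹) * ⁅(x : Γ), (y : Γ)⁆ := by
      rw [commutatorElement_def, commutatorElement_def, commutatorElement_def]; group
    rw [h1, ((hZm _).mp (hc x' x'.2 y y.2)).2 x x.2, mul_inv_cancel_right]
    exact ((hZm _).mp (hc x x.2 y y.2)).2 _ ((hZm _).mp (hc x' x'.2 y y.2)).1 |>.symm ▸ rfl

variable {hZm : ∀ x, x ∈ Z ↔ x ∈ S ∧ ∀ y ∈ S, y * x = x * y} {hc : ∀ x ∈ S, ∀ y ∈ S, ⁅x, y⁆ ∈ Z}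

theorem form_apply (χ : Z →* E) (x y : S) :
    form hZm hc χ x y = χ ⟨⁅(x : Γ), (y : Γ)⁆, hc x x.2 y y.2⟩ := rfl

theorem form_symm (χ : Z →* E) (x y : S) : form hZm hc χ y x = (form hZm hc χ x y)⁻¹ := by
  rw [form_apply, form_apply, ← map_inv]
  congr 1
  apply Subtype.ext
  exact (commutatorElement_inv (x : Γ) y).symm

theorem form_conj [hSn : S.Normal] [hZn : Z.Normal] (χ : Z →* E) (g : Γ) (x y : S) :
    form hZm hc χ ⟨g⁻¹ * x * g, by have := hSn.conj_mem x x.2 g⁻¹; rwa [inv_inv] at this⟩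
      ⟨g⁻¹ * y * g, by have := hSn.conj_mem y y.2 g⁻¹; rwa [inv_inv] at this⟩ =
      form hZm hc (dualAct Z g χ) x y := by
  rw [form_apply, form_apply, dualAct_apply]
  congr 1
  apply Subtype.ext
  show ⁅g⁻¹ * x * g, g⁻¹ * y * g⁆ = g⁻¹ * ⁅(x : Γ), (y : Γ)⁆ * g
  rw [commutatorElement_def, commutatorElement_def]; group

end form

end Cfsg.Agent.H25
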