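import Mathlib
import Cfsg.Agent.H25.FpfS3

/-!
Orbits of weights and the rank of `a - 1`.
-/

set_option autoImplicit false

namespace Cfsg.Agent.H25

open Subgroup Module
open scoped commutatorElement

section

variable {E : Type*} [CommGroup E] {G : Type*} [Group G] {B : Subgroup G} [hBn : B.Normal]

theorem pow_mem_stab {a : G} {ℓ : ℕ} (hℓ : ℓ.Prime) (ha : a ^ ℓ = 1) {χ : B →* E} {k : ℕ}
    (hk : ¬ ℓ ∣ k) (h : dualAct B (a ^ k) χ = χ) : dualAct B a χ = χ := by
  have h1 : Nat.Coprime k ℓ := ((Nat.Prime.coprime_iff_not_dvd hℓ).mpr hk).symm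
  have h2 : a ∈ zpowers (a ^ k) := by
    have h3 : IsCoprime (k : ℤ) (ℓ : ℤ) := Nat.isCoprime_iff_coprime.mpr h1
    obtain ⟨u, v, huv⟩ := h3
    refine ⟨u, ?_⟩
    show (a ^ k) ^ u = a
    have h4 : a ^ (ℓ : ℤ) = 1 := by rw [zpow_natCast]; exact ha
    calc (a ^ k) ^ u = a ^ (u * k) * (a ^ (ℓ : ℤ)) ^ v := by
          rw [h4, one_zpow, mul_one, ← zpow_natCast, ← zpow_mul, mul_comm]
      _ = a ^ (u * k + v * ℓ) := by rw [← zpow_mul, ← zpow_add, mul_comm (ℓ : ℤ) v]
      _ = a := by rw [huv, zpow_one]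
  have h3 : zpowers (a ^ k) ≤ stabChi B χ := by rw [zpowers_le]; exact h
  exact h3 h2

theorem orbit_distinct {a : G} {ℓ : ℕ} (hℓ : ℓ.Prime) (ha : a ^ ℓ = 1) {χ : B →* E}
    (hχ : dualAct B a χ ≠ χ) {i j : ℕ} (hi : i < ℓ) (hj : j < ℓ)
    (h : dualAct B (a ^ i) χ = dualAct B (a ^ j) χ) : i = j := by
  wlog hij : i ≤ j generalizing i j
  · exact (this hj hi h.symm (le_of_not_ge hij)).symm
  by_contra hne
  apply hχ
  refine pow_mem_stab hℓ ha (k := j - i) (fun hd => ?_) ?_
  · have := Nat.le_of_dvd (by omega) hd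
    omega
  · have h1 : a ^ j = a ^ i * a ^ (j - i) := by rw [← pow_add]; congr 1; omega
    rw [h1, dualAct_mul_apply] at h
    exact ((dualAct B (a ^ i)).injective h).symm

theorem orbit_inv {a : G} {ℓ : ℕ} (hℓ : ℓ.Prime) (hℓ2 : ℓ ≠ 2) (ha : a ^ ℓ = 1) (hodd : Odd (Nat.card B))
    {χ : B →* E} (hχ : dualAct B a χ ≠ χ) {i j : ℕ} (_hi : i < ℓ) (hj : j < ℓ) :
    dualAct B (a ^ i) χ ≠ dualAct B (a ^ j) χ⁻¹ := by
  intro h
  -- `c χ = χ⁻¹` with `c = a ^ k`
  set k := (ℓ - j) + i with hk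
  have h1 : dualAct B (a ^ k) χ = χ⁻¹ := by
    have h2 : a ^ k = a ^ (ℓ - j) * a ^ i := pow_add _ _ _
    rw [h2, dualAct_mul_apply, h, ← dualAct_mul_apply, ← pow_add, Nat.sub_add_cancel hj.le, ha, map_one]
    rfl
  have h2 : dualAct B (a ^ (2 * k)) χ = χ := by
    rw [two_mul, pow_add, dualAct_mul_apply, h1, map_inv, h1, inv_inv]
  by_cases hd : ℓ ∣ 2 * k
  · have hdk : ℓ ∣ k := by
      rcases (Nat.Prime.dvd_mul hℓ).mp hd with h3 | h3
      · exact absurd ((Nat.prime_dvd_prime_iff_eq hℓ Nat.prime_two).mp h3) hℓ2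
      · exact h3
    obtain ⟨t, ht⟩ := hdk
    have h3 : a ^ k = 1 := by rw [ht, pow_mul, ha, one_pow]
    rw [h3, map_one] at h1
    have h4 : χ = χ⁻¹ := h1
    apply hχ
    have h5 : χ = 1 := by
      ext b
      have h6 : χ b * χ b = 1 := by
        have := DFunLike.congr_fun h4 b
        have h7 : χ b = (χ b)⁻¹ := this
        nth_rewrite 2 [h7]
        exact mul_inv_cancel _
      obtain ⟨m, hm⟩ := hodd
      have h8 : χ b ^ Nat.card B = 1 := by rw [← map_pow, pow_card_eq_one', map_one]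
      rw [hm, pow_add, pow_mul, pow_two, h6, one_pow, one_mul, pow_one] at h8
      exact h8
    rw [h5, map_one]
  · exact hχ (pow_mem_stab hℓ ha hd h2)

end

section

variable {k : Type*} [Field k] [IsAlgClosed k] {V : Type*} [AddCommGroup V] [Module k V]
  [FiniteDimensional k V] {G : Type*} [Group G] [Finite G] (π : G →* Module.End k V)
variable (B : Subgroup G) [hBn : B.Normal]

omit [FiniteDimensional k V] [IsAlgClosed k] hBn [Finite G] in
theorem toHomUnits_val (b : B) :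
    (((MonoidHom.toHomUnits π).comp B.subtype b : (Module.End k V)ˣ) : Module.End k V) = π b := rfl

omit hBn in
/-- elements killed by all weights act trivially (the action of `B` being commutative) -/
theorem eq_one_of_weights' (hc : ∀ x ∈ B, ∀ y ∈ B, π (x * y) = π (y * x))
    (hB : (Nat.card B : k) ≠ 0) {b : B} (h : ∀ χ : B →* kˣ, WS π B χ ≠ ⊥ → χ b = 1) : π b = 1 := by
  set q : B →* (Module.End k V)ˣ := (MonoidHom.toHomUnits π).comp B.subtype with hq
  haveI : Finite q.range := by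
    have : Finite (Set.range q) := Set.finite_range q
    exact this
  haveI hcm : IsMulCommutative q.range := by
    refine ⟨⟨?_⟩⟩
    rintro ⟨_, x, rfl⟩ ⟨_, y, rfl⟩
    apply Subtype.ext
    apply Units.ext
    show π x * π y = π y * π x
    rw [← map_mul, ← map_mul]
    exact hc x x.2 y y.2
  haveI : NeZero (Nat.card q.range : k) := ⟨by
    intro h0
    apply hB
    have h1 : Nat.card q.range ∣ Nat.card B := by
      rw [← Subgroup.index_ker]; exact Subgroup.index_dvd_card _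
    obtain ⟨t, ht⟩ := h1
    rw [ht, Nat.cast_mul, h0, zero_mul]⟩
  obtain ⟨ι, _, e, μ, he⟩ := H3.exists_simul_eigenbasis (k := k) (A := q.range)
    ((Units.coeHom _).comp q.range.subtype)
  apply e.ext
  intro i
  have h1 : ∀ x : B, π x (e i) = (μ i (q.rangeRestrict x) : k) • e i := fun x => he (q.rangeRestrict x) i
  have h2 : WS π B ((μ i).comp q.rangeRestrict) ≠ ⊥ := by
    intro h3
    have h4 : e i ∈ WS π B ((μ i).comp q.rangeRestrict) := h1
    rw [h3, Submodule.mem_bot] at h4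
    exact e.ne_zero i h4
  have h3 := h _ h2
  rw [h1]
  have h4 : μ i (q.rangeRestrict b) = 1 := h3
  rw [h4, Units.val_one, one_smul]
  rfl

omit [FiniteDimensional k V] [IsAlgClosed k] [Finite G] in
theorem prj_map [Fintype B] (a : G) (χ : B →* kˣ) (x : V) :
    prj π B (dualAct B a χ) (π a x) = π a (prj π B χ x) := by
  unfold prj
  rw [LinearMap.sum_apply, LinearMap.sum_apply, map_sum]
  symm
  refine Fintype.sum_equiv (MulAut.conjNormal a : MulAut B).toEquiv _ _ fun b => ?_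
  rw [LinearMap.smul_apply, LinearMap.smul_apply, map_smul]
  have h1 : dualAct B a χ ((MulAut.conjNormal a : MulAut B).toEquiv b) = χ b := by
    show χ (MulAut.conjNormal a⁻¹ (MulAut.conjNormal a b)) = χ b
    rw [← MulAut.mul_apply, ← map_mul, inv_mul_cancel, map_one]; rfl
  rw [h1]
  congr 1
  rw [← Module.End.mul_apply, ← Module.End.mul_apply, ← map_mul, ← map_mul]
  congr 2
  show a * b = (MulAut.conjNormal a b : B) * a
  rw [MulAut.conjNormal_apply, inv_mul_cancel_right]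

theorem lemmaW (hc : ∀ x ∈ B, ∀ y ∈ B, π (x * y) = π (y * x)) (hB : (Nat.card B : k) ≠ 0)
    (hodd : Odd (Nat.card B)) {ℓ : ℕ} (hℓ : ℓ.Prime) (hℓ2 : ℓ ≠ 2) {a : G} (ha : a ^ ℓ = 1)
    (hdual : ∀ χ : B →* kˣ, WS π B χ ≠ ⊥ → WS π B χ⁻¹ ≠ ⊥)
    (hdim : finrank k (LinearMap.range (π a - 1)) < 2 * (ℓ - 1)) {b : G} (hb : b ∈ B) :
    π (a * b * a⁻¹ * b⁻¹) = 1 := by
  classical
  haveI : Fintype B := Fintype.ofFinite B
  have hab : a * b * a⁻¹ ∈ B := hBn.conj_mem b hb a
  have habb : a * b * a⁻¹ * b⁻¹ ∈ B := mul_mem hab (inv_mem hb)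
  refine eq_one_of_weights' π B hc hB (b := ⟨_, habb⟩) ?_
  intro χ hχ
  by_cases hfix : dualAct B a χ = χ
  · have h1 : dualAct B a⁻¹ χ = χ := (stabChi B χ).inv_mem hfix
    have h2 : (⟨a * b * a⁻¹ * b⁻¹, habb⟩ : B) = ⟨a * b * a⁻¹, hab⟩ * ⟨b, hb⟩⁻¹ := rfl
    have h3 : dualAct B a⁻¹ χ ⟨b, hb⟩ = χ ⟨a * b * a⁻¹, hab⟩ := by
      rw [dualAct_apply_of_mem a⁻¹ χ hb (by rw [inv_inv]; exact hab)]
      simp only [inv_inv]
    rw [h2, map_mul, ← h3, h1, map_inv, mul_inv_cancel]
  exfalso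
  obtain ⟨v, hv, hv0⟩ := Submodule.exists_mem_ne_zero_of_ne_bot hχ
  obtain ⟨v', hv', hv'0⟩ := Submodule.exists_mem_ne_zero_of_ne_bot (hdual χ hχ)
  let ψ : Bool × ℕ → (B →* kˣ) := fun t => dualAct B (a ^ t.2) (if t.1 then χ⁻¹ else χ)
  let w : Bool × ℕ → V := fun t => π (a ^ t.2) (if t.1 then v' else v)
  have hw : ∀ t, w t ∈ WS π B (ψ t) := by
    rintro ⟨t, i⟩
    show π (a ^ i) (if t then v' else v) ∈ WS π B (dualAct B (a ^ i) (if t then χ⁻¹ else χ))
    cases t
    · exact map_WS π B hv _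
    · exact map_WS π B hv' _
  have hinjπ : ∀ (g : G) (x : V), π g x = 0 → x = 0 := by
    intro g x h
    have h2 : π g⁻¹ (π g x) = x := by
      rw [← Module.End.mul_apply, ← map_mul, inv_mul_cancel, map_one]; rfl
    rw [← h2, h, map_zero]
  have hw0 : ∀ t, w t ≠ 0 := by
    rintro ⟨t, i⟩ h
    cases t
    · exact hv0 (hinjπ _ _ h)
    · exact hv'0 (hinjπ _ _ h)
  have hfix' : dualAct B a χ⁻¹ ≠ χ⁻¹ := by
    intro h
    apply hfix
    have h1 : dualAct B a χ⁻¹ = (dualAct B a χ)⁻¹ := map_inv (dualAct B a) χ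
    rw [h1] at h
    exact inv_injective h
  have hψ : ∀ t t' : Bool × ℕ, t.2 < ℓ → t'.2 < ℓ → ψ t = ψ t' → t = t' := by
    rintro ⟨t, i⟩ ⟨t', j⟩ hi hj h
    cases t <;> cases t'
    · have : i = j := orbit_distinct hℓ ha hfix hi hj h
      rw [this]
    · exact absurd h (orbit_inv hℓ hℓ2 ha hodd hfix hi hj)
    · exact absurd h.symm (orbit_inv hℓ hℓ2 ha hodd hfix hj hi)
    · have : i = j := orbit_distinct hℓ ha hfix' hi hj h
      rw [this]
  let ι := Bool × Fin (ℓ - 1)
  let w' : ι → V := fun t => w (t.1, (t.2 : ℕ))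
  have hcardB : (Fintype.card B : k) ≠ 0 := by rwa [← Nat.card_eq_fintype_card]
  have hprj : ∀ (c : ι → k) (t : Bool × ℕ), t.2 < ℓ → prj π B (ψ t) (∑ i, c i • w' i) =
      ∑ i : ι, if (i.1, (i.2 : ℕ)) = t then (c i * (Fintype.card B : k)) • w' i else 0 := by
    intro c t ht
    rw [map_sum]
    refine Finset.sum_congr rfl fun i _ => ?_
    rw [map_smul]
    split_ifs with h
    · rw [← h, prj_self π B (hw (i.1, (i.2 : ℕ))), smul_smul]
    · rw [prj_ne π B (fun h2 => h (hψ _ _ (by have := i.2.2; show (i.2 : ℕ) < ℓ; omega) ht h2.symm))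
        (hw (i.1, (i.2 : ℕ))), smul_zero]
  have hLI : LinearIndependent k (fun i : ι => (π a - 1) (w' i)) := by
    rw [Fintype.linearIndependent_iff]
    intro c hc0
    set x := ∑ i, c i • w' i with hx
    have hxa : π a x = x := by
      have h1 : (π a - 1) x = 0 := by
        rw [hx, map_sum, ← hc0]
        exact Finset.sum_congr rfl fun i _ => map_smul _ _ _
      have h2 : π a x - x = 0 := h1
      exact sub_eq_zero.mp h2
    have hlast : ∀ t : Bool, prj π B (ψ (t, ℓ - 1)) x = 0 := by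
      intro t
      rw [hx, hprj c (t, ℓ - 1) (by have := hℓ.pos; show ℓ - 1 < ℓ; omega)]
      apply Finset.sum_eq_zero
      intro i _
      rw [if_neg]
      intro h
      have h1 : (i.2 : ℕ) = ℓ - 1 := congrArg Prod.snd h
      have := i.2.2
      omega
    have hstep : ∀ (t : Bool) (j : ℕ), prj π B (ψ (t, j + 1)) x = π a (prj π B (ψ (t, j)) x) := by
      intro t j
      rw [← prj_map π B a, hxa]
      congr 2
      show dualAct B (a ^ (j + 1)) _ = dualAct B a (dualAct B (a ^ j) _)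
      rw [← dualAct_mul_apply, ← pow_succ']
    have hall : ∀ (n : ℕ) (t : Bool) (j : ℕ), j + n = ℓ - 1 → prj π B (ψ (t, j)) x = 0 := by
      intro n
      induction n with
      | zero => intro t j hj; rw [add_zero] at hj; rw [hj]; exact hlast t
      | succ n ih =>
        intro t j hj
        apply hinjπ a
        rw [← hstep]
        exact ih t (j + 1) (by omega)
    intro i
    have h1 := hall (ℓ - 1 - i.2) i.1 i.2 (by have := i.2.2; omega)
    rw [hx, hprj c (i.1, (i.2 : ℕ)) (by have := i.2.2; show (i.2 : ℕ) < ℓ; omega)] at h1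
    have h2 : ∑ i' : ι, (if (i'.1, (i'.2 : ℕ)) = (i.1, (i.2 : ℕ)) then
        (c i' * (Fintype.card B : k)) • w' i' else 0) = (c i * (Fintype.card B : k)) • w' i := by
      rw [Finset.sum_eq_single i]
      · rw [if_pos rfl]
      · intro i' _ hne
        rw [if_neg]
        intro h
        apply hne
        rw [Prod.mk.injEq] at h
        exact Prod.ext h.1 (Fin.ext h.2)
      · intro h; exact absurd (Finset.mem_univ i) h
    rw [h2] at h1
    rcases smul_eq_zero.mp h1 with h3 | h3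
    · rcases mul_eq_zero.mp h3 with h4 | h4
      · exact h4
      · exact absurd h4 hcardB
    · exact absurd h3 (hw0 _)
  have h1 := finrank_span_eq_card hLI
  have h2 : Submodule.span k (Set.range (fun i : ι => (π a - 1) (w' i))) ≤ LinearMap.range (π a - 1) := by
    rw [Submodule.span_le]
    rintro _ ⟨i, rfl⟩
    exact ⟨_, rfl⟩
  have h3 := Submodule.finrank_mono h2
  rw [h1] at h3
  have h4 : Fintype.card ι = 2 * (ℓ - 1) := by
    rw [Fintype.card_prod, Fintype.card_bool, Fintype.card_fin]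
  omega

end

end Cfsg.Agent.H25
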