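import Mathlib
import Cfsg.Agent.H25.FpfW
import Cfsg.Agent.H25.FpfPB

/-!
Operator groups of order `pq`: odd abelian groups acting on symplectic spaces over the field of two elements.
-/

set_option autoImplicit false

namespace Cfsg.Agent.H25

open Subgroup Module
open scoped commutatorElement

theorem two_pow_finrank_span_le {k V : Type*} [Field k] [AddCommGroup V] [Module k V]
    [FiniteDimensional k V] {Y : Set V} (hfin : Y.Finite) (h0 : (0 : V) ∈ Y)
    (hadd : ∀ x ∈ Y, ∀ y ∈ Y, x + y ∈ Y) : 2 ^ finrank k (Submodule.span k Y) ≤ Y.ncard := by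
  classical
  obtain ⟨f, hf, _, hli⟩ := Submodule.exists_fun_fin_finrank_span_eq k Y
  let g : Finset (Fin (finrank k (Submodule.span k Y))) → V := fun E => ∑ i ∈ E, f i
  have hg : ∀ E, g E ∈ Y := by
    intro E
    induction E using Finset.induction_on with
    | empty => exact h0
    | insert i E hi ih =>
      show ∑ j ∈ insert i E, f j ∈ Y
      rw [Finset.sum_insert hi]
      exact hadd _ (hf i) _ ih
  have hinj : Function.Injective g := by
    intro E E' h
    have h1 : ∑ i, ((if i ∈ E then (1 : k) else 0) - (if i ∈ E' then 1 else 0)) • f i = 0 := by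
      have h2 : ∀ E : Finset (Fin (finrank k (Submodule.span k Y))),
          ∑ i, (if i ∈ E then (1 : k) else 0) • f i = g E := by
        intro E
        show _ = ∑ i ∈ E, f i
        rw [← Finset.sum_filter_add_sum_filter_not Finset.univ (fun i => i ∈ E)]
        have h3 : ∑ i ∈ Finset.univ.filter (fun i => ¬ i ∈ E), (if i ∈ E then (1 : k) else 0) • f i = 0 := by
          apply Finset.sum_eq_zero
          intro i hi
          rw [if_neg (Finset.mem_filter.mp hi).2, zero_smul]
        rw [h3, add_zero]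
        have h4 : Finset.univ.filter (fun i => i ∈ E) = E := by
          ext i; simp
        rw [h4]
        refine Finset.sum_congr rfl fun i hi => ?_
        rw [if_pos hi, one_smul]
      simp only [sub_smul, Finset.sum_sub_distrib]
      rw [h2, h2, h, sub_self]
    rw [Fintype.linearIndependent_iff] at hli
    have h2 := hli _ h1
    ext i
    have h3 := h2 i
    by_cases hE : i ∈ E <;> by_cases hE' : i ∈ E' <;> simp [hE, hE'] at h3 ⊢
  have h1 : (Set.range g).ncard = 2 ^ finrank k (Submodule.span k Y) := by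
    rw [← Nat.card_coe_set_eq, Nat.card_range_of_injective hinj, Nat.card_eq_fintype_card,
      Fintype.card_finset, Fintype.card_fin]
  rw [← h1]
  apply Set.ncard_le_ncard _ hfin
  rintro _ ⟨E, rfl⟩
  exact hg E

section

variable {k : Type*} [Field k] {Γ : Type*} [Group Γ] (S : Subgroup Γ) [hSn : S.Normal]

/-- the action by conjugation on the functions on a normal subgroup -/
def funRep : Γ →* Module.End k (S → k) where
  toFun g := LinearMap.funLeft k k (MulAut.conjNormal g⁻¹ : MulAut S)
  map_one' := by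
    ext φ x
    show φ (MulAut.conjNormal (1 : Γ)⁻¹ x) = φ x
    rw [inv_one, map_one]; rfl
  map_mul' := by
    intro g h
    apply LinearMap.ext
    intro φ
    funext x
    show φ (MulAut.conjNormal (g * h)⁻¹ x) = φ (MulAut.conjNormal h⁻¹ (MulAut.conjNormal g⁻¹ x))
    rw [mul_inv_rev, map_mul]; rfl

theorem funRep_apply (g : Γ) (φ : S → k) (x : S) :
    funRep (k := k) S g φ x = φ ⟨g⁻¹ * x * g, by have := hSn.conj_mem x x.2 g⁻¹; rwa [inv_inv] at this⟩ := by
  show φ (MulAut.conjNormal g⁻¹ x) = _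
  congr 1
  apply Subtype.ext
  rw [MulAut.conjNormal_apply]
  show g⁻¹ * (x : Γ) * g⁻¹⁻¹ = g⁻¹ * x * g
  rw [inv_inv]

end

open Classical in
/-- the additive character of `{1,-1}` with values in characteristic two -/
noncomputable def theta {K k : Type*} [Field K] [Field k] (c : Kˣ) : k := if c = 1 then 0 else 1

theorem theta_mul {K k : Type*} [Field K] [Field k] [CharP k 2] {c c' : Kˣ} (h : c * c = 1) (h' : c' * c' = 1) :
    (theta (c * c') : k) = theta c + theta c' := by
  classical
  have h2 : (1 : k) + 1 = 0 := by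
    have := CharP.cast_eq_zero k 2
    rw [Nat.cast_two] at this
    rw [one_add_one_eq_two]; exact this
  have key : ∀ c : Kˣ, c * c = 1 → c ≠ 1 → c = -1 := by
    intro c hc hc1
    have h1 : (c : K) * c = 1 := congrArg Units.val hc
    rcases mul_self_eq_one_iff.mp h1 with h2 | h2
    · exact absurd (Units.ext h2) hc1
    · exact Units.ext h2
  unfold theta
  by_cases hc : c = 1
  · rw [if_pos hc, hc, one_mul, zero_add]
  · by_cases hc' : c' = 1
    · rw [if_pos hc', hc', mul_one, add_zero]
    · rw [if_neg hc, if_neg hc', h2, if_pos]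
      rw [key c h hc, key c' h' hc', neg_mul_neg, one_mul]

theorem theta_inj {K k : Type*} [Field K] [Field k] {c c' : Kˣ} (h : c * c = 1) (h' : c' * c' = 1)
    (heq : (theta c : k) = theta c') : c = c' := by
  classical
  have key : ∀ c : Kˣ, c * c = 1 → c ≠ 1 → c = -1 := by
    intro c hc hc1
    have h1 : (c : K) * c = 1 := congrArg Units.val hc
    rcases mul_self_eq_one_iff.mp h1 with h2 | h2
    · exact absurd (Units.ext h2) hc1
    · exact Units.ext h2
  unfold theta at heq
  by_cases hc : c = 1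
  · by_cases hc' : c' = 1
    · rw [hc, hc']
    · rw [if_pos hc, if_neg hc'] at heq
      exact absurd heq zero_ne_one
  · by_cases hc' : c' = 1
    · rw [if_neg hc, if_pos hc'] at heq
      exact absurd heq one_ne_zero
    · rw [key c h hc, key c' h' hc']

section

variable {K : Type*} [Field K] {Γ : Type*} [Group Γ] [Finite Γ]
variable {S Z U : Subgroup Γ} [hSn : S.Normal] [hZn : Z.Normal]

theorem form_E1 (hZm : ∀ x, x ∈ Z ↔ x ∈ S ∧ ∀ y ∈ S, y * x = x * y) (hc : ∀ x ∈ S, ∀ y ∈ S, ⁅x, y⁆ ∈ Z)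
    (hsq : ∀ x ∈ S, x * x ∈ Z) {χ : Z →* Kˣ} (hUχ : ∀ u ∈ U, dualAct Z u χ = χ) {a : Γ}
    (haχ : dualAct Z a χ = χ) (haU : a ∈ normalizer (U : Set Γ)) {ℓ : ℕ} (hℓ : ℓ.Prime) (hℓ2 : ℓ ≠ 2)
    (haℓ : a ^ ℓ = 1) (hUU : ⁅U, U⁆ ≤ centralizer (S : Set Γ)) (hodd : Odd (Nat.card U))
    (hcard : Nat.card (((⁅S, zpowers a⁆).subgroupOf S).map (form hZm hc χ)) = (ℓ - 1) ^ 2)
    {b : Γ} (hb : b ∈ U) (x y : S) :
    form hZm hc χ ⟨(a * b * a⁻¹ * b⁻¹) * x * (a * b * a⁻¹ * b⁻¹)⁻¹, hSn.conj_mem x x.2 _⟩ y =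
      form hZm hc χ x y := by
  classical
  let k := AlgebraicClosure (ZMod 2)
  haveI : CharP k 2 := charP_of_injective_algebraMap (algebraMap (ZMod 2) k).injective 2
  haveI : Fintype S := Fintype.ofFinite S
  -- squares
  have hsq2 : ∀ x y : S, form hZm hc χ x y * form hZm hc χ x y = 1 := by
    intro x y
    have h1 : form hZm hc χ x y * form hZm hc χ x y = form hZm hc χ (x * x) y := by
      rw [map_mul]; rfl
    rw [h1, form_apply]
    have h2 : (⟨⁅((x * x : S) : Γ), (y : Γ)⁆, hc (x * x : S) (x * x : S).2 y y.2⟩ : Z) = 1 := by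
      apply Subtype.ext
      show ⁅((x * x : S) : Γ), (y : Γ)⁆ = 1
      rw [commutatorElement_eq_one_iff_mul_comm]
      exact (((hZm _).mp (hsq x x.2)).2 y y.2).symm
    rw [h2, map_one]
  let F : S → (S → k) := fun x y => theta (form hZm hc χ x y)
  have hFmul : ∀ x x', F (x * x') = F x + F x' := by
    intro x x'
    funext y
    show (theta (form hZm hc χ (x * x') y) : k) = theta (form hZm hc χ x y) + theta (form hZm hc χ x' y)
    rw [map_mul]
    exact theta_mul (hsq2 x y) (hsq2 x' y)
  have hFsymm : ∀ x y, F x y = F y x := by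
    intro x y
    show (theta (form hZm hc χ x y) : k) = theta (form hZm hc χ y x)
    rw [form_symm χ x y, inv_eq_of_mul_eq_one_left (hsq2 x y)]
  have hFone : F 1 = 0 := by
    have := hFmul 1 1
    rw [mul_one] at this
    exact left_eq_add.mp this
  have hFinv : ∀ x, F x⁻¹ = - F x := by
    intro x
    have := hFmul x⁻¹ x
    rw [inv_mul_cancel, hFone] at this
    exact eq_neg_of_add_eq_zero_left this.symm
  have hFconj : ∀ (g : Γ), dualAct Z g χ = χ → ∀ x : S,
      funRep (k := k) S g (F x) = F ⟨g * x * g⁻¹, hSn.conj_mem x x.2 g⟩ := by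
    intro g hg x
    funext y
    rw [funRep_apply]
    show (theta (form hZm hc χ x _) : k) = theta (form hZm hc χ _ y)
    congr 1
    have h1 := form_conj (hZm := hZm) (hc := hc) χ g ⟨g * x * g⁻¹, hSn.conj_mem x x.2 g⟩ y
    rw [hg] at h1
    rw [← h1]
    congr 2
    apply Subtype.ext
    show (x : Γ) = g⁻¹ * (g * x * g⁻¹) * g
    group
  set V : Submodule k (S → k) := Submodule.span k (Set.range F) with hV
  have hFV : ∀ x, F x ∈ V := fun x => Submodule.subset_span ⟨x, rfl⟩
  set P : Subgroup Γ := U ⊔ zpowers a with hP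
  have hPχ : ∀ g ∈ P, dualAct Z g χ = χ := by
    have h1 : P ≤ stabChi Z χ := sup_le hUχ (zpowers_le.mpr haχ)
    exact h1
  have hPV : ∀ g ∈ P, ∀ w ∈ V, funRep (k := k) S g w ∈ V := by
    intro g hg w hw
    have h1 : V ≤ V.comap (funRep (k := k) S g) := by
      rw [hV, Submodule.span_le]
      rintro _ ⟨x, rfl⟩
      show funRep (k := k) S g (F x) ∈ V
      rw [hFconj g (hPχ g hg)]
      exact hFV _
    exact h1 hw
  have hUP : U ≤ P := le_sup_left
  have haP : a ∈ P := mem_sup_right (mem_zpowers a)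
  haveI hBn : (U.subgroupOf P).Normal := normal_subgroupOf_of_le_normalizer
    (sup_le le_normalizer (zpowers_le.mpr haU))
  have hcB : Nat.card (U.subgroupOf P) = Nat.card U := Nat.card_congr (subgroupOfEquivOfLe hUP).toEquiv
  have hcentr : ∀ g ∈ centralizer (S : Set Γ), ∀ φ : S → k, funRep (k := k) S g φ = φ := by
    intro g hg φ
    funext y
    rw [funRep_apply]
    congr 1
    apply Subtype.ext
    show g⁻¹ * (y : Γ) * g = y
    rw [mul_assoc, mem_centralizer_iff.mp hg y y.2, inv_mul_cancel_left]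
  have hres : ∀ (g : P) (w : V), ((resW (funRep (k := k) S) V P hPV g w : V) : S → k) =
      funRep (k := k) S g w := fun g w => rfl
  -- the rank
  have hrank : finrank k (LinearMap.range (resW (funRep (k := k) S) V P hPV ⟨a, haP⟩ - 1)) < 2 * (ℓ - 1) := by
    set Y : Set (S → k) := F '' {t | (t : Γ) ∈ ⁅S, zpowers a⁆} with hY
    have hYfin : Y.Finite := (Set.toFinite _).image _
    have h1 := two_pow_finrank_span_le (k := k) hYfin
      ⟨1, one_mem (⁅S, zpowers a⁆ : Subgroup Γ), hFone⟩ (by
      rintro _ ⟨t, ht, rfl⟩ _ ⟨t', ht', rfl⟩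
      exact ⟨t * t', (⁅S, zpowers a⁆ : Subgroup Γ).mul_mem ht ht', hFmul t t'⟩)
    have h2 : Y.ncard ≤ (ℓ - 1) ^ 2 := by
      rw [← hcard]
      let h : (S →* Kˣ) → (S → k) := fun ψ y => theta (ψ y)
      have h3 : Y ⊆ h '' (((⁅S, zpowers a⁆).subgroupOf S).map (form hZm hc χ) : Set (S →* Kˣ)) := by
        rintro _ ⟨t, ht, rfl⟩
        exact ⟨form hZm hc χ t, ⟨t, ht, rfl⟩, rfl⟩
      have hfin : (((⁅S, zpowers a⁆).subgroupOf S).map (form hZm hc χ) : Set (S →* Kˣ)).Finite := by
        apply Set.Finite.subset (Set.finite_range (form hZm hc χ))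
        rintro _ ⟨t, _, rfl⟩
        exact ⟨t, rfl⟩
      refine (Set.ncard_le_ncard h3 (hfin.image h)).trans ((Set.ncard_image_le hfin).trans ?_)
      exact (Nat.card_coe_set_eq _).ge
    have h3 : LinearMap.range (resW (funRep (k := k) S) V P hPV ⟨a, haP⟩ - 1) ≤
        (Submodule.span k Y).comap V.subtype := by
      rintro _ ⟨w, rfl⟩
      show funRep (k := k) S a (w : S → k) - w ∈ Submodule.span k Y
      have h4 : V ≤ (Submodule.span k Y).comap (funRep (k := k) S a - 1) := by
        rw [hV, Submodule.span_le]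
        rintro _ ⟨x, rfl⟩
        show funRep (k := k) S a (F x) - F x ∈ Submodule.span k Y
        rw [hFconj a haχ, sub_eq_add_neg, ← hFinv, ← hFmul]
        apply Submodule.subset_span
        refine ⟨_, ?_, rfl⟩
        show a * (x : Γ) * a⁻¹ * (x : Γ)⁻¹ ∈ ⁅S, zpowers a⁆
        have h5 : a * (x : Γ) * a⁻¹ * (x : Γ)⁻¹ = ⁅(x : Γ), a⁆⁻¹ := by
          rw [commutatorElement_def]; group
        rw [h5]
        exact inv_mem (commutator_mem_commutator x.2 (mem_zpowers a))
      exact h4 w.2
    have h4 : finrank k (LinearMap.range (resW (funRep (k := k) S) V P hPV ⟨a, haP⟩ - 1)) ≤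
        finrank k (Submodule.span k Y) := by
      have h5 := Submodule.finrank_mono h3
      refine h5.trans ?_
      have h6 : finrank k ((Submodule.span k Y).comap V.subtype) =
          finrank k (((Submodule.span k Y).comap V.subtype).map V.subtype) :=
        (Submodule.finrank_map_subtype_eq V _).symm
      rw [h6]
      exact Submodule.finrank_mono (Submodule.map_comap_le _ _)
    have h5 : 2 ^ finrank k (Submodule.span k Y) < 2 ^ (2 * (ℓ - 1)) := by
      calc 2 ^ finrank k (Submodule.span k Y) ≤ (ℓ - 1) ^ 2 := h1.trans h2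
        _ < (2 ^ (ℓ - 1)) ^ 2 := by
            apply Nat.pow_lt_pow_left Nat.lt_two_pow_self (by norm_num)
        _ = 2 ^ (2 * (ℓ - 1)) := by rw [← pow_mul, mul_comm]
    have h6 := (Nat.pow_lt_pow_iff_right (by norm_num : 1 < 2)).mp h5
    omega
  have hUk : (Nat.card U : k) ≠ 0 := by
    intro h
    have h1 : 2 ∣ Nat.card U := (CharP.cast_eq_zero_iff k 2 _).mp h
    exact (Nat.not_even_iff_odd.mpr hodd) (even_iff_two_dvd.mpr h1)
  have hmain := lemmaW (k := k) (resW (funRep (k := k) S) V P hPV) (U.subgroupOf P) (by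
      rintro u hu u' hu'
      have h1 : u * u' = ⁅u, u'⁆ * (u' * u) := by rw [commutatorElement_def]; group
      rw [h1, map_mul]
      have h2 : resW (funRep (k := k) S) V P hPV ⁅u, u'⁆ = 1 := by
        apply LinearMap.ext
        intro w
        apply Subtype.ext
        rw [hres]
        exact hcentr _ (hUU (commutator_mem_commutator (g₁ := (u : Γ)) (g₂ := (u' : Γ)) hu hu')) _
      rw [h2, one_mul]) (by rw [hcB]; exact hUk) (by rw [hcB]; exact hodd) hℓ hℓ2
      (a := ⟨a, haP⟩) (Subtype.ext haℓ) (by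
      -- duality
      intro μ hμ
      obtain ⟨φ, hφ, hφ0⟩ := Submodule.exists_mem_ne_zero_of_ne_bot hμ
      obtain ⟨e, he⟩ : ∃ e : S, (φ : S → k) e ≠ 0 := by
        by_contra hcon
        push Not at hcon
        exact hφ0 (Subtype.ext (funext hcon))
      haveI : Fintype (U.subgroupOf P) := Fintype.ofFinite _
      set ψ : V := ∑ u : U.subgroupOf P, (μ u : k) • resW (funRep (k := k) S) V P hPV u ⟨F e, hFV e⟩ with hψ
      intro hbot
      have hψW : ψ ∈ WS (resW (funRep (k := k) S) V P hPV) (U.subgroupOf P) μ⁻¹ := by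
        intro u'
        rw [hψ, map_sum, Finset.smul_sum]
        refine Fintype.sum_equiv (Equiv.mulLeft u') _ _ fun u => ?_
        rw [map_smul, ← Module.End.mul_apply, ← map_mul, smul_smul]
        have h1 : (((μ⁻¹ : U.subgroupOf P →* kˣ) u' : kˣ) : k) * (μ ((Equiv.mulLeft u') u) : kˣ) = μ u := by
          have h2 : (μ⁻¹ : U.subgroupOf P →* kˣ) u' * μ (u' * u) = μ u := by
            rw [map_mul]
            show (μ u')⁻¹ * (μ u' * μ u) = μ u
            rw [inv_mul_cancel_left]
          exact congrArg Units.val h2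
        rw [h1]
        rfl
      rw [hbot, Submodule.mem_bot] at hψW
      -- the functional vanishing on `V`
      let ε : (S → k) →ₗ[k] k := ∑ u : U.subgroupOf P, (μ u : k) •
        (LinearMap.proj (R := k) (φ := fun _ : S => k) ⟨(u : Γ) * e * (u : Γ)⁻¹, hSn.conj_mem e e.2 _⟩)
      have hε : ∀ f : S → k, ε f = ∑ u : U.subgroupOf P, (μ u : k) *
          f ⟨((u : P) : Γ) * e * ((u : P) : Γ)⁻¹, hSn.conj_mem e e.2 _⟩ := by
        intro f
        rw [LinearMap.sum_apply]
        rfl
      have hεF : ∀ x, ε (F x) = 0 := by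
        intro x
        rw [hε]
        have h1 : (ψ : S → k) x = 0 := by rw [hψW]; rfl
        rw [← h1, hψ]
        have h2 : ((∑ u : U.subgroupOf P, (μ u : k) • resW (funRep (k := k) S) V P hPV u ⟨F e, hFV e⟩ : V) :
            S → k) = ∑ u : U.subgroupOf P, (μ u : k) • funRep (k := k) S ((u : P) : Γ) (F e) := by
          rw [Submodule.coe_sum]
          rfl
        rw [h2, Finset.sum_apply]
        refine Finset.sum_congr rfl fun u _ => ?_
        rw [hFconj _ (hPχ _ (u : P).2)]
        show _ = (μ u : k) * F _ x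
        rw [hFsymm]
      have hεV : ε (φ : S → k) = 0 := by
        have h1 : V ≤ LinearMap.ker ε := by
          rw [hV, Submodule.span_le]
          rintro _ ⟨x, rfl⟩
          exact hεF x
        exact h1 φ.2
      rw [hε] at hεV
      have h3 : ∀ u : U.subgroupOf P, (μ u : k) *
          (φ : S → k) ⟨((u : P) : Γ) * e * ((u : P) : Γ)⁻¹, hSn.conj_mem e e.2 _⟩ = (φ : S → k) e := by
        intro u
        have h4 := hφ u⁻¹
        have h5 := congrFun (congrArg Subtype.val h4) e
        rw [hres, funRep_apply] at h5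
        have h6 : (⟨(((u⁻¹ : U.subgroupOf P) : P) : Γ)⁻¹ * e * (((u⁻¹ : U.subgroupOf P) : P) : Γ), by
            have := hSn.conj_mem e e.2 (((u⁻¹ : U.subgroupOf P) : P) : Γ)⁻¹
            rwa [inv_inv] at this⟩ : S) =
            ⟨((u : P) : Γ) * e * ((u : P) : Γ)⁻¹, hSn.conj_mem e e.2 _⟩ := by
          apply Subtype.ext
          show ((((u : P) : Γ))⁻¹)⁻¹ * (e : Γ) * (((u : P) : Γ))⁻¹ = ((u : P) : Γ) * e * ((u : P) : Γ)⁻¹
          rw [inv_inv]
        rw [h6] at h5
        have h7 : ((μ u⁻¹ : kˣ) : k) * (φ : S → k) e =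
          (φ : S → k) ⟨((u : P) : Γ) * e * ((u : P) : Γ)⁻¹, hSn.conj_mem e e.2 _⟩ := h5.symm
        rw [← h7, ← mul_assoc, ← Units.val_mul, ← map_mul, mul_inv_cancel, map_one, Units.val_one, one_mul]
      rw [Finset.sum_congr rfl (fun u _ => h3 u), Finset.sum_const, Finset.card_univ,
        ← Nat.card_eq_fintype_card, hcB, nsmul_eq_mul] at hεV
      rcases mul_eq_zero.mp hεV with h8 | h8
      · exact hUk h8
      · exact he h8) hrank (b := ⟨b, hUP hb⟩) hb
  have h1 := LinearMap.congr_fun hmain ⟨F x, hFV x⟩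
  have h2 : funRep (k := k) S (a * b * a⁻¹ * b⁻¹) (F x) = F x := congrArg Subtype.val h1
  have hg : dualAct Z (a * b * a⁻¹ * b⁻¹) χ = χ :=
    hPχ _ (mul_mem (mul_mem (mul_mem haP (hUP hb)) (inv_mem haP)) (inv_mem (hUP hb)))
  rw [hFconj _ hg] at h2
  have h3 := congrFun h2 y
  exact theta_inj (hsq2 _ _) (hsq2 _ _) h3

end

end Cfsg.Agent.H25
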