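import Mathlib
import Cfsg.Agent.H25.FpfPB
import Cfsg.Agent.H23.SelfDual

/-!
Operator groups of order `pq`: isometries commuting with an element of order `2^m+1`.
-/

set_option autoImplicit false

namespace Cfsg.Agent.H25

open Subgroup
open scoped commutatorElement

theorem dvd_card_sub_one_of_free {W : Type*} [Group W] [Finite W] (f : W → W) {p : ℕ} (hp : p.Prime)
    (hf : ∀ w, f^[p] w = w) (h1 : f 1 = 1) (hfix : ∀ w, f w = w → w = 1) : p ∣ Nat.card W - 1 := by
  classical
  haveI : Fact p.Prime := ⟨hp⟩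
  haveI : Fintype W := Fintype.ofFinite W
  obtain ⟨f', hf'⟩ : ∃ f' : Function.End W, f' = f := ⟨f, rfl⟩
  have h5 : ∀ n : ℕ, ∀ w, (f' ^ n) w = f^[n] w := by
    intro n
    induction n with
    | zero => intro w; rw [pow_zero]; rfl
    | succ n ih =>
      intro w
      rw [pow_succ, Function.iterate_succ_apply, ← ih, ← hf']; rfl
  have h2 : f' ^ p ^ 1 = 1 := by
    rw [pow_one]
    funext w
    rw [h5, hf]; rfl
  have h3 := Equiv.Perm.card_fixedPoints_modEq h2
  have h7 : Fintype.card W ≡ 1 [MOD p] := by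
    refine h3.trans ?_
    refine congrArg (· % p) ?_
    rw [Fintype.card_eq_one_iff]
    refine ⟨⟨1, ?_⟩, fun x => Subtype.ext (hfix x ?_)⟩
    · exact (congrFun hf' 1).trans h1
    · exact (congrFun hf' x).symm.trans x.2
  rw [Nat.card_eq_fintype_card]
  exact (Nat.modEq_iff_dvd' Fintype.card_pos).mp h7.symm

theorem two_pow_arith {m : ℕ} (hm : 1 ≤ m) {j u : ℕ} (h1 : 2 ^ m + 1 ∣ 2 ^ j + 1)
    (hu : u.Prime) (hu2 : u ≠ 2) (hul : u ≠ 2 ^ m + 1) (hℓ : (2 ^ m + 1).Prime)
    (h2 : u ∣ 2 ^ (2 * m) - 1) (h3 : u ∣ 2 ^ j + 1) : False := by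
  -- `m ∣ j`
  have hmj : m ∣ j := by
    have key : ∀ q r : ℕ, r < m → ((2 ^ m + 1 ∣ 2 ^ (q * m + r) + 1) ∨ (2 ^ m + 1 : ℤ) ∣ 2 ^ (q * m + r) - 1) →
        r = 0 := by
      intro q
      induction q with
      | zero =>
        intro r hr h
        rw [zero_mul, zero_add] at h
        have h5 : 2 ^ r < 2 ^ m := Nat.pow_lt_pow_right (by norm_num) hr
        rcases h with h | h
        · have := Nat.le_of_dvd (by positivity) h
          omega
        · by_contra hr0
          have h6 : 1 < 2 ^ r := Nat.one_lt_pow hr0 (by norm_num)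
          have h7 : (0 : ℤ) < 2 ^ r - 1 := by
            have : (1 : ℤ) < 2 ^ r := by exact_mod_cast h6
            omega
          have h8 := Int.le_of_dvd h7 h
          have h9 : (2 ^ r : ℤ) < 2 ^ m := by exact_mod_cast h5
          omega
      | succ q ih =>
        intro r hr h
        apply ih r hr
        have h4 : (2 : ℤ) ^ ((q + 1) * m + r) = 2 ^ m * 2 ^ (q * m + r) := by
          rw [← pow_add]; congr 1; ring
        rcases h with h | h
        · right
          have h5 : ((2 ^ m + 1 : ℕ) : ℤ) ∣ ((2 ^ ((q + 1) * m + r) + 1 : ℕ) : ℤ) := Int.natCast_dvd_natCast.mpr h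
          push_cast at h5
          rw [h4] at h5
          have h6 : (2 ^ m * 2 ^ (q * m + r) + 1 : ℤ) =
              (2 ^ m + 1) * 2 ^ (q * m + r) - (2 ^ (q * m + r) - 1) := by ring
          rw [h6] at h5
          have := dvd_sub (Dvd.intro (2 ^ (q * m + r)) rfl : (2 ^ m + 1 : ℤ) ∣ (2 ^ m + 1) * 2 ^ (q * m + r)) h5
          simpa using this
        · left
          rw [h4] at h
          have h6 : (2 ^ m * 2 ^ (q * m + r) - 1 : ℤ) =
              (2 ^ m + 1) * 2 ^ (q * m + r) - (2 ^ (q * m + r) + 1) := by ring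
          rw [h6] at h
          have h7 : (2 ^ m + 1 : ℤ) ∣ 2 ^ (q * m + r) + 1 := by
            have := dvd_sub (Dvd.intro (2 ^ (q * m + r)) rfl : (2 ^ m + 1 : ℤ) ∣ (2 ^ m + 1) * 2 ^ (q * m + r)) h
            simpa using this
          exact_mod_cast h7
    have h4 : j = (j / m) * m + j % m := (Nat.div_add_mod' j m).symm
    have h5 := key (j / m) (j % m) (Nat.mod_lt j (by omega)) (Or.inl (by rw [← h4]; exact h1))
    exact Nat.dvd_of_mod_eq_zero h5
  obtain ⟨t, rfl⟩ := hmj
  -- `u ∣ 2^m - 1`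
  have h4 : u ∣ 2 ^ m - 1 := by
    have h5 : 2 ^ (2 * m) - 1 = (2 ^ m - 1) * (2 ^ m + 1) := by
      have h6 : 1 ≤ 2 ^ m := Nat.one_le_two_pow
      rw [mul_comm 2 m, pow_mul, Nat.sub_mul]
      have : (2 ^ m) * (2 ^ m + 1) = (2 ^ m) ^ 2 + 2 ^ m := by ring
      omega
    rw [h5] at h2
    rcases (Nat.Prime.dvd_mul hu).mp h2 with h6 | h6
    · exact h6
    · exact absurd ((Nat.prime_dvd_prime_iff_eq hu hℓ).mp h6) hul
  have h5 : (2 ^ m) ≡ 1 [MOD u] := ((Nat.modEq_iff_dvd' Nat.one_le_two_pow).mpr h4).symm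
  have h6 : 2 ^ (m * t) + 1 ≡ 1 + 1 [MOD u] := by
    rw [pow_mul]
    have := h5.pow t
    rw [one_pow] at this
    exact this.add_right 1
  have h7 : u ∣ 1 + 1 := (Nat.ModEq.dvd_iff h6 (dvd_refl u)).mp h3
  exact hu2 ((Nat.prime_dvd_prime_iff_eq hu Nat.prime_two).mp h7)

theorem pow_arith {m k : ℕ} (hk1 : 1 ≤ k) (hk : k ≤ 2 * m) (h : 2 ^ m + 1 ∣ 2 ^ k - 1) : k = 2 * m := by
  by_contra hne
  by_cases hkm : k ≤ m
  · have h1 : 2 ^ k ≤ 2 ^ m := Nat.pow_le_pow_right (by norm_num) hkm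
    have h2 : 1 < 2 ^ k := Nat.one_lt_pow (by omega) (by norm_num)
    have := Nat.le_of_dvd (by omega) h
    omega
  · obtain ⟨r, rfl⟩ : ∃ r, k = m + r := ⟨k - m, by omega⟩
    have hr : r < m := by omega
    have h1 : (2 : ℕ) ^ r < 2 ^ m := Nat.pow_lt_pow_right (by norm_num) hr
    have h2 : 2 ^ (m + r) - 1 + (2 ^ r + 1) = (2 ^ m + 1) * 2 ^ r := by
      have h3 : 1 ≤ 2 ^ (m + r) := Nat.one_le_two_pow
      have h4 : (2 ^ m + 1) * 2 ^ r = 2 ^ (m + r) + 2 ^ r := by rw [pow_add]; ring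
      omega
    have h3 : 2 ^ m + 1 ∣ 2 ^ r + 1 := by
      rw [← Nat.dvd_add_right h, h2]
      exact Dvd.intro _ rfl
    have := Nat.le_of_dvd (by positivity) h3
    omega

theorem isom_trivial {W Y : Type*} [CommGroup W] [Finite W] [CommGroup Y] (hY : ∀ y : Y, y ^ 2 = 1) {m ℓ N : ℕ}
    (hm : 1 ≤ m) (hℓm : ℓ = 2 ^ m + 1) (hℓ : ℓ.Prime) (hN : Odd N) (hNℓ : N.Coprime ℓ)
    (hcard : Nat.card W = 2 ^ (2 * m)) (α υ : Monoid.End W) (hαυ : α * υ = υ * α) (hα : α ^ ℓ = 1)
    (hυ : υ ^ N = 1) (hfix : ∀ w, α w = w → w = 1) (β : W →* W →* Y)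
    (hβα : ∀ v w, β (α v) (α w) = β v w) (hβυ : ∀ v w, β (υ v) (υ w) = β v w)
    (hnd : ∀ w, (∀ v, β v w = 1) → w = 1) : υ = 1 := by
  classical
  by_contra hne
  have hit : ∀ (σ : Monoid.End W) (n : ℕ) (w : W), (⇑σ)^[n] w = (σ ^ n) w := by
    intro σ n
    induction n with
    | zero => intro w; rw [pow_zero]; rfl
    | succ n ih => intro w; rw [Function.iterate_succ_apply, ih, pow_succ]; rfl
  have hcardgt : 1 < Nat.card W := by
    rw [hcard]; exact Nat.one_lt_pow (by omega) (by norm_num)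
  haveI : Nontrivial W := Finite.one_lt_card_iff_nontrivial.mp hcardgt
  -- `α` is irreducible
  have hirr : ∀ D : Subgroup W, (∀ x ∈ D, α x ∈ D) → D = ⊥ ∨ D = ⊤ := by
    intro D hD
    by_cases hD1 : D = ⊥
    · exact Or.inl hD1
    right
    have h1 : ℓ ∣ Nat.card D - 1 := by
      refine dvd_card_sub_one_of_free (W := D) (fun x => ⟨α x, hD x x.2⟩) hℓ ?_ ?_ ?_
      · intro x
        have h2 : ∀ n : ℕ, (((fun x : D => (⟨α x, hD x x.2⟩ : D))^[n] x : D) : W) = (⇑α)^[n] x := by
          intro n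
          induction n with
          | zero => rfl
          | succ n ih => rw [Function.iterate_succ_apply', Function.iterate_succ_apply', ← ih]
        apply Subtype.ext
        rw [h2, hit, hα]; rfl
      · exact Subtype.ext (map_one α)
      · intro x hx
        exact Subtype.ext (hfix x (congrArg Subtype.val hx))
    have h2 : Nat.card D ∣ 2 ^ (2 * m) := by rw [← hcard]; exact card_subgroup_dvd_card D
    obtain ⟨k, hk, hk2⟩ := (Nat.dvd_prime_pow Nat.prime_two).mp h2
    have hk1 : 1 ≤ k := by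
      by_contra hcon
      have : k = 0 := by omega
      rw [this, pow_zero] at hk2
      exact hD1 (card_eq_one.mp hk2)
    rw [hk2, hℓm] at h1
    have h3 := pow_arith hk1 hk h1
    rw [h3, ← hcard] at hk2
    exact (card_eq_iff_eq_top D).mp hk2
  have hW2 : ∀ x : W, x ^ 2 = 1 := by
    let D : Subgroup W :=
      { carrier := {x | x ^ 2 = 1}
        one_mem' := one_pow 2
        mul_mem' := by
          intro a b ha hb
          show (a * b) ^ 2 = 1
          have ha' : a ^ 2 = 1 := ha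
          have hb' : b ^ 2 = 1 := hb
          rw [mul_pow, ha', hb', one_mul]
        inv_mem' := by
          intro a ha
          show a⁻¹ ^ 2 = 1
          have ha' : a ^ 2 = 1 := ha
          rw [inv_pow, ha', inv_one] }
    rcases hirr D (by
      intro x hx
      show (α x) ^ 2 = 1
      have hx' : x ^ 2 = 1 := hx
      rw [← map_pow, hx', map_one]) with h | h
    · exfalso
      haveI : Fact (Nat.Prime 2) := ⟨Nat.prime_two⟩
      obtain ⟨x, hx⟩ := exists_prime_orderOf_dvd_card' (G := W) 2 (by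
        rw [hcard]; exact dvd_pow_self 2 (by omega))
      have h1 : x ∈ D := by
        show x ^ 2 = 1
        rw [← hx]; exact pow_orderOf_eq_one x
      rw [h, mem_bot] at h1
      rw [h1, orderOf_one] at hx
      norm_num at hx
    · intro x
      have : x ∈ D := by rw [h]; trivial
      exact this
  -- element of prime order
  have hord : orderOf υ ∣ N := orderOf_dvd_of_pow_eq_one hυ
  have hord1 : orderOf υ ≠ 1 := fun h => hne (orderOf_eq_one_iff.mp h)
  obtain ⟨u, hu, huv⟩ := Nat.exists_prime_and_dvd hord1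
  have hNpos : 0 < N := hN.pos
  have hordpos : orderOf υ ≠ 0 := fun h => by rw [h, zero_dvd_iff] at hord; omega
  set υ' := υ ^ (orderOf υ / u) with hυ'
  have hυ'ord : orderOf υ' = u := orderOf_pow_orderOf_div hordpos huv
  have hu2 : u ≠ 2 := by
    rintro rfl
    exact (Nat.not_even_iff_odd.mpr hN) (even_iff_two_dvd.mpr (huv.trans hord))
  have huℓ : u ≠ ℓ := by
    rintro rfl
    have := Nat.dvd_gcd (huv.trans hord) (dvd_refl u)
    rw [hNℓ] at this
    exact hu.one_lt.ne' (Nat.dvd_one.mp this)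
  have hcomm : Commute α υ' := (show Commute α υ from hαυ).pow_right _
  have hβυ' : ∀ v w, β (υ' v) (υ' w) = β v w := by
    have key : ∀ n : ℕ, ∀ v w, β ((υ ^ n) v) ((υ ^ n) w) = β v w := by
      intro n
      induction n with
      | zero => intro v w; rw [pow_zero]; rfl
      | succ n ih =>
        intro v w
        rw [pow_succ]
        show β ((υ ^ n) (υ v)) ((υ ^ n) (υ w)) = _
        rw [ih, hβυ]
    exact key _
  have hυ'u : υ' ^ u = 1 := by rw [← hυ'ord]; exact pow_orderOf_eq_one υ'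
  have hυ'1 : υ' ≠ 1 := by
    intro h
    rw [h, orderOf_one] at hυ'ord
    exact hu.one_lt.ne hυ'ord
  have hα1 : α ≠ 1 := by
    intro h
    obtain ⟨w, hw⟩ := exists_ne (1 : W)
    exact hw (hfix w (by rw [h]; rfl))
  haveI : Fact ℓ.Prime := ⟨hℓ⟩
  have hαord : orderOf α = ℓ := orderOf_eq_prime hα hα1
  -- `υ'` acts freely
  have h5 : u ∣ 2 ^ (2 * m) - 1 := by
    rw [← hcard]
    refine dvd_card_sub_one_of_free (υ' : W → W) hu (fun w => by rw [hit, hυ'u]; rfl) (map_one υ') ?_
    let D : Subgroup W :=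
      { carrier := {x | υ' x = x}
        one_mem' := map_one υ'
        mul_mem' := by
          intro a b ha hb
          show υ' (a * b) = a * b
          have ha' : υ' a = a := ha
          have hb' : υ' b = b := hb
          rw [map_mul, ha', hb']
        inv_mem' := by
          intro a ha
          show υ' a⁻¹ = a⁻¹
          have ha' : υ' a = a := ha
          rw [map_inv, ha'] }
    rcases hirr D (by
      intro x hx
      show υ' (α x) = α x
      have hx' : υ' x = x := hx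
      have h6 : (υ' * α) x = (α * υ') x := by rw [hcomm.eq]
      have h7 : υ' (α x) = α (υ' x) := h6
      rw [h7, hx']) with h | h
    · intro w hw
      have : w ∈ D := hw
      rw [h, mem_bot] at this
      exact this
    · exfalso
      apply hυ'1
      ext w
      have : w ∈ D := by rw [h]; trivial
      exact this
  -- `τ`
  set τ : Monoid.End W := α * υ' with hτ
  have hτpow : ∀ n : ℕ, τ ^ n = α ^ n * υ' ^ n := fun n => hcomm.mul_pow n
  have hτu : τ ^ u = α ^ u := by rw [hτpow, hυ'u, mul_one]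
  have hcopuℓ : Nat.Coprime u ℓ := (Nat.coprime_primes hu hℓ).mpr huℓ
  have hτirr : ∀ D : Subgroup W, (∀ x ∈ D, τ x ∈ D) → D = ⊥ ∨ D = ⊤ := by
    intro D hD
    apply hirr
    intro x hx
    have key : ∀ n : ℕ, ∀ x ∈ D, (τ ^ n) x ∈ D := by
      intro n
      induction n with
      | zero => intro x hx; rw [pow_zero]; exact hx
      | succ n ih =>
        intro x hx
        rw [pow_succ]
        exact ih _ (hD x hx)
    obtain ⟨c, hc⟩ := Nat.exists_mul_mod_eq_one_of_coprime hcopuℓ hℓ.one_lt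
    have h6 : τ ^ (u * c) = α := by
      rw [pow_mul, hτu, ← pow_mul, ← Nat.div_add_mod (u * c) ℓ, hc.2, pow_add, pow_mul, hα, one_pow,
        one_mul, pow_one]
    rw [← h6]
    exact key _ x hx
  obtain ⟨j, hj⟩ := H23.exists_iterate_eq_self_of_irr (p := 2) hW2 hY τ hτirr β (by
    intro v w
    show β (α (υ' v)) (α (υ' w)) = β v w
    rw [hβα, hβυ']) hnd (h := ℓ * u) (Nat.mul_pos hℓ.pos hu.pos) (by
    intro w
    have h6 : τ ^ (ℓ * u) = 1 := by
      rw [mul_comm, pow_mul, hτu, ← pow_mul, mul_comm, pow_mul, hα, one_pow]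
    have := hit τ (ℓ * u) w
    rw [h6] at this
    exact this)
  have h6 : τ ^ (2 ^ j + 1) = 1 := by
    ext w
    exact (hit τ _ w).symm.trans (hj w)
  have h7 : ℓ ∣ 2 ^ j + 1 := by
    have h8 : α ^ (u * (2 ^ j + 1)) = 1 := by
      rw [pow_mul, ← hτu, ← pow_mul, mul_comm, pow_mul, h6, one_pow]
    have h9 := orderOf_dvd_of_pow_eq_one h8
    rw [hαord] at h9
    exact hcopuℓ.symm.dvd_of_dvd_mul_left h9
  have h8 : u ∣ 2 ^ j + 1 := by
    have h9 : υ' ^ (ℓ * (2 ^ j + 1)) = 1 := by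
      have h10 : τ ^ ℓ = υ' ^ ℓ := by rw [hτpow, hα, one_mul]
      rw [pow_mul, ← h10, ← pow_mul, mul_comm, pow_mul, h6, one_pow]
    have h10 := orderOf_dvd_of_pow_eq_one h9
    rw [hυ'ord] at h10
    exact hcopuℓ.dvd_of_dvd_mul_left h10
  rw [hℓm] at h7 hℓ huℓ
  exact two_pow_arith hm h7 hu hu2 huℓ hℓ h5 h8

end Cfsg.Agent.H25
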