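import Mathlib
import Cfsg.Agent.H25.FpfE2
import Cfsg.Agent.H25.FpfS3c

/-!
Operator groups of order `pq`: the action on the commutator of the critical element.
-/

set_option autoImplicit false

namespace Cfsg.Agent.H25

open Subgroup
open scoped commutatorElement

section

variable {K : Type*} [Field K] {Γ : Type*} [Group Γ] [Finite Γ]
variable {S Z : Subgroup Γ} [hSn : S.Normal] [hZn : Z.Normal]
variable {hZm : ∀ x, x ∈ Z ↔ x ∈ S ∧ ∀ y ∈ S, y * x = x * y} {hc : ∀ x ∈ S, ∀ y ∈ S, ⁅x, y⁆ ∈ Z}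

omit [Finite Γ] in
theorem dualAct_form {χ : Z →* Kˣ} {g : Γ} (hg : dualAct Z g χ = χ) (x : S) :
    dualAct S g (form hZm hc χ x) = form hZm hc χ ⟨g * x * g⁻¹, hSn.conj_mem x x.2 g⟩ := by
  ext y
  rw [dualAct_apply]
  have h1 := form_conj (hZm := hZm) (hc := hc) χ g ⟨g * x * g⁻¹, hSn.conj_mem x x.2 g⟩ y
  rw [hg] at h1
  rw [← h1]
  congr 3
  apply Subtype.ext
  show (x : Γ) = g⁻¹ * (g * x * g⁻¹) * g
  group

theorem form_ker {χ : Z →* Kˣ} {a : Γ} (haχ : dualAct Z a χ = χ)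
    (hcop : (Nat.card (zpowers a)).Coprime (Nat.card S)) (hsol : Group.IsSolvable S) {t : S}
    (ht : (t : Γ) ∈ ⁅S, zpowers a⁆)
    (h : ∀ t' : S, (t' : Γ) ∈ ⁅S, zpowers a⁆ → form hZm hc χ t t' = 1) : form hZm hc χ t = 1 := by
  have hnorm : zpowers a ≤ normalizer (S : Set Γ) := by rw [normalizer_eq_top]; exact le_top
  have hTS : ⁅S, zpowers a⁆ ≤ S := H23.commutator_le_of_le_normalizer hnorm
  have hform0 : ∀ (c t : S), (c : Γ) ∈ centralizer (zpowers a : Set Γ) → (t : Γ) ∈ ⁅S, zpowers a⁆ →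
      form hZm hc χ c t = 1 := by
    intro c t hcc ht
    have h1 : zpowers a ≤ stabChi S (form hZm hc χ c) := by
      rw [zpowers_le, mem_stabChi, dualAct_form haχ]
      congr 1
      apply Subtype.ext
      show a * (c : Γ) * a⁻¹ = c
      rw [mem_centralizer_iff.mp hcc a (mem_zpowers a), mul_inv_cancel_right]
    exact chi_commutator h1 ht t.2
  ext y
  obtain ⟨c, hcc, n, hn, hy⟩ := H23.exists_centralizer_mul_commutator (A := zpowers a) (G := S) hnorm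
    hcop (Or.inr hsol) y.2
  have hye : y = ⟨c, hcc.1⟩ * ⟨n, hTS hn⟩ := Subtype.ext hy
  rw [hye, map_mul, h ⟨n, hTS hn⟩ hn, mul_one, form_symm, hform0 ⟨c, hcc.1⟩ t hcc.2 ht, inv_one]
  rfl

theorem form_E2 (hsq : ∀ x ∈ S, x * x ∈ Z) {χ : Z →* Kˣ} {a u : Γ} {N : ℕ} (huχ : dualAct Z u χ = χ)
    (haχ : dualAct Z a χ = χ) {ℓ m : ℕ} (hℓ : ℓ.Prime) (hℓm : ℓ = 2 ^ m + 1) (hm : 1 ≤ m)
    (haℓ : a ^ ℓ = 1) (huN : u ^ N = 1) (hN : Odd N) (hNℓ : N.Coprime ℓ)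
    (hcop : (Nat.card (zpowers a)).Coprime (Nat.card S)) (hsol : Group.IsSolvable S)
    (hcard : Nat.card (((⁅S, zpowers a⁆).subgroupOf S).map (form hZm hc χ)) = (ℓ - 1) ^ 2)
    (hE1 : ∀ x : S, form hZm hc χ ⟨(a * u * a⁻¹ * u⁻¹) * x * (a * u * a⁻¹ * u⁻¹)⁻¹, hSn.conj_mem x x.2 _⟩ =
      form hZm hc χ x) {t : S} (ht : (t : Γ) ∈ ⁅S, zpowers a⁆) :
    form hZm hc χ ⟨u * t * u⁻¹, hSn.conj_mem t t.2 u⟩ = form hZm hc χ t := by
  classical
  have hnorm : zpowers a ≤ normalizer (S : Set Γ) := by rw [normalizer_eq_top]; exact le_top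
  set T : Subgroup Γ := ⁅S, zpowers a⁆ with hT
  have hTS : T ≤ S := H23.commutator_le_of_le_normalizer hnorm
  have haT : a ∈ normalizer (T : Set Γ) := by
    have h1 : zpowers a ≤ normalizer (T : Set Γ) := normalizer_commutator_ge_right _ _
    exact h1 (mem_zpowers a)
  have han : a ∈ normalizer (S : Set Γ) := by rw [normalizer_eq_top]; trivial
  set Φ := form hZm hc χ with hΦ
  have hsq2 : ∀ x y : S, Φ x y * Φ x y = 1 := by
    intro x y
    have h1 : Φ x y * Φ x y = Φ (x * x) y := by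
      rw [map_mul]; rfl
    rw [h1, hΦ, form_apply]
    have h2 : (⟨⁅((x * x : S) : Γ), (y : Γ)⁆, hc (x * x : S) (x * x : S).2 y y.2⟩ : Z) = 1 := by
      apply Subtype.ext
      show ⁅((x * x : S) : Γ), (y : Γ)⁆ = 1
      rw [commutatorElement_eq_one_iff_mul_comm]
      exact (((hZm _).mp (hsq x x.2)).2 y y.2).symm
    rw [h2, map_one]
  have hconj : ∀ g x, x ∈ S → g * x * g⁻¹ ∈ S := fun g x hx => hSn.conj_mem x hx g
  set g := a * u * a⁻¹ * u⁻¹ with hg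
  -- congruence helper
  have hcg : ∀ x y : S, (x : Γ) = y → Φ x = Φ y := fun x y h => by rw [Subtype.ext h]
  -- invariance under `g⁻¹`
  have hE1' : ∀ (x : Γ) (hx : x ∈ S), Φ ⟨g⁻¹ * x * g, by have := hconj g⁻¹ x hx; rwa [inv_inv] at this⟩ =
      Φ ⟨x, hx⟩ := by
    intro x hx
    have h1 := hE1 ⟨g⁻¹ * x * g, by have := hconj g⁻¹ x hx; rwa [inv_inv] at this⟩
    rw [← h1]
    apply hcg
    show g * (g⁻¹ * x * g) * g⁻¹ = x
    group
  -- `W`
  set Wg : Subgroup (S →* Kˣ) := (T.subgroupOf S).map Φ with hWg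
  have hWmem : ∀ t : S, (t : Γ) ∈ T → Φ t ∈ Wg := fun t ht => ⟨t, ht, rfl⟩
  have hαW : ∀ w ∈ Wg, dualAct S a w ∈ Wg := by
    rintro _ ⟨t, ht, rfl⟩
    rw [hΦ, dualAct_form haχ]
    exact hWmem _ ((mem_normalizer_iff.mp haT t).mp ht)
  have hυW : ∀ w ∈ Wg, dualAct S u w ∈ Wg := by
    have h1 : T ≤ ((Wg.comap (dualAct S u).toMonoidHom).comap Φ).map S.subtype := by
      apply commutator_zpowers_le han
      intro x hx
      have h2 : ⁅x, a⁆ ∈ S := hTS (commutator_mem_commutator hx (mem_zpowers a))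
      refine ⟨⟨⁅x, a⁆, h2⟩, ?_, rfl⟩
      show dualAct S u (Φ ⟨⁅x, a⁆, h2⟩) ∈ Wg
      rw [hΦ, dualAct_form huχ, ← hΦ]
      have hx' : u * x * u⁻¹ ∈ S := hconj u x hx
      have h3 : ⁅u * x * u⁻¹, a⁆ ∈ T := commutator_mem_commutator hx' (mem_zpowers a)
      have h4 : Φ ⟨u * ⁅x, a⁆ * u⁻¹, hSn.conj_mem _ h2 u⟩ = Φ ⟨⁅u * x * u⁻¹, a⁆, hTS h3⟩ := by
        -- split
        have hax : a * (u * x * u⁻¹)⁻¹ * a⁻¹ ∈ S := hconj a _ (inv_mem hx')
        have e1 : (⟨⁅u * x * u⁻¹, a⁆, hTS h3⟩ : S) = ⟨u * x * u⁻¹, hx'⟩ * ⟨a * (u * x * u⁻¹)⁻¹ * a⁻¹, hax⟩ := by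
          apply Subtype.ext
          show ⁅u * x * u⁻¹, a⁆ = (u * x * u⁻¹) * (a * (u * x * u⁻¹)⁻¹ * a⁻¹)
          rw [commutatorElement_def]; group
        have hgx : g⁻¹ * (a * (u * x * u⁻¹)⁻¹ * a⁻¹) * g ∈ S := by
          have := hconj g⁻¹ _ hax; rwa [inv_inv] at this
        have e2 : (⟨u * ⁅x, a⁆ * u⁻¹, hSn.conj_mem _ h2 u⟩ : S) =
            ⟨u * x * u⁻¹, hx'⟩ * ⟨g⁻¹ * (a * (u * x * u⁻¹)⁻¹ * a⁻¹) * g, hgx⟩ := by
          apply Subtype.ext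
          show u * ⁅x, a⁆ * u⁻¹ = (u * x * u⁻¹) * (g⁻¹ * (a * (u * x * u⁻¹)⁻¹ * a⁻¹) * g)
          rw [commutatorElement_def, hg]; group
        rw [e1, e2, map_mul, map_mul, hE1' _ hax]
      rw [h4]
      exact hWmem _ h3
    rintro _ ⟨t, ht, rfl⟩
    obtain ⟨t', ht', htt⟩ := h1 ht
    have : t' = t := Subtype.ext htt
    rw [this] at ht'
    exact ht'
  let α : Monoid.End Wg :=
    { toFun := fun w => ⟨dualAct S a w, hαW w w.2⟩
      map_one' := Subtype.ext (map_one (dualAct S a))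
      map_mul' := fun w w' => Subtype.ext (map_mul (dualAct S a) _ _) }
  let υ : Monoid.End Wg :=
    { toFun := fun w => ⟨dualAct S u w, hυW w w.2⟩
      map_one' := Subtype.ext (map_one (dualAct S u))
      map_mul' := fun w w' => Subtype.ext (map_mul (dualAct S u) _ _) }
  have hαv : ∀ w : Wg, ((α w : Wg) : S →* Kˣ) = dualAct S a w := fun w => rfl
  have hυv : ∀ w : Wg, ((υ w : Wg) : S →* Kˣ) = dualAct S u w := fun w => rfl
  have hαpow : ∀ (n : ℕ) (w : Wg), (((α ^ n) w : Wg) : S →* Kˣ) = dualAct S (a ^ n) w := by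
    intro n
    induction n with
    | zero => intro w; rw [pow_zero, pow_zero, map_one]; rfl
    | succ n ih =>
      intro w
      rw [pow_succ, pow_succ, dualAct_mul_apply, ← hαv, ← ih]; rfl
  have hυpow : ∀ (n : ℕ) (w : Wg), (((υ ^ n) w : Wg) : S →* Kˣ) = dualAct S (u ^ n) w := by
    intro n
    induction n with
    | zero => intro w; rw [pow_zero, pow_zero, map_one]; rfl
    | succ n ih =>
      intro w
      rw [pow_succ, pow_succ, dualAct_mul_apply, ← hυv, ← ih]; rfl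
  haveI : Finite Wg := by
    apply Set.Finite.subset (Set.finite_range Φ)
    rintro _ ⟨t, _, rfl⟩
    exact ⟨t, rfl⟩
  have hcomm : α * υ = υ * α := by
    ext1 ⟨w, t, ht, rfl⟩
    apply Subtype.ext
    show dualAct S a (dualAct S u (Φ t)) = dualAct S u (dualAct S a (Φ t))
    rw [hΦ, dualAct_form huχ, dualAct_form haχ, dualAct_form haχ, dualAct_form huχ, ← hΦ,
      ← hE1 ⟨u * (a * t * a⁻¹) * u⁻¹, hconj u _ (hconj a _ t.2)⟩]
    apply hcg
    show a * (u * t * u⁻¹) * a⁻¹ = g * (u * (a * t * a⁻¹) * u⁻¹) * g⁻¹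
    rw [hg]; group
  have hw2 : ∀ w : Wg, w ^ 2 = 1 := by
    rintro ⟨_, t, ht, rfl⟩
    apply Subtype.ext
    show (Φ t) ^ 2 = 1
    ext y
    have h1 : (Φ t ^ 2) y = Φ t y * Φ t y := by rw [pow_two]; rfl
    rw [h1, hsq2]; rfl
  have hfix : ∀ w : Wg, α w = w → w = 1 := by
    -- every element of `W` is `α ψ ψ⁻¹`
    let δ : S →* (S →* Kˣ) :=
      { toFun := fun x => dualAct S a (Φ x) * (Φ x)⁻¹
        map_one' := by rw [map_one, map_one, inv_one, mul_one]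
        map_mul' := by
          intro x y
          rw [map_mul, map_mul, mul_inv, mul_mul_mul_comm] }
    have h1 : T ≤ (δ.range.comap Φ).map S.subtype := by
      apply commutator_zpowers_le han
      intro x hx
      have h2 : ⁅x, a⁆ ∈ S := hTS (commutator_mem_commutator hx (mem_zpowers a))
      refine ⟨⟨⁅x, a⁆, h2⟩, ?_, rfl⟩
      show Φ ⟨⁅x, a⁆, h2⟩ ∈ δ.range
      refine ⟨⟨x, hx⟩⁻¹, ?_⟩
      show dualAct S a (Φ (⟨x, hx⟩⁻¹ : S)) * (Φ (⟨x, hx⟩⁻¹ : S))⁻¹ = _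
      rw [map_inv, inv_inv, ← map_inv Φ, hΦ, dualAct_form haχ, ← hΦ, ← map_mul]
      have h3 : (⟨a * ((⟨x, hx⟩⁻¹ : S) : Γ) * a⁻¹, hSn.conj_mem _ (⟨x, hx⟩⁻¹ : S).2 a⟩ : S) * ⟨x, hx⟩ =
          ⟨x, hx⟩⁻¹ * ⟨⁅x, a⁆, h2⟩ * ⟨x, hx⟩ := by
        apply Subtype.ext
        show a * x⁻¹ * a⁻¹ * x = x⁻¹ * ⁅x, a⁆ * x
        rw [commutatorElement_def]; group
      rw [h3, map_mul, map_mul, map_inv, mul_comm (Φ ⟨x, hx⟩)⁻¹, inv_mul_cancel_right]
    rintro ⟨w, t, ht, rfl⟩ hw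
    obtain ⟨t', ⟨x, hx⟩, htt⟩ := h1 ht
    have htt' : t' = t := Subtype.ext htt
    rw [htt'] at hx
    have hx' : dualAct S a (Φ x) * (Φ x)⁻¹ = Φ t := hx
    have hw' : dualAct S a (Φ t) = Φ t := congrArg Subtype.val hw
    have h2 : dualAct S a (Φ x) = Φ t * Φ x := by rw [← hx', inv_mul_cancel_right]
    have h3 : ∀ n : ℕ, dualAct S (a ^ n) (Φ x) = (Φ t) ^ n * Φ x := by
      intro n
      induction n with
      | zero => rw [pow_zero, pow_zero, map_one, one_mul]; rfl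
      | succ n ih =>
        rw [pow_succ', dualAct_mul_apply, ih, map_mul, map_pow, hw', h2, ← mul_assoc, ← pow_succ]
    have h4 := h3 ℓ
    rw [haℓ, map_one] at h4
    have h5 : (Φ t) ^ ℓ = 1 := by
      have : Φ x = (Φ t) ^ ℓ * Φ x := h4
      exact (right_eq_mul.mp this)
    have h6 : (Φ t) ^ 2 = 1 := congrArg Subtype.val (hw2 ⟨Φ t, t, ht, rfl⟩)
    have hodd : Nat.Coprime ℓ 2 := by
      rw [Nat.coprime_two_right, hℓm]
      have : Even (2 ^ m) := (Nat.even_pow.mpr ⟨even_two, by omega⟩)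
      exact this.add_one
    have h7 : orderOf (Φ t) = 1 :=
      Nat.eq_one_of_dvd_coprimes hodd (orderOf_dvd_of_pow_eq_one h5) (orderOf_dvd_of_pow_eq_one h6)
    apply Subtype.ext
    exact orderOf_eq_one_iff.mp h7
  -- the form on `W`
  have hsel : ∀ w : Wg, ∃ s : S, (s : Γ) ∈ T ∧ Φ s = w := by
    rintro ⟨_, t, ht, rfl⟩
    exact ⟨t, ht, rfl⟩
  choose sel hselT hsel using hsel
  have hswap : ∀ (w : Wg) (s s' : S), Φ s = Φ s' → (w : S →* Kˣ) s = (w : S →* Kˣ) s' := by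
    rintro ⟨_, t, ht, rfl⟩ s s' h
    show Φ t s = Φ t s'
    rw [hΦ, form_symm χ s t, form_symm χ s' t, ← hΦ, h]
  let β : Wg →* Wg →* rootsOfUnity 2 K :=
    { toFun := fun w =>
        { toFun := fun w' => ⟨(w : S →* Kˣ) (sel w'), by
            rw [mem_rootsOfUnity]
            have h1 : (w ^ 2 : Wg) = 1 := hw2 w
            have h2 : ((w : S →* Kˣ) ^ 2) (sel w') = 1 := by
              have h3 : (w : S →* Kˣ) ^ 2 = 1 := congrArg Subtype.val h1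
              rw [h3]; rfl
            exact h2⟩
          map_one' := by
            apply Subtype.ext
            show (w : S →* Kˣ) (sel 1) = 1
            rw [hswap w (sel 1) 1 (by rw [hsel, map_one]; rfl), map_one]
          map_mul' := by
            intro w' w''
            apply Subtype.ext
            show (w : S →* Kˣ) (sel (w' * w'')) = (w : S →* Kˣ) (sel w') * (w : S →* Kˣ) (sel w'')
            rw [← map_mul]
            apply hswap
            rw [hsel, map_mul, hsel, hsel]; rfl }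
      map_one' := by
        ext1 w'
        apply Subtype.ext
        rfl
      map_mul' := by
        intro w w'
        ext1 w''
        apply Subtype.ext
        rfl }
  have hβv : ∀ (t t' : S) (ht : (t : Γ) ∈ T) (ht' : (t' : Γ) ∈ T),
      ((β ⟨Φ t, hWmem t ht⟩ ⟨Φ t', hWmem t' ht'⟩ : rootsOfUnity 2 K) : Kˣ) = Φ t t' := by
    intro t t' ht ht'
    exact hswap ⟨Φ t, hWmem t ht⟩ _ _ (hsel _)
  have hinvβ : ∀ (h : Γ), dualAct Z h χ = χ → ∀ (t t' : S),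
      Φ ⟨h * t * h⁻¹, hconj h t t.2⟩ ⟨h * t' * h⁻¹, hconj h t' t'.2⟩ = Φ t t' := by
    intro h hh t t'
    have h1 := form_conj (hZm := hZm) (hc := hc) χ h ⟨h * t * h⁻¹, hconj h t t.2⟩ ⟨h * t' * h⁻¹, hconj h t' t'.2⟩
    rw [hh] at h1
    rw [hΦ, ← h1]
    congr 1
    · congr 1
      apply Subtype.ext
      show h⁻¹ * (h * t * h⁻¹) * h = t
      group
    · apply Subtype.ext
      show h⁻¹ * (h * t' * h⁻¹) * h = t'
      group
  have hαβ : ∀ v w, β (α v) (α w) = β v w := by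
    rintro ⟨_, t, ht, rfl⟩ ⟨_, t', ht', rfl⟩
    apply Subtype.ext
    have e1 : α ⟨Φ t, t, ht, rfl⟩ = ⟨Φ ⟨a * t * a⁻¹, hconj a t t.2⟩,
        hWmem _ ((mem_normalizer_iff.mp haT t).mp ht)⟩ := Subtype.ext (dualAct_form haχ t)
    have e2 : α ⟨Φ t', t', ht', rfl⟩ = ⟨Φ ⟨a * t' * a⁻¹, hconj a t' t'.2⟩,
        hWmem _ ((mem_normalizer_iff.mp haT t').mp ht')⟩ := Subtype.ext (dualAct_form haχ t')
    rw [e1, e2, hβv _ _ ((mem_normalizer_iff.mp haT t).mp ht) ((mem_normalizer_iff.mp haT t').mp ht'),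
      hinvβ a haχ]
    exact (hβv t t' ht ht').symm
  have hsymΦ : ∀ x y : S, Φ y x = (Φ x y)⁻¹ := fun x y => form_symm χ x y
  have hdΦ : ∀ x : S, dualAct S u (Φ x) = Φ ⟨u * x * u⁻¹, hconj u x x.2⟩ := fun x => dualAct_form huχ x
  have hυβ : ∀ v w, β (υ v) (υ w) = β v w := by
    rintro ⟨_, t, ht, rfl⟩ ⟨_, t', ht', rfl⟩
    apply Subtype.ext
    show (dualAct S u (Φ t)) (sel (υ ⟨Φ t', t', ht', rfl⟩)) = Φ t (sel ⟨Φ t', t', ht', rfl⟩)
    have e1 : Φ (sel (υ ⟨Φ t', t', ht', rfl⟩)) = Φ ⟨u * t' * u⁻¹, hconj u t' t'.2⟩ := by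
      rw [hsel]
      exact dualAct_form huχ t'
    have e2 : Φ (sel ⟨Φ t', t', ht', rfl⟩) = Φ t' := hsel _
    generalize sel (υ ⟨Φ t', t', ht', rfl⟩) = s1 at e1 ⊢
    generalize sel ⟨Φ t', t', ht', rfl⟩ = s2 at e2 ⊢
    have e3 : (dualAct S u (Φ t)) s1 =
        Φ ⟨u * t * u⁻¹, hconj u t t.2⟩ ⟨u * t' * u⁻¹, hconj u t' t'.2⟩ := by
      rw [hdΦ, hsymΦ s1, e1, ← hsymΦ]
    rw [e3, hinvβ u huχ, hsymΦ t' t, hsymΦ s2 t, e2]
  have hnd : ∀ w, (∀ v, β v w = 1) → w = 1 := by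
    rintro ⟨_, t, ht, rfl⟩ h
    apply Subtype.ext
    show Φ t = 1
    apply form_ker haχ hcop hsol ht
    intro t' ht'
    have h1 := congrArg Subtype.val (h ⟨Φ t', hWmem t' ht'⟩)
    have h2 := hβv t' t ht' ht
    have h3 : Φ t' t = 1 := by rw [← h2]; exact h1
    rw [form_symm χ t' t, ← hΦ, h3, inv_one]
  have hcardW : Nat.card Wg = 2 ^ (2 * m) := by
    rw [hWg, hcard, hℓm, Nat.add_sub_cancel, ← pow_mul, mul_comm]
  have hmain := isom_trivial (W := Wg) (Y := rootsOfUnity 2 K) (by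
      rintro ⟨y, hy⟩
      apply Subtype.ext
      exact (mem_rootsOfUnity 2 y).mp hy) hm hℓm hℓ hN hNℓ hcardW α υ hcomm (by
      ext1 w
      apply Subtype.ext
      rw [hαpow, haℓ, map_one]; rfl) (by
      ext1 w
      apply Subtype.ext
      rw [hυpow, huN, map_one]; rfl) hfix β hαβ hυβ hnd
  have h1 : υ ⟨Φ t, hWmem t ht⟩ = ⟨Φ t, hWmem t ht⟩ := by rw [hmain]; rfl
  have h2 : dualAct S u (Φ t) = Φ t := congrArg Subtype.val h1
  rw [hΦ, dualAct_form huχ] at h2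
  exact h2

end

end Cfsg.Agent.H25
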