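import Mathlib
import Cfsg.Agent.H23.Coprime2
import Cfsg.Agent.H1.RepOf
import Cfsg.Agent.H1.Chief
import Cfsg.Agent.H23.Kegel
import Cfsg.Agent.H23.Coprime4

/-!
Coprime operator groups: reduction to modules.
-/

set_option autoImplicit false

namespace Cfsg.Agent.H25

open Subgroup Module
open scoped commutatorElement

universe u

theorem centralizer_mk_comm {Γ : Type*} [Group Γ] {x y : Γ} : ⁅x, y⁆ = 1 ↔ x * y = y * x :=
  commutatorElement_eq_one_iff_mul_comm

/-- the module afforded by a minimal normal subgroup -/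
theorem exists_module {Γ : Type u} [Group Γ] [Finite Γ] {H N : Subgroup Γ} (hH : H.Normal) (hN : N.Normal)
    (hne : N ≠ ⊥) (hmin : ∀ K : Subgroup Γ, K.Normal → K ≤ N → K = ⊥ ∨ K = N)
    (hs : Group.IsSolvable N) :
    ∃ (r : ℕ) (_ : r.Prime) (_ : r ∣ Nat.card N) (K : Type) (_ : Field K) (_ : IsAlgClosed K)
      (_ : CharP K r) (M : Type u) (_ : AddCommGroup M) (_ : Module K M) (_ : FiniteDimensional K M)
      (π : Γ ⧸ (H ⊓ centralizer (N : Set Γ)) →* Module.End K M),
      (∀ x ∈ H.map (QuotientGroup.mk' (H ⊓ centralizer (N : Set Γ))), π x = 1 → x = 1) ∧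
      (∀ P : Subgroup (Γ ⧸ (H ⊓ centralizer (N : Set Γ))), P.Normal →
        P ≤ H.map (QuotientGroup.mk' (H ⊓ centralizer (N : Set Γ))) → IsPGroup r P → P = ⊥) ∧
      (∀ A : Subgroup Γ, (Nat.card A).Coprime r → (∀ n ∈ N, (∀ a ∈ A, a * n = n * a) → n = 1) →
        ∀ v : M, (∀ a ∈ A, π (QuotientGroup.mk' (H ⊓ centralizer (N : Set Γ)) a) v = v) → v = 0) := by
  classical
  set C := H ⊓ centralizer (N : Set Γ) with hC
  haveI := hH
  haveI := hN
  haveI hCn : C.Normal := inferInstance
  obtain ⟨hNc, r, hr, hNr, hNe⟩ := H1.minimal_normal_solvable hN hne hmin hs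
  haveI : Fact r.Prime := ⟨hr⟩
  have hrN : r ∣ Nat.card N := by
    obtain ⟨e, he⟩ := hNr.exists_card_eq
    rw [he]
    apply dvd_pow_self
    rintro rfl
    rw [pow_zero, card_eq_one] at he
    exact hne he
  have hEA : Cfsg.IsElementaryAbelian r N := ⟨hNc, hNe⟩
  obtain ⟨K, iF, iA, iC, M, iM1, iM2, iM3, ⟨R⟩⟩ := H1.exists_repOf hEA
  have htop : normalizer (N : Set Γ) = ⊤ := normalizer_eq_top N
  let j : Γ →* normalizer (N : Set Γ) :=
    { toFun := fun g => ⟨g, by rw [htop]; trivial⟩
      map_one' := rfl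
      map_mul' := fun _ _ => rfl }
  let π0 : Γ →* Module.End K M := R.rep.comp j
  have hπ0 : ∀ c ∈ C, π0 c = 1 := fun c hc =>
    R.rep_eq_one_of_mem_centralizer (g := j c) hc.2
  -- lift to the quotient
  let πu : Γ →* (Module.End K M)ˣ := MonoidHom.toHomUnits π0
  have hCker : C ≤ πu.ker := by
    intro c hc
    rw [MonoidHom.mem_ker]
    apply Units.ext
    exact hπ0 c hc
  let π : Γ ⧸ C →* Module.End K M := (Units.coeHom _).comp (QuotientGroup.lift C πu hCker)
  have hπ : ∀ g : Γ, π (QuotientGroup.mk' C g) = π0 g := fun g => rfl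
  refine ⟨r, hr, hrN, K, iF, iA, iC, M, iM1, iM2, iM3, π, ?_, ?_, ?_⟩
  · rintro _ ⟨h, hh, rfl⟩ h1
    rw [hπ] at h1
    have h2 : h ∈ centralizer (N : Set Γ) := R.mem_centralizer_of_rep_eq_one (g := j h) h1
    exact (QuotientGroup.eq_one_iff h).mpr ⟨hh, h2⟩
  · intro P hPn hPH hPr
    set P1 := P.comap (QuotientGroup.mk' C) with hP1
    have hP1n : P1.Normal := hPn.comap _
    have hCP1 : C ≤ P1 := H1.le_comap_mk' C P
    have hP1H : P1 ≤ H := by
      intro x hx
      obtain ⟨h, hh, hxh⟩ := hPH hx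
      have h1 : h⁻¹ * x ∈ C := QuotientGroup.eq.mp hxh
      have h2 : x = h * (h⁻¹ * x) := by group
      rw [h2]; exact mul_mem hh h1.1
    obtain ⟨P0, hP0⟩ := H23.exists_isSylowOf r P1
    -- P1 = P0 C
    have hsup : P0 ⊔ C = P1 := by
      apply le_antisymm (sup_le hP0.le hCP1)
      rw [← relIndex_eq_one]
      by_contra h1
      have h2 : (P0 ⊔ C).relIndex P1 ∣ C.relIndex P1 := relIndex_dvd_of_le_left P1 le_sup_right
      have h3 : (P0 ⊔ C).relIndex P1 ∣ P0.relIndex P1 := relIndex_dvd_of_le_left P1 le_sup_left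
      have h4 : C.relIndex P1 = Nat.card P := by
        have h5 : P1.map (QuotientGroup.mk' C) = P :=
          map_comap_eq_self_of_surjective (QuotientGroup.mk'_surjective C) P
        rw [← h5, ← relIndex_ker, QuotientGroup.ker_mk']
      obtain ⟨e, he⟩ := hPr.exists_card_eq
      rw [h4, he] at h2
      obtain ⟨k, hk, hk2⟩ := (Nat.dvd_prime_pow hr).mp h2
      have h7 : r ∣ (P0 ⊔ C).relIndex P1 := by
        rw [hk2]
        apply dvd_pow_self
        rintro rfl
        rw [pow_zero] at hk2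
        exact h1 hk2
      exact hP0.not_dvd (h7.trans h3)
    have hle : ⁅N, P1⁆ ≤ ⁅N, P0⁆ := by
      rw [commutator_le]
      intro n hn x hx
      rw [← hsup] at hx
      obtain ⟨p, hp, c, hc, rfl⟩ := mem_sup_of_normal_right.mp hx
      have h1 : ⁅n, c⁆ = 1 := by
        rw [commutatorElement_eq_one_iff_mul_comm]
        exact mem_centralizer_iff.mp hc.2 n hn
      have h2 : ⁅n, p * c⁆ = ⁅n, p⁆ * (p * ⁅n, c⁆ * p⁻¹) := by
        rw [commutatorElement_def, commutatorElement_def, commutatorElement_def]; group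
      rw [h2, h1, mul_one, mul_inv_cancel, mul_one]
      exact commutator_mem_commutator hn hp
    have hlt : ⁅N, P0⁆ < N := H23.commutator_lt_of_isPGroup hNr hP0.isPGroup
      (by rw [normalizer_eq_top]; exact le_top) hne
    have hcomm : ⁅N, P1⁆ = ⊥ := by
      rcases hmin ⁅N, P1⁆ inferInstance (hle.trans hlt.le) with h1 | h1
      · exact h1
      · exfalso
        rw [h1] at hle
        exact absurd hlt (not_lt_of_ge hle)
    have hP1C : P1 ≤ C := by
      refine le_inf hP1H ?_
      rw [commutator_comm, commutator_eq_bot_iff_le_centralizer] at hcomm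
      exact hcomm
    rw [← map_comap_eq_self_of_surjective (QuotientGroup.mk'_surjective C) P]
    exact H1.map_mk'_eq_bot_iff.mpr hP1C
  · intro A hAr hAN v hv
    set A' : Subgroup (normalizer (N : Set Γ)) := A.subgroupOf _ with hA'
    have hcard : Nat.card A' = Nat.card A := by
      rw [hA']
      exact Nat.card_congr (subgroupOfEquivOfLe (by rw [htop]; exact le_top)).toEquiv
    have hne0 : (Nat.card A' : K) ≠ 0 := by
      rw [hcard]
      apply H1.cast_ne_zero_of_not_dvd (ℓ := r)
      intro h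
      have := Nat.dvd_gcd h (dvd_refl r)
      rw [hAr] at this
      exact hr.one_lt.ne' (Nat.dvd_one.mp this)
    have h1 := R.mem_span_fixed A' hne0 (m := v) (by
      intro s hs'
      exact hv s hs')
    have h2 : {n : N | ∀ s ∈ A', (s : Γ) * n * (s : Γ)⁻¹ = n} ⊆ {1} := by
      intro n hn
      rw [Set.mem_singleton_iff]
      apply Subtype.ext
      apply hAN n n.2
      intro a ha
      have h3 := hn ⟨a, by rw [htop]; trivial⟩ ha
      exact mul_inv_eq_iff_eq_mul.mp h3
    have h3 : Submodule.span K (R.ι '' {n : N | ∀ s ∈ A', (s : Γ) * n * (s : Γ)⁻¹ = n}) ≤ ⊥ := by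
      rw [Submodule.span_le]
      rintro _ ⟨n, hn, rfl⟩
      have h4 : n = 1 := h2 hn
      rw [h4, R.ι_one]
      exact zero_mem _
    exact (Submodule.mem_bot K).mp (h3 h1)

/-- induction over minimal normal subgroups: `H` has a nilpotent normal subgroup `F` with a term of
the lower central series of `H` inside `F` as soon as this holds for the action on the minimal normal
subgroups in all quotients. -/
theorem height_induction (κ : ℕ → Prop) (hκ : ∃ k, κ k)
    (P : ∀ {Γ : Type u} [Group Γ], Subgroup Γ → Prop)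
    (hPn : ∀ {Γ : Type u} [Group Γ] {H : Subgroup Γ}, P H → H.Normal ∧ Group.IsSolvable H)
    (hq : ∀ {Γ : Type u} [Group Γ] [Finite Γ] {H N : Subgroup Γ} [N.Normal], N ≤ H → P H →
      P (H.map (QuotientGroup.mk' N)))
    (hm : ∀ {Γ : Type u} [Group Γ] [Finite Γ] {H N : Subgroup Γ}, P H → N.Normal → N ≤ H → N ≠ ⊥ →
      (∀ K : Subgroup Γ, K.Normal → K ≤ N → K = ⊥ ∨ K = N) →
      ∃ k, κ k ∧ H.lowerCentralSeries k ≤ centralizer (N : Set Γ)) (n : ℕ) :
    ∀ {Γ : Type u} [Group Γ] [Finite Γ] {H : Subgroup Γ}, Nat.card Γ ≤ n → P H →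
      ∃ F : Subgroup Γ, F.Normal ∧ F ≤ H ∧ Group.IsNilpotent F ∧
        ∃ k, κ k ∧ H.lowerCentralSeries k ≤ F := by
  induction n with
  | zero =>
    intro Γ _ _ H hc _
    have : 0 < Nat.card Γ := Nat.card_pos
    omega
  | succ n ih =>
    intro Γ _ _ H hc hP
    obtain ⟨hHn, hHs⟩ := hPn hP
    by_cases hH : H = ⊥
    · obtain ⟨k, hk⟩ := hκ
      subst hH
      refine ⟨⊥, inferInstance, le_rfl, inferInstance, k, hk, ?_⟩
      exact (Subgroup.lowerCentralSeries_antitone _ (Nat.zero_le k)).trans_eq rfl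
    obtain ⟨N, hN, hNne, hNH, hNmin⟩ := H1.exists_minimal_normal_le hHn hH
    have hcardlt : Nat.card (Γ ⧸ N) ≤ n := by
      have h1 : Nat.card Γ = Nat.card (Γ ⧸ N) * Nat.card N := card_eq_card_quotient_mul_card_subgroup N
      have h2 : 1 < Nat.card N := by
        rw [one_lt_card_iff_ne_bot]; exact hNne
      have h3 : 0 < Nat.card (Γ ⧸ N) := Nat.card_pos
      have h4 : Nat.card (Γ ⧸ N) < Nat.card Γ := by rw [h1]; exact lt_mul_of_one_lt_right h3 h2
      omega
    obtain ⟨F1, hF1n, hF1H, hF1nil, k1, hk1, hlcs1⟩ := ih hcardlt (hq hNH hP)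
    obtain ⟨k2, hk2, hlcs2⟩ := hm hP hN hNH hNne hNmin
    have hNs : Group.IsSolvable N := H1.isSolvable_of_le hNH hHs
    obtain ⟨hNc, -⟩ := H1.minimal_normal_solvable hN hNne hNmin hNs
    set f := QuotientGroup.mk' N with hf
    set F := F1.comap f ⊓ centralizer (N : Set Γ) with hF
    have hF1c : (F1.comap f).Normal := hF1n.comap f
    have hFle : F1.comap f ≤ H := by
      intro x hx
      obtain ⟨h, hh, hxh⟩ := hF1H hx
      have h1 : h⁻¹ * x ∈ N := QuotientGroup.eq.mp hxh
      have h2 : x = h * (h⁻¹ * x) := by group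
      rw [h2]; exact mul_mem hh (hNH h1)
    refine ⟨F, inferInstance, inf_le_left.trans hFle, ?_, ?_⟩
    · obtain ⟨m, hm'⟩ := (isNilpotent_iff_lowerCentralSeries (S := F1)).mp hF1nil
      rw [isNilpotent_iff_lowerCentralSeries]
      refine ⟨m + 1, ?_⟩
      have h1 : F.lowerCentralSeries m ≤ N := by
        rw [← H1.map_mk'_eq_bot_iff, map_lowerCentralSeries, eq_bot_iff, ← hm']
        have h2 : F.map f ≤ F1 := by
          rw [map_le_iff_le_comap]; exact inf_le_left
        have mono : ∀ j, (F.map f).lowerCentralSeries j ≤ F1.lowerCentralSeries j := by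
          intro j
          induction j with
          | zero => exact h2
          | succ j ihj =>
            rw [Subgroup.lowerCentralSeries_succ, Subgroup.lowerCentralSeries_succ]
            exact commutator_mono ihj h2
        exact mono m
      rw [Subgroup.lowerCentralSeries_succ, eq_bot_iff]
      refine (commutator_mono h1 inf_le_right).trans ?_
      rw [commutator_comm, (commutator_eq_bot_iff_le_centralizer.mpr le_rfl)]
    · refine ⟨max k1 k2, ?_, le_inf ?_ ?_⟩
      · rcases max_choice k1 k2 with h | h <;> rw [h] <;> assumption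
      · rw [← map_le_iff_le_comap, map_lowerCentralSeries]
        exact (Subgroup.lowerCentralSeries_antitone _ (le_max_left k1 k2)).trans hlcs1
      · exact (Subgroup.lowerCentralSeries_antitone _ (le_max_right k1 k2)).trans hlcs2

/-- if all normal `s`-subgroups inside `H` are central in `H` then the solvable group `H` is abelian -/
theorem comm_of_normal_pgroups {Γ : Type*} [Group Γ] [Finite Γ] {H : Subgroup Γ} (hH : H.Normal)
    (hs : Group.IsSolvable H) (h : ∀ (s : ℕ) [Fact s.Prime] (P : Subgroup Γ), P.Normal → P ≤ H →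
      IsPGroup s P → P ≤ centralizer (H : Set Γ)) : H ≤ centralizer (H : Set Γ) := by
  haveI := hH
  set Z := H ⊓ centralizer (H : Set Γ) with hZ
  by_contra hne
  have hlt : Z < H := by
    refine lt_of_le_of_ne inf_le_left fun h1 => hne ?_
    have h2 : Z ≤ centralizer (H : Set Γ) := inf_le_right
    rwa [h1] at h2
  obtain ⟨A, hA, hZA, hAH, hch⟩ := H1.exists_chief_above hH hlt
  obtain ⟨h1, -⟩ := H1.chief_factor_solvable (Z := Z) inferInstance hA hZA hch (H1.isSolvable_of_le hAH hs)
  have h2 : ⁅Z, A⁆ = ⊥ := by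
    rw [eq_bot_iff, commutator_comm]
    refine (commutator_mono hAH (inf_le_right : Z ≤ centralizer (H : Set Γ))).trans ?_
    rw [(commutator_eq_bot_iff_le_centralizer.mpr (le_centralizer_iff.mp le_rfl))]
  have hAnil := H1.isNilpotent_of_commutator_le_central h1 h2
  have h3 : A ≤ Z := by
    apply H23.le_of_forall_isSylowOf_le
    intro p hp
    haveI := hp
    obtain ⟨P, hP⟩ := H23.exists_isSylowOf p A
    refine ⟨P, hP, ?_⟩
    have hPn : P.Normal := H23.isSylowOf_normal_of_nilpotent hA hAnil hP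
    exact le_inf (hP.le.trans hAH) (h p P hPn (hP.le.trans hAH) hP.isPGroup)
  exact absurd hZA (not_lt_of_ge h3)

end Cfsg.Agent.H25
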