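import Mathlib
import Cfsg.Agent.H25.FpfRed

/-!
A nilpotency criterion for solvable normal subgroups.
-/

set_option autoImplicit false

namespace Cfsg.Agent.H25

open Subgroup
open scoped commutatorElement Pointwise

theorem sylow_in_normal_pgroup {Γ : Type*} [Group Γ] [Finite Γ] {t : ℕ} [Fact t.Prime] {L F P P1 : Subgroup Γ}
    (hFL : F ≤ L) (hP : H23.IsSylowOf t P L) (hPF : P ≤ F) (hP1 : H23.IsSylowOf t P1 F) (hn : P1.Normal) :
    P = P1 := by
  haveI := hn
  have hfix : ∀ g : Γ, MulAut.conj g • P1 = P1 := fun g =>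
    H1.mem_normalizer_iff_conj_smul.mp (by rw [normalizer_eq_top]; trivial)
  apply le_antisymm
  · obtain ⟨P2, hP2, hle⟩ := H23.exists_isSylowOf_ge hPF hP.isPGroup
    obtain ⟨g, _, hg⟩ := hP1.exists_conj hP2
    rw [hfix] at hg
    rw [hg]; exact hle
  · obtain ⟨P2, hP2, hle⟩ := H23.exists_isSylowOf_ge (hP1.le.trans hFL) hP1.isPGroup
    obtain ⟨g, _, hg⟩ := hP2.exists_conj hP
    rw [← hfix g, ← hg]
    exact H1.conj_smul_le_conj_smul_iff.mpr hle

theorem nilpotent_of_sylow_normalizer {Γ : Type*} [Group Γ] [Finite Γ] {L : Subgroup Γ}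
    (h : ∀ (t : ℕ) [Fact t.Prime] (P : Subgroup Γ), H23.IsSylowOf t P L → L ≤ normalizer (P : Set Γ)) :
    Group.IsNilpotent L := by
  rw [H1.isNilpotent_iff_sylow_normal]
  intro t ht S
  haveI := ht
  have h1 := h t ((S : Subgroup L).map L.subtype) ⟨S, rfl⟩
  have h2 : ((((S : Subgroup L).map L.subtype)).subgroupOf L).Normal := normal_subgroupOf_of_le_normalizer h1
  have h3 : (((S : Subgroup L).map L.subtype)).subgroupOf L = (S : Subgroup L) :=
    comap_map_eq_self_of_injective L.subtype_injective _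
  rwa [h3] at h2

theorem nilpotent_of_pgroups {Γ : Type*} [Group Γ] [Finite Γ] {H : Subgroup Γ} (_hH : H.Normal)
    (hs : Group.IsSolvable H)
    (h : ∀ (u : ℕ) [Fact u.Prime], ∃ U, H23.IsSylowOf u U H ∧ ∀ (s : ℕ) [Fact s.Prime] (P : Subgroup Γ),
      s ≠ u → P.Normal → P ≤ H → IsPGroup s P → U ≤ centralizer (P : Set Γ)) :
    Group.IsNilpotent H := by
  by_contra hcon
  obtain ⟨L, hL⟩ := (Set.toFinite {L : Subgroup Γ | L.Normal ∧ L ≤ H ∧ ¬ Group.IsNilpotent L}).exists_minimal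
    ⟨H, _hH, le_rfl, hcon⟩
  obtain ⟨hLn, hLH, hLnil⟩ := hL.prop
  have hLne : L ≠ ⊥ := by
    rintro rfl
    exact hLnil inferInstance
  obtain ⟨F, hF⟩ := (Set.toFinite {F : Subgroup Γ | F.Normal ∧ F < L}).exists_maximal
    ⟨⊥, inferInstance, bot_lt_iff_ne_bot.mpr hLne⟩
  obtain ⟨hFn, hFL⟩ := hF.prop
  have hFnil : Group.IsNilpotent F := by
    by_contra h1
    exact absurd hFL (not_lt_of_ge (hL.le_of_le ⟨hFn, hFL.le.trans hLH, h1⟩ hFL.le))
  have hchief : ∀ K : Subgroup Γ, K.Normal → F < K → K ≤ L → K = L := by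
    intro K hK hFK hKL
    by_contra h1
    exact absurd hFK (not_lt_of_ge (hF.le_of_ge ⟨hK, lt_of_le_of_ne hKL h1⟩ hFK.le))
  obtain ⟨-, r, hr, -, hrP⟩ := H1.chief_factor_solvable hFn hLn hFL hchief (H1.isSolvable_of_le hLH hs)
  haveI : Fact r.Prime := ⟨hr⟩
  -- the Sylow subgroups for primes different from `r`
  have hother : ∀ (t : ℕ) [Fact t.Prime] (P : Subgroup Γ), t ≠ r → H23.IsSylowOf t P L → P.Normal := by
    intro t ht P htr hP
    have hPF : P ≤ F := by
      rw [← H1.map_mk'_eq_bot_iff]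
      have h1 : IsPGroup t (P.map (QuotientGroup.mk' F)) := hP.isPGroup.map _
      have h2 : IsPGroup r (P.map (QuotientGroup.mk' F)) := hrP.to_le (map_mono hP.le)
      have h3 := IsPGroup.disjoint_of_ne t r htr _ _ h1 h2
      exact disjoint_self.mp h3
    obtain ⟨P1, hP1⟩ := H23.exists_isSylowOf t F
    have hP1n : P1.Normal := H23.isSylowOf_normal_of_nilpotent hFn hFnil hP1
    rw [sylow_in_normal_pgroup hFL.le hP hPF hP1 hP1n]
    exact hP1n
  apply hLnil
  apply nilpotent_of_sylow_normalizer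
  intro t ht P hP
  by_cases htr : t = r
  · subst htr
    apply H23.le_of_forall_isSylowOf_le
    intro q hq
    by_cases hqt : q = t
    · subst hqt
      exact ⟨P, hP, le_normalizer⟩
    · haveI := hq
      obtain ⟨Q, hQ⟩ := H23.exists_isSylowOf q L
      have hQn := hother q Q hqt hQ
      refine ⟨Q, hQ, ?_⟩
      obtain ⟨U, hU, hUc⟩ := h t
      have h1 : U ≤ centralizer (Q : Set Γ) := hUc q Q hqt hQn (hQ.le.trans hLH) hQ.isPGroup
      obtain ⟨P2, hP2, hle⟩ := H23.exists_isSylowOf_ge (hP.le.trans hLH) hP.isPGroup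
      obtain ⟨g, _, hg⟩ := hU.exists_conj hP2
      have h2 : P2 ≤ centralizer (Q : Set Γ) := by
        haveI := hQn
        have h3 : MulAut.conj g • centralizer (Q : Set Γ) = centralizer (Q : Set Γ) :=
          H1.mem_normalizer_iff_conj_smul.mp (by rw [normalizer_eq_top]; trivial)
        rw [← hg, ← h3]
        exact H1.conj_smul_le_conj_smul_iff.mpr h1
      have h4 : Q ≤ centralizer (P : Set Γ) := le_centralizer_iff.mp (hle.trans h2)
      exact h4.trans (centralizer_le_normalizer _)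
  · haveI := hother t P htr hP
    rw [normalizer_eq_top]; exact le_top

end Cfsg.Agent.H25
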