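import Mathlib
import Cfsg.Agent.H25.FpfPB

/-!
Operator groups of order `pq`: the critical configuration on a group of class two.
-/

set_option autoImplicit false

namespace Cfsg.Agent.H25

open Subgroup Module
open scoped commutatorElement

section

variable {K : Type*} [Field K] {M : Type*} [AddCommGroup M] [Module K M] {Γ : Type*} [Group Γ] [Finite Γ]
variable (π : Γ →* Module.End K M) {S Z : Subgroup Γ} [hSn : S.Normal] [hZn : Z.Normal]
variable [IsAlgClosed K] [FiniteDimensional K M]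

theorem form_dichotomy {s : ℕ} [hs : Fact s.Prime] (hS : IsPGroup s S)
    (hZm : ∀ x, x ∈ Z ↔ x ∈ S ∧ ∀ y ∈ S, y * x = x * y) (hc : ∀ x ∈ S, ∀ y ∈ S, ⁅x, y⁆ ∈ Z)
    (hsK : (s : K) ≠ 0) {ℓ : ℕ} [hℓ : Fact ℓ.Prime] (hℓs : ℓ ≠ s) (hℓK : (ℓ : K) ≠ 0) {a : Γ}
    (haℓ : a ^ ℓ = 1) {χ : Z →* Kˣ} (hχ : WS π Z χ ≠ ⊥) (haχ : dualAct Z a χ = χ)
    (hno : ∀ w ∈ WS π Z χ, π a w = w → w = 0) :
    (∀ x : S, (x : Γ) ∈ ⁅S, zpowers a⁆ → form hZm hc χ x = 1) ∨
      (Nat.card (((⁅S, zpowers a⁆).subgroupOf S).map (form hZm hc χ)) = (ℓ - 1) ^ 2 ∧ 1 < ℓ - 1) := by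
  classical
  set W := WS π Z χ with hW
  have hZS : Z ≤ S := fun z hz => ((hZm z).mp hz).1
  have hSW : ∀ x ∈ S, ∀ w ∈ W, π x w ∈ W := fun x hx w hw => S3Data.map_S π hZm hx hw
  have haW : ∀ w ∈ W, π a w ∈ W := by
    intro w hw
    have h1 := map_WS π Z hw a
    rwa [haχ] at h1
  have hnorm : zpowers a ≤ normalizer (S : Set Γ) := by rw [normalizer_eq_top]; exact le_top
  set T : Subgroup Γ := ⁅S, zpowers a⁆ with hT
  have hTS : T ≤ S := H23.commutator_le_of_le_normalizer hnorm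
  have hcopaS : (Nat.card (zpowers a)).Coprime (Nat.card S) := by
    obtain ⟨e, he⟩ := hS.exists_card_eq
    rw [he, Nat.card_zpowers]
    apply Nat.Coprime.pow_right
    exact Nat.Coprime.coprime_dvd_left (orderOf_dvd_of_pow_eq_one haℓ)
      ((Nat.coprime_primes hℓ.out hs.out).mpr hℓs)
  have hTT : ⁅T, zpowers a⁆ = T := H23.commutator_commutator_eq hnorm hcopaS
  have haT : a ∈ normalizer (T : Set Γ) := by
    have h1 : zpowers a ≤ normalizer (T : Set Γ) := normalizer_commutator_ge_right _ _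
    exact h1 (mem_zpowers a)
  -- the operator group on `W`
  set L : Subgroup Γ := S ⊔ zpowers a with hLdef
  have hL : ∀ g ∈ L, ∀ w ∈ W, π g w ∈ W := by
    have h1 : L ≤ stabW π W := sup_le hSW (zpowers_le.mpr haW)
    exact h1
  set ρ0 := resW π W L hL with hρ0
  set φ : L →* (Module.End K W)ˣ := MonoidHom.toHomUnits ρ0 with hφ
  haveI : Finite φ.range := by
    have : Finite (Set.range φ) := Set.finite_range φ
    exact this
  have hSL : S ≤ L := le_sup_left
  have haL : a ∈ L := mem_sup_right (mem_zpowers a)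
  have hTL : T ≤ L := hTS.trans hSL
  set f1 : L →* φ.range := φ.rangeRestrict with hf1
  set ρ1 : φ.range →* Module.End K W := (Units.coeHom _).comp φ.range.subtype with hρ1
  have hρf : ∀ g : L, ρ1 (f1 g) = ρ0 g := fun g => rfl
  have hinj1 : Function.Injective ρ1 := by
    intro g h hgh
    apply Subtype.ext
    exact Units.ext hgh
  set a1 : φ.range := f1 ⟨a, haL⟩ with ha1
  have ha1ℓ : a1 ^ ℓ = 1 := by
    rw [ha1, ← map_pow]
    have : (⟨a, haL⟩ : L) ^ ℓ = 1 := Subtype.ext haℓ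
    rw [this, map_one]
  set Q : Subgroup φ.range := (T.subgroupOf L).map f1 with hQdef
  have hQmem : ∀ t (ht : t ∈ T), f1 ⟨t, hTL ht⟩ ∈ Q := fun t ht => ⟨⟨t, hTL ht⟩, ht, rfl⟩
  have hQn : a1 ∈ normalizer (Q : Set φ.range) := by
    haveI : Finite (Q : Set φ.range) := inferInstanceAs (Finite Q)
    apply mem_normalizer_fintype
    rintro _ ⟨y, hy, rfl⟩
    refine ⟨⟨a, haL⟩ * y * ⟨a, haL⟩⁻¹, ?_, ?_⟩
    · show a * (y : Γ) * a⁻¹ ∈ T
      exact (mem_normalizer_iff.mp haT y).mp hy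
    · rw [map_mul, map_mul, map_inv]
  have hQp : IsPGroup s Q := (((hS.to_le hTS).comap_subtype (K := L))).map _
  have hcopa1 : (Nat.card (zpowers a1)).Coprime (Nat.card Q) := by
    obtain ⟨e, he⟩ := hQp.exists_card_eq
    rw [he, Nat.card_zpowers]
    apply Nat.Coprime.pow_right
    exact Nat.Coprime.coprime_dvd_left (orderOf_dvd_of_pow_eq_one ha1ℓ)
      ((Nat.coprime_primes hℓ.out hs.out).mpr hℓs)
  -- `Q = [Q, a1]`
  have hQQ : ⁅Q, zpowers a1⁆ = Q := by
    have h1 : ⁅T.subgroupOf L, zpowers (⟨a, haL⟩ : L)⁆ = T.subgroupOf L := by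
      apply map_injective L.subtype_injective
      rw [map_commutator, subgroupOf_map_subtype, inf_eq_left.mpr hTL]
      have h2 : (zpowers (⟨a, haL⟩ : L)).map L.subtype = zpowers a := by
        rw [MonoidHom.map_zpowers]; rfl
      rw [h2, hTT]
    have h3 : (zpowers (⟨a, haL⟩ : L)).map f1 = zpowers a1 := by
      rw [MonoidHom.map_zpowers]
    rw [hQdef, ← h3, ← map_commutator, h1]
  -- commutators act as scalars
  have hscal : ∀ (x y : Γ) (hx : x ∈ S) (hy : y ∈ S) (w : W),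
      ρ1 ⁅f1 ⟨x, hSL hx⟩, f1 ⟨y, hSL hy⟩⁆ w = (χ ⟨⁅x, y⁆, hc x hx y hy⟩ : K) • w := by
    intro x y hx hy w
    rw [← map_commutatorElement, hρf]
    apply Subtype.ext
    exact w.2 ⟨⁅x, y⁆, hc x hx y hy⟩
  have hQlift : ∀ u : φ.range, u ∈ Q → ∃ (t : Γ) (ht : t ∈ T), f1 ⟨t, hTL ht⟩ = u := by
    rintro _ ⟨y, hy, rfl⟩
    exact ⟨y, hy, rfl⟩
  set ρ : Q →* Module.End K W := ρ1.comp Q.subtype with hρ
  have hinj : Function.Injective ρ := hinj1.comp Q.subtype_injective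
  set τ : MulAut Q := Q.normalizerMonoidHom ⟨a1, hQn⟩ with hτ
  have hτv : ∀ u : Q, ((τ u : Q) : φ.range) = a1 * u * a1⁻¹ := fun u => rfl
  have hτpow : ∀ (j : ℕ) (u : Q), (((τ ^ j) u : Q) : φ.range) = a1 ^ j * u * (a1 ^ j)⁻¹ := by
    intro j
    induction j with
    | zero => intro u; simp
    | succ j ih =>
      intro u
      rw [pow_succ', MulAut.mul_apply, hτv, ih, pow_succ']
      group
  have hτN : τ ^ ℓ = 1 := by
    ext u
    rw [hτpow, ha1ℓ, one_mul, inv_one, mul_one]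
    rfl
  set X : Module.End K W := ρ1 a1 with hX
  have hXc : ∀ u : Q, X * ρ u = ρ (τ u) * X := by
    intro u
    show ρ1 a1 * ρ1 u = ρ1 ((τ u : Q) : φ.range) * ρ1 a1
    rw [hτv, ← map_mul, ← map_mul, inv_mul_cancel_right]
  have hXN : X ^ ℓ = 1 := by rw [hX, ← map_pow, ha1ℓ, map_one]
  have hnoX : ∀ w, X w = w → w = 0 := by
    rintro ⟨w, hw⟩ h
    apply Subtype.ext
    exact hno w hw (congrArg Subtype.val h)
  have hcommQ : ∀ u v : Q, u * v * u⁻¹ * v⁻¹ ∈ center Q := by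
    intro u v
    obtain ⟨t, ht, htu⟩ := hQlift u u.2
    obtain ⟨t', ht', htv⟩ := hQlift v v.2
    rw [mem_center_iff]
    intro g
    apply hinj
    apply LinearMap.ext
    intro w
    have h1 : ∀ w : W, ρ (u * v * u⁻¹ * v⁻¹) w = (χ ⟨⁅t, t'⁆, hc t (hTS ht) t' (hTS ht')⟩ : K) • w := by
      intro w
      rw [← hscal t t' (hTS ht) (hTS ht') w]
      show ρ1 ((u : φ.range) * v * (u : φ.range)⁻¹ * (v : φ.range)⁻¹) w = _
      rw [← htu, ← htv, commutatorElement_def]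
    rw [map_mul ρ g (u * v * u⁻¹ * v⁻¹), map_mul ρ (u * v * u⁻¹ * v⁻¹) g, Module.End.mul_apply,
      Module.End.mul_apply, h1, h1, map_smul]
  have hcardQ : (Nat.card Q : K) ≠ 0 := by
    obtain ⟨e, he⟩ := hQp.exists_card_eq
    rw [he, Nat.cast_pow]
    exact pow_ne_zero _ hsK
  have hCfix : ∀ u ∈ center Q, τ u = u := by
    intro u hu
    have hτC : ∀ z ∈ center Q, τ z ∈ center Q := by
      intro z hz
      rw [mem_center_iff] at hz ⊢
      intro g
      obtain ⟨g', rfl⟩ := τ.surjective g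
      rw [← map_mul, ← map_mul, hz g']
    have h1 := H23.star_semi hcardQ (center Q) ρ (U := ⊤) (fun _ _ _ _ => Submodule.mem_top) (by
      intro z hz z' _ w _
      rw [← Module.End.mul_apply, ← Module.End.mul_apply, ← map_mul, ← map_mul, mem_center_iff.mp hz z'])
      τ hτC X hXc hℓ.out hτN hXN (Or.inl hnoX) u hu
    apply hinj
    exact LinearMap.ext (fun w => h1 w Submodule.mem_top)
  have hC : ∀ u, τ u = u ↔ u ∈ center Q := by
    intro u
    refine ⟨fun h => ?_, hCfix u⟩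
    have h1 : (u : φ.range) ∈ ⁅Q, zpowers a1⁆ ⊓ centralizer (zpowers a1 : Set φ.range) := by
      refine ⟨by rw [hQQ]; exact u.2, ?_⟩
      show (u : φ.range) ∈ centralizer _
      rw [mem_centralizer_iff]
      rintro _ ⟨i, rfl⟩
      have h2 : Commute a1 (u : φ.range) := by
        have := congrArg Subtype.val h
        rw [hτv] at this
        exact mul_inv_eq_iff_eq_mul.mp this
      exact h2.zpow_left i
    have h2 := H23.commutator_inf_centralizer_le_derived (zpowers_le.mpr hQn) hcopa1 h1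
    have h3 : (⁅Q, Q⁆ : Subgroup φ.range) ≤ (center Q).map Q.subtype := by
      rw [commutator_le]
      intro x hx y hy
      exact ⟨(⟨x, hx⟩ : Q) * ⟨y, hy⟩ * (⟨x, hx⟩ : Q)⁻¹ * (⟨y, hy⟩ : Q)⁻¹, hcommQ _ _, rfl⟩
    obtain ⟨v, hv, hvu⟩ := h3 h2
    have : v = u := Subtype.ext hvu
    rwa [this] at hv
  -- kernel of the form
  obtain ⟨w0, hw0, hw00⟩ := Submodule.exists_mem_ne_zero_of_ne_bot hχ
  have hone : ∀ (c : Kˣ), (c : K) • w0 = w0 → c = 1 := by
    intro c h
    have h2 : ((c : K) - 1) • w0 = 0 := by rw [sub_smul, one_smul, h, sub_self]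
    rcases smul_eq_zero.mp h2 with h3 | h3
    · exact Units.ext (sub_eq_zero.mp h3)
    · exact absurd h3 hw00
  -- form c t = 1 for t ∈ T, c ∈ C_S(a)
  have hsol : Group.IsSolvable S := H23.isSolvable_of_isPGroup hS
  have hform0 : ∀ (c t : S), (c : Γ) ∈ centralizer (zpowers a : Set Γ) → (t : Γ) ∈ T →
      form hZm hc χ c t = 1 := by
    intro c t hcc ht
    have h1 : zpowers a ≤ stabChi S (form hZm hc χ c) := by
      rw [zpowers_le, mem_stabChi]
      ext y
      rw [dualAct_apply]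
      have h2 := form_conj (hZm := hZm) (hc := hc) χ a c y
      rw [haχ] at h2
      have h3 : (⟨a⁻¹ * c * a, by have := hSn.conj_mem c c.2 a⁻¹; rwa [inv_inv] at this⟩ : S) = c := by
        apply Subtype.ext
        show a⁻¹ * (c : Γ) * a = c
        rw [mul_assoc, ← mem_centralizer_iff.mp hcc a (mem_zpowers a), inv_mul_cancel_left]
      rw [h3] at h2
      rw [h2]
    exact chi_commutator h1 ht t.2
  have hker : ∀ (t : S), (t : Γ) ∈ T → (∀ t' : S, (t' : Γ) ∈ T → form hZm hc χ t t' = 1) →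
      form hZm hc χ t = 1 := by
    intro t ht h
    ext y
    obtain ⟨c, hcc, n, hn, hy⟩ := H23.exists_centralizer_mul_commutator (A := zpowers a) (G := S) hnorm
      hcopaS (Or.inr hsol) y.2
    have hye : y = ⟨c, hcc.1⟩ * ⟨n, hTS hn⟩ := Subtype.ext hy
    rw [hye, map_mul, h ⟨n, hTS hn⟩ hn, mul_one, form_symm, hform0 ⟨c, hcc.1⟩ t hcc.2 ht, inv_one]
    rfl
  -- commutation in `Q`
  have hcommiff : ∀ (t t' : S), (t : Γ) ∈ T → (t' : Γ) ∈ T →
      (f1 ⟨t, hSL t.2⟩ * f1 ⟨t', hSL t'.2⟩ = f1 ⟨t', hSL t'.2⟩ * f1 ⟨t, hSL t.2⟩ ↔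
        form hZm hc χ t t' = 1) := by
    intro t t' ht ht'
    rw [← commutatorElement_eq_one_iff_mul_comm]
    constructor
    · intro h
      apply hone
      have h1 := hscal t t' t.2 t'.2 ⟨w0, hw0⟩
      rw [h, map_one] at h1
      exact (congrArg Subtype.val h1).symm
    · intro h
      apply hinj1
      rw [map_one]
      apply LinearMap.ext
      intro w
      rw [hscal t t' t.2 t'.2 w]
      rw [form_apply] at h
      rw [h, Units.val_one, one_smul]; rfl
  by_cases hna : center Q = ⊤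
  · left
    intro x hx
    apply hker x hx
    intro t' ht'
    rw [← hcommiff x t' hx ht']
    have h1 : (⟨f1 ⟨x, hSL x.2⟩, hQmem x hx⟩ : Q) ∈ center Q := by rw [hna]; trivial
    have h2 := mem_center_iff.mp h1 ⟨f1 ⟨t', hSL t'.2⟩, hQmem t' ht'⟩
    exact (congrArg Subtype.val h2).symm
  right
  obtain ⟨Y, μ, z₀, v, _, hv0, hμ, _, hZY, hYfix, hidx, h1lt, _, _⟩ :=
    H23.hh_special_semi hℓK hcardQ (by
      obtain ⟨e, he⟩ := hQp.exists_card_eq
      rw [he]
      exact Nat.Coprime.pow_left _ ((Nat.coprime_primes hs.out hℓ.out).mpr (Ne.symm hℓs)))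
      ρ hinj τ hτN X hXc hXN hcommQ hC hna (Or.inl hnoX)
  have hYc : Y = center Q := by
    apply le_antisymm _ hZY
    intro u hu
    rw [mem_center_iff]
    intro g
    have h1 := hYfix u hu g
    obtain ⟨t, ht, htu⟩ := hQlift u u.2
    obtain ⟨t', ht', htg⟩ := hQlift g g.2
    have h2 : ρ (u * g * u⁻¹ * g⁻¹) v = (χ ⟨⁅t, t'⁆, hc t (hTS ht) t' (hTS ht')⟩ : K) • v := by
      rw [← hscal t t' (hTS ht) (hTS ht') v]
      show ρ1 ((u : φ.range) * g * (u : φ.range)⁻¹ * (g : φ.range)⁻¹) v = _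
      rw [← htu, ← htg, commutatorElement_def]
    rw [h1] at h2
    have h3 : χ ⟨⁅t, t'⁆, hc t (hTS ht) t' (hTS ht')⟩ = 1 := by
      have h4 : ((χ ⟨⁅t, t'⁆, hc t (hTS ht) t' (hTS ht')⟩ : K) - 1) • v = 0 := by
        rw [sub_smul, one_smul, ← h2, sub_self]
      rcases smul_eq_zero.mp h4 with h5 | h5
      · exact Units.ext (sub_eq_zero.mp h5)
      · exact absurd h5 hv0
    have h4 := (hcommiff ⟨t, hTS ht⟩ ⟨t', hTS ht'⟩ ht ht').mpr h3
    apply Subtype.ext
    show (g : φ.range) * u = u * g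
    rw [← htu, ← htg]
    exact h4.symm
  refine ⟨?_, h1lt⟩
  rw [← hidx, hYc]
  -- compare kernels on `T`
  set g1 : T →* Q :=
    { toFun := fun t => ⟨f1 ⟨t, hTL t.2⟩, hQmem t t.2⟩
      map_one' := by apply Subtype.ext; exact map_one f1
      map_mul' := by
        intro t t'; apply Subtype.ext; exact map_mul f1 ⟨t, hTL t.2⟩ ⟨t', hTL t'.2⟩ } with hg1
  have hg1s : Function.Surjective g1 := by
    intro u
    obtain ⟨t, ht, htu⟩ := hQlift u u.2
    exact ⟨⟨t, ht⟩, Subtype.ext htu⟩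
  set g2 : T →* (S →* Kˣ) := (form hZm hc χ).comp (inclusion hTS) with hg2
  have hk : (center Q).comap g1 = g2.ker := by
    ext t
    rw [mem_comap, MonoidHom.mem_ker]
    constructor
    · intro h
      apply hker ⟨t, hTS t.2⟩ t.2
      intro t' ht'
      rw [← hcommiff ⟨t, hTS t.2⟩ t' t.2 ht']
      have h2 := mem_center_iff.mp h ⟨f1 ⟨t', hSL t'.2⟩, hQmem t' ht'⟩
      exact (congrArg Subtype.val h2).symm
    · intro h
      rw [mem_center_iff]
      intro u
      obtain ⟨t', ht', htu⟩ := hQlift u u.2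
      apply Subtype.ext
      show (u : φ.range) * f1 ⟨t, hTL t.2⟩ = f1 ⟨t, hTL t.2⟩ * u
      rw [← htu]
      refine ((hcommiff ⟨t, hTS t.2⟩ ⟨t', hTS ht'⟩ t.2 ht').mpr ?_).symm
      have h3 : form hZm hc χ ⟨t, hTS t.2⟩ = 1 := h
      rw [h3]; rfl
  rw [← index_comap_of_surjective (center Q) hg1s, hk, index_ker]
  have h5 : g2.range = ((⁅S, zpowers a⁆).subgroupOf S).map (form hZm hc χ) := by
    ext ψ
    constructor
    · rintro ⟨t, rfl⟩
      exact ⟨⟨t, hTS t.2⟩, t.2, rfl⟩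
    · rintro ⟨x, hx, rfl⟩
      exact ⟨⟨x, hx⟩, rfl⟩
  rw [h5]

end

end Cfsg.Agent.H25
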