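import Mathlib
import Cfsg.Agent.H25.FpfE3
import Cfsg.Agent.H25.FpfE1
import Cfsg.Agent.H25.FpfPB0

/-!
Operator groups of order `pq`: kernels of class two.
-/

set_option autoImplicit false

namespace Cfsg.Agent.H25

open Subgroup Module
open scoped commutatorElement

section

variable {E : Type*} [CommGroup E] {Γ : Type*} [Group Γ] {S Z : Subgroup Γ} [hSn : S.Normal] [hZn : Z.Normal]

/-- the stabilizer of the commutator form -/
def fixF (hZm : ∀ x, x ∈ Z ↔ x ∈ S ∧ ∀ y ∈ S, y * x = x * y) (hc : ∀ x ∈ S, ∀ y ∈ S, ⁅x, y⁆ ∈ Z)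
    (χ : Z →* E) : Subgroup Γ where
  carrier := {g | ∀ x : S, form hZm hc χ ⟨g * x * g⁻¹, hSn.conj_mem x x.2 g⟩ = form hZm hc χ x}
  one_mem' := by
    intro x
    congr 1
    apply Subtype.ext
    show 1 * (x : Γ) * 1⁻¹ = x
    group
  mul_mem' := by
    intro g h hg hh x
    rw [← hh x, ← hg ⟨h * x * h⁻¹, hSn.conj_mem x x.2 h⟩]
    congr 1
    apply Subtype.ext
    show g * h * (x : Γ) * (g * h)⁻¹ = g * (h * x * h⁻¹) * g⁻¹
    group
  inv_mem' := by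
    intro g hg x
    rw [← hg ⟨g⁻¹ * x * g⁻¹⁻¹, hSn.conj_mem x x.2 g⁻¹⟩]
    congr 1
    apply Subtype.ext
    show g * (g⁻¹ * (x : Γ) * g⁻¹⁻¹) * g⁻¹ = x
    group

variable {hZm : ∀ x, x ∈ Z ↔ x ∈ S ∧ ∀ y ∈ S, y * x = x * y} {hc : ∀ x ∈ S, ∀ y ∈ S, ⁅x, y⁆ ∈ Z}

omit hZn in
theorem mem_fixF {χ : Z →* E} {g : Γ} : g ∈ fixF hZm hc χ ↔
    ∀ x : S, form hZm hc χ ⟨g * x * g⁻¹, hSn.conj_mem x x.2 g⟩ = form hZm hc χ x := Iff.rfl

theorem form_conj_left {χ : Z →* E} {g : Γ} (hg : dualAct Z g χ = χ) (x y : S) :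
    form hZm hc χ ⟨g * x * g⁻¹, hSn.conj_mem x x.2 g⟩ y =
      form hZm hc χ x ⟨g⁻¹ * y * g, by have := hSn.conj_mem y y.2 g⁻¹; rwa [inv_inv] at this⟩ := by
  have h1 := form_conj (hZm := hZm) (hc := hc) χ g ⟨g * x * g⁻¹, hSn.conj_mem x x.2 g⟩ y
  rw [hg] at h1
  rw [← h1]
  congr 1
  congr 1
  apply Subtype.ext
  show g⁻¹ * (g * (x : Γ) * g⁻¹) * g = x
  group

theorem fixF_conj {χ : Z →* E} {c g : Γ} (hcχ : dualAct Z c χ = χ) (hg : g ∈ fixF hZm hc χ) :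
    c * g * c⁻¹ ∈ fixF hZm hc χ := by
  intro x
  ext y
  have hx' : c⁻¹ * x * c ∈ S := by have := hSn.conj_mem x x.2 c⁻¹; rwa [inv_inv] at this
  have h1 : (⟨c * g * c⁻¹ * x * (c * g * c⁻¹)⁻¹, hSn.conj_mem x x.2 _⟩ : S) =
      ⟨c * (⟨g * (⟨c⁻¹ * x * c, hx'⟩ : S) * g⁻¹, hSn.conj_mem _ hx' g⟩ : S) * c⁻¹,
        hSn.conj_mem _ (hSn.conj_mem _ hx' g) c⟩ := by
    apply Subtype.ext
    show c * g * c⁻¹ * (x : Γ) * (c * g * c⁻¹)⁻¹ = c * (g * (c⁻¹ * x * c) * g⁻¹) * c⁻¹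
    group
  rw [h1, form_conj_left hcχ, hg ⟨c⁻¹ * x * c, hx'⟩, ← form_conj_left hcχ]
  congr 2
  apply Subtype.ext
  show c * (c⁻¹ * (x : Γ) * c) * c⁻¹ = x
  group

omit hZn in
/-- an element acting trivially on `S` modulo the kernel of the form -/
theorem mem_fixF_of_comm {χ : Z →* E} {g : Γ}
    (h : ∀ x : S, form hZm hc χ ⟨g * x * g⁻¹ * (x : Γ)⁻¹, mul_mem (hSn.conj_mem x x.2 g) (inv_mem x.2)⟩ = 1) :
    g ∈ fixF hZm hc χ := by
  intro x
  have h1 : (⟨g * x * g⁻¹, hSn.conj_mem x x.2 g⟩ : S) =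
      ⟨g * x * g⁻¹ * (x : Γ)⁻¹, mul_mem (hSn.conj_mem x x.2 g) (inv_mem x.2)⟩ * x := by
    apply Subtype.ext
    show g * (x : Γ) * g⁻¹ = g * x * g⁻¹ * (x : Γ)⁻¹ * x
    group
  rw [h1, map_mul, h x, one_mul]

omit hZn in
/-- if `U` fixes the form and `S = [S,U]`, then the form is trivial -/
theorem form_eq_one_of_fixF {χ : Z →* E} {U : Subgroup Γ} (hU : U ≤ fixF hZm hc χ) (hgen : ⁅S, U⁆ = S)
    (x : S) : form hZm hc χ x = 1 := by
  have h1 : ⁅S, U⁆ ≤ (form hZm hc χ).ker.map S.subtype := by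
    rw [commutator_le]
    intro x hx u hu
    have hx' : u * x⁻¹ * u⁻¹ ∈ S := hSn.conj_mem _ (inv_mem hx) u
    refine ⟨⟨x, hx⟩ * ⟨u * x⁻¹ * u⁻¹, hx'⟩, ?_, ?_⟩
    · show _ ∈ (form hZm hc χ).ker
      rw [MonoidHom.mem_ker, map_mul, show (⟨u * x⁻¹ * u⁻¹, hx'⟩ : S) =
        ⟨u * ((⟨x, hx⟩⁻¹ : S) : Γ) * u⁻¹, hSn.conj_mem _ (⟨x, hx⟩⁻¹ : S).2 u⟩ from rfl, hU hu, map_inv,
        mul_inv_cancel]
    · show x * (u * x⁻¹ * u⁻¹) = ⁅x, u⁆
      rw [commutatorElement_def]; group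
  rw [hgen] at h1
  obtain ⟨x', hx', hxx⟩ := h1 x.2
  have : x' = x := Subtype.ext hxx
  rw [← this]
  exact hx'

/-- the additive version of the space of forms -/
noncomputable def formR (S : Subgroup Γ) [hSn : S.Normal] (E : Type*) [CommGroup E] :
    Γ →* AddMonoid.End (S → S → Additive E) where
  toFun g :=
    { toFun := fun F x y => F ⟨g⁻¹ * x * g, by have := hSn.conj_mem x x.2 g⁻¹; rwa [inv_inv] at this⟩
        ⟨g⁻¹ * y * g, by have := hSn.conj_mem y y.2 g⁻¹; rwa [inv_inv] at this⟩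
      map_zero' := rfl
      map_add' := fun _ _ => rfl }
  map_one' := by
    refine AddMonoidHom.ext fun F => funext fun x => funext fun y => ?_
    show F _ _ = F x y
    congr 1
    · apply Subtype.ext
      show (1 : Γ)⁻¹ * x * 1 = x
      group
    · apply Subtype.ext
      show (1 : Γ)⁻¹ * y * 1 = y
      group
  map_mul' := by
    intro g h
    refine AddMonoidHom.ext fun F => funext fun x => funext fun y => ?_
    show F ⟨(g * h)⁻¹ * x * (g * h), _⟩ ⟨(g * h)⁻¹ * y * (g * h), _⟩ =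
      F ⟨h⁻¹ * (g⁻¹ * x * g) * h, _⟩ ⟨h⁻¹ * (g⁻¹ * y * g) * h, _⟩
    congr 1
    · apply Subtype.ext
      show (g * h)⁻¹ * (x : Γ) * (g * h) = h⁻¹ * (g⁻¹ * x * g) * h
      group
    · apply Subtype.ext
      show (g * h)⁻¹ * (y : Γ) * (g * h) = h⁻¹ * (g⁻¹ * y * g) * h
      group

/-- the action on the first argument -/
noncomputable def formσ (S : Subgroup Γ) [hSn : S.Normal] (E : Type*) [CommGroup E] :
    Γ →* AddMonoid.End (S → S → Additive E) where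
  toFun g :=
    { toFun := fun F x y => F ⟨g⁻¹ * x * g, by have := hSn.conj_mem x x.2 g⁻¹; rwa [inv_inv] at this⟩ y
      map_zero' := rfl
      map_add' := fun _ _ => rfl }
  map_one' := by
    refine AddMonoidHom.ext fun F => funext fun x => funext fun y => ?_
    show F _ y = F x y
    congr 1
    apply Subtype.ext
    show (1 : Γ)⁻¹ * x * 1 = x
    group
  map_mul' := by
    intro g h
    refine AddMonoidHom.ext fun F => funext fun x => funext fun y => ?_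
    show F ⟨(g * h)⁻¹ * x * (g * h), _⟩ y = F ⟨h⁻¹ * (g⁻¹ * x * g) * h, _⟩ y
    congr 1
    apply Subtype.ext
    show (g * h)⁻¹ * (x : Γ) * (g * h) = h⁻¹ * (g⁻¹ * x * g) * h
    group

theorem formRσ (S : Subgroup Γ) [hSn : S.Normal] (E : Type*) [CommGroup E] (g h : Γ)
    (w : S → S → Additive E) :
    formR S E g (formσ S E h w) = formσ S E (g * h * g⁻¹) (formR S E g w) := by
  funext x y
  show w ⟨h⁻¹ * (g⁻¹ * x * g) * h, _⟩ ⟨g⁻¹ * y * g, _⟩ =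
    w ⟨g⁻¹ * ((g * h * g⁻¹)⁻¹ * x * (g * h * g⁻¹)) * g, _⟩ ⟨g⁻¹ * y * g, _⟩
  congr 1
  apply Subtype.ext
  show h⁻¹ * (g⁻¹ * (x : Γ) * g) * h = g⁻¹ * ((g * h * g⁻¹)⁻¹ * x * (g * h * g⁻¹)) * g
  group

theorem formσ_one {S : Subgroup Γ} [hSn : S.Normal] (E : Type*) [CommGroup E] {g : Γ}
    (hg : g ∈ centralizer (S : Set Γ)) : formσ S E g = 1 := by
  refine AddMonoidHom.ext fun F => funext fun x => funext fun y => ?_
  show F ⟨g⁻¹ * x * g, _⟩ y = F x y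
  congr 1
  apply Subtype.ext
  show g⁻¹ * (x : Γ) * g = x
  rw [mul_assoc, mem_centralizer_iff.mp hg x x.2, inv_mul_cancel_left]

end

end Cfsg.Agent.H25
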