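import Mathlib
import Cfsg.Agent.H25.FpfPB1

/-!
Operator groups of order `pq`: kernels of class two, the main step.
-/

set_option autoImplicit false

namespace Cfsg.Agent.H25

open Subgroup Module
open scoped commutatorElement

/-- a prime power which is one less than an odd prime is a power of two -/
theorem two_pow_of_sq {s ℓ k : ℕ} (hs : s.Prime) (hℓ : ℓ.Prime) (h1 : 1 < ℓ - 1)
    (h : (ℓ - 1) ^ 2 = s ^ k) : s = 2 ∧ ∃ m, 1 ≤ m ∧ ℓ = 2 ^ m + 1 := by
  have h2 : ℓ - 1 ∣ s ^ k := by rw [← h]; exact dvd_pow_self _ two_ne_zero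
  obtain ⟨m, _, hm⟩ := (Nat.dvd_prime_pow hs).mp h2
  have hℓ3 : ℓ ≠ 2 := by omega
  have hodd : Odd ℓ := hℓ.odd_of_ne_two hℓ3
  have heven : 2 ∣ ℓ - 1 := by
    obtain ⟨r, hr⟩ := hodd
    exact ⟨r, by omega⟩
  have hs2 : s = 2 := by
    rw [hm] at heven
    exact ((Nat.prime_dvd_prime_iff_eq Nat.prime_two hs).mp (Nat.prime_two.dvd_of_dvd_pow heven)).symm
  subst hs2
  refine ⟨rfl, m, ?_, by omega⟩
  by_contra h0
  have : m = 0 := by omega
  rw [this, pow_zero] at hm
  omega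

section

variable {K : Type*} [Field K] [IsAlgClosed K] {M : Type*} [AddCommGroup M] [Module K M]
  [FiniteDimensional K M] {Γ : Type*} [Group Γ] [Finite Γ]
variable (π : Γ →* Module.End K M) {S U A Z : Subgroup Γ} {s : ℕ} [hSn : S.Normal] [hZn : Z.Normal]

theorem Cfg.form_trivial (c : Cfg S U A s) (hs : s.Prime)
    (hZm : ∀ x, x ∈ Z ↔ x ∈ S ∧ ∀ y ∈ S, y * x = x * y) (hc : ∀ x ∈ S, ∀ y ∈ S, ⁅x, y⁆ ∈ Z)
    (hexp : ∀ x ∈ S, x ^ s ∈ Z) (hUZ : ∀ u ∈ U, ∀ z ∈ Z, z * u = u * z)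
    (hsK : (s : K) ≠ 0) (hAK : (Nat.card A : K) ≠ 0)
    (hA : ∀ v : M, (∀ a ∈ A, π a v = v) → v = 0) {χ : Z →* Kˣ} (hχ : WS π Z χ ≠ ⊥) (x : S) :
    form hZm hc χ x = 1 := by
  classical
  by_cases hS1 : S = ⊥
  · have h1 : (x : Γ) ∈ (⊥ : Subgroup Γ) := hS1 ▸ x.2
    have : x = 1 := Subtype.ext (mem_bot.mp h1)
    rw [this, map_one]
  haveI : Fact s.Prime := ⟨hs⟩
  have hZS : Z ≤ S := fun z hz => ((hZm z).mp hz).1
  have hZp : IsPGroup s Z := c.hS.to_le hZS
  have hZK : (Nat.card Z : K) ≠ 0 := by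
    obtain ⟨n, hn⟩ := IsPGroup.iff_card.mp hZp
    rw [hn, Nat.cast_pow]
    exact pow_ne_zero _ hsK
  have hSs : Group.IsSolvable S := by
    haveI := c.hS.isNilpotent
    infer_instance
  have hZs : Group.IsSolvable Z := by
    haveI := hZp.isNilpotent
    infer_instance
  have hsdvd : s ∣ Nat.card S := by
    obtain ⟨n, hn⟩ := IsPGroup.iff_card.mp c.hS
    have : n ≠ 0 := by
      rintro rfl
      rw [pow_zero] at hn
      exact hS1 (card_eq_one.mp hn)
    rw [hn]; exact dvd_pow_self _ this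
  have huχ : ∀ u ∈ U, dualAct Z u χ = χ := by
    intro u hu
    have h1 : (dualAct Z u : MulAut (Z →* Kˣ)) = 1 := dualAct_eq_one_of_comm (fun z hz => hUZ u hu z hz)
    rw [h1]; rfl
  have hcZ : (Nat.card A).Coprime (Nat.card Z) := Nat.Coprime.coprime_dvd_right (card_dvd_of_le hZS) c.hcS
  have hfZ : Z ⊓ centralizer (A : Set Γ) = ⊥ :=
    le_bot_iff.mp ((inf_le_inf_right _ hZS).trans c.hfS.le)
  have hone : ∀ φ : Z →* Kˣ, (∀ a ∈ A, dualAct Z a φ = φ) → φ = 1 := fun φ h =>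
    chi_one_of_fixed hcZ hZs hfZ h
  obtain ⟨a, ha, ha1, haχ⟩ := exists_stab' π hZK hAK hA hχ
  set D : Subgroup Γ := A ⊓ stabChi Z χ with hD
  have haD : a ∈ D := ⟨ha, haχ⟩
  by_cases hDA : D = A
  · have h1 : χ = 1 := hone χ (fun b hb => by
      have : b ∈ D := by rw [hDA]; exact hb
      exact this.2)
    rw [h1]
    ext y
    rw [form_apply]; rfl
  have hDb : D ≠ ⊥ := by
    intro h
    rw [h, mem_bot] at haD
    exact ha1 haD
  have hDp : (Nat.card D).Prime := sub_prime_pq c.hA inf_le_left hDb hDA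
  have hDz : D = zpowers a := by
    symm
    apply eq_of_le_of_card_ge (zpowers_le.mpr haD)
    rw [Nat.card_zpowers]
    have h1 : orderOf a ∣ Nat.card D := by
      rw [← Nat.card_zpowers]; exact card_dvd_of_le (zpowers_le.mpr haD)
    rcases (Nat.dvd_prime hDp).mp h1 with h2 | h2
    · exact absurd (orderOf_eq_one_iff.mp h2) ha1
    · exact h2.ge
  have hap : (orderOf a).Prime := by rw [← Nat.card_zpowers, ← hDz]; exact hDp
  set ℓ := orderOf a with hℓ
  haveI : Fact ℓ.Prime := ⟨hap⟩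
  have hza : zpowers a ≤ A := zpowers_le.mpr ha
  have hℓA : ℓ ∣ Nat.card A := by rw [hℓ, ← Nat.card_zpowers]; exact card_dvd_of_le hza
  have haℓ : a ^ ℓ = 1 := pow_orderOf_eq_one a
  have hno : ∀ w ∈ WS π Z χ, π a w = w → w = 0 := by
    intro w hw hawfix
    refine ws_fixed_zero π Z hZK (A := A) hAK hA hw ?_
    intro b hb hbχ
    have h1 : b ∈ zpowers a := by rw [← hDz]; exact ⟨hb, hbχ⟩
    obtain ⟨j, hj⟩ := (isOfFinOrder_of_finite a).mem_powers_iff_mem_zpowers.mpr h1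
    have h2 : ∀ j : ℕ, π (a ^ j) w = w := by
      intro j
      induction j with
      | zero => rw [pow_zero, map_one]; rfl
      | succ j ih => rw [pow_succ, map_mul, Module.End.mul_apply, hawfix, ih]
    have h3 : a ^ j = b := hj
    rw [← h3]; exact h2 j
  have hℓs : ℓ ≠ s := by
    intro h
    have h1 : s ∣ Nat.gcd (Nat.card A) (Nat.card S) := Nat.dvd_gcd (h ▸ hℓA) hsdvd
    rw [c.hcS] at h1
    exact hs.one_lt.ne' (Nat.dvd_one.mp h1)
  have hℓK : (ℓ : K) ≠ 0 := by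
    intro h
    apply hAK
    obtain ⟨r, hr⟩ := hℓA
    rw [hr, Nat.cast_mul, h, zero_mul]
  have haS : a ∈ normalizer (S : Set Γ) := by rw [normalizer_eq_top]; trivial
  have haU : a ∈ normalizer (U : Set Γ) := c.hAU ha
  have hTS : ⁅S, zpowers a⁆ ≤ S :=
    H23.commutator_le_of_le_normalizer (by rw [normalizer_eq_top]; exact le_top)
  have hcopa : (Nat.card (zpowers a)).Coprime (Nat.card S) :=
    Nat.Coprime.coprime_dvd_left (card_dvd_of_le hza) c.hcS
  -- the two facts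
  have hmain : ⁅U, zpowers a⁆ ≤ fixF hZm hc χ ∧ ∀ u ∈ U, ∀ t : S, (t : Γ) ∈ ⁅S, zpowers a⁆ →
      form hZm hc χ ⟨u * t * u⁻¹, hSn.conj_mem t t.2 u⟩ = form hZm hc χ t := by
    rcases form_dichotomy π c.hS hZm hc hsK hℓs hℓK haℓ hχ haχ hno with hne | ⟨hcard, hgt⟩
    · have haF : a ∈ fixF hZm hc χ := by
        apply mem_fixF_of_comm
        intro x
        apply hne
        show a * (x : Γ) * a⁻¹ * (x : Γ)⁻¹ ∈ ⁅S, zpowers a⁆
        have h1 : ⁅(x : Γ), a⁆ ∈ ⁅S, zpowers a⁆ := commutator_mem_commutator x.2 (mem_zpowers a)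
        have h2 : a * (x : Γ) * a⁻¹ * (x : Γ)⁻¹ = ⁅(x : Γ), a⁆⁻¹ := by
          rw [commutatorElement_def]; group
        rw [h2]; exact inv_mem h1
      refine ⟨?_, ?_⟩
      · apply commutator_zpowers_le haU
        intro u hu
        rw [commutatorElement_def]
        exact mul_mem (fixF_conj (huχ u hu) haF) (inv_mem haF)
      · intro u hu t ht
        ext y
        rw [form_conj_left (huχ u hu), hne t ht]
        rfl
    · have hpow : ∃ k, (ℓ - 1) ^ 2 = s ^ k := by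
        have h1 : IsPGroup s (((⁅S, zpowers a⁆).subgroupOf S).map (form hZm hc χ)) :=
          (c.hS.to_subgroup _).map _
        haveI : Finite ((((⁅S, zpowers a⁆).subgroupOf S).map (form hZm hc χ))) := by
          apply Set.Finite.subset (Set.finite_range (form hZm hc χ))
          rintro _ ⟨t, _, rfl⟩
          exact ⟨t, rfl⟩
        obtain ⟨k, hk⟩ := IsPGroup.iff_card.mp h1
        exact ⟨k, by rw [← hcard, hk]⟩
      obtain ⟨k, hk⟩ := hpow
      obtain ⟨rfl, m, hm, hℓm⟩ := two_pow_of_sq hs hap hgt hk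
      have hℓ2 : ℓ ≠ 2 := hℓs
      have hsq : ∀ x ∈ S, x * x ∈ Z := fun x hx => by rw [← pow_two]; exact hexp x hx
      have hodd : Odd (Nat.card U) := by
        rw [← Nat.coprime_two_left]
        exact Nat.Coprime.coprime_dvd_left hsdvd c.hSU
      have hE1 : ∀ u ∈ U, a * u * a⁻¹ * u⁻¹ ∈ fixF hZm hc χ := by
        intro u hu x
        ext y
        rw [form_E1 hZm hc hsq huχ haχ haU hap hℓ2 haℓ c.hUU hodd hcard hu x y]
      refine ⟨?_, ?_⟩
      · apply commutator_zpowers_le haU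
        intro u hu
        have h1 : ⁅u, a⁆ = (a * u * a⁻¹ * u⁻¹)⁻¹ := by rw [commutatorElement_def]; group
        rw [h1]
        exact inv_mem (hE1 u hu)
      · intro u hu t ht
        refine form_E2 hsq (huχ u hu) haχ hap hℓm hm haℓ (N := Nat.card U) ?_ hodd ?_ hcopa hSs hcard
          (hE1 u hu) ht
        · exact orderOf_dvd_iff_pow_eq_one.mp (Subgroup.orderOf_dvd_natCard U hu)
        · exact (Nat.Coprime.coprime_dvd_left hℓA c.hcU).symm
  obtain ⟨hEF, hTF⟩ := hmain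
  apply form_eq_one_of_fixF (U := U) ?_ c.hgen
  intro y hy
  by_cases hI : A ≤ normalizer (zpowers a : Set Γ)
  · -- type I
    obtain ⟨d, hd, m, hm, rfl⟩ := H23.exists_centralizer_mul_commutator (A := zpowers a) (G := U)
      (hza.trans c.hAU) (Nat.Coprime.coprime_dvd_left (card_dvd_of_le hza) c.hcU) (Or.inr c.hUs) hy
    have hdU : d ∈ U := hd.1
    refine mul_mem ?_ (hEF hm)
    intro x
    obtain ⟨x1, hx1, n, hn, hx⟩ := H23.exists_centralizer_mul_commutator (A := zpowers a) (G := S)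
      (by rw [normalizer_eq_top]; exact le_top) hcopa (Or.inr hSs) x.2
    have hnS : n ∈ S := hTS hn
    have hx1S : x1 ∈ S := hx1.1
    have hxe : x = ⟨x1, hx1S⟩ * ⟨n, hnS⟩ := Subtype.ext hx
    have h3 : x1 * d = d * x1 := c.hnil a ha hap hI x1 hx1S d hdU
      (mem_centralizer_iff.mp hx1.2 a (mem_zpowers a)) (mem_centralizer_iff.mp hd.2 a (mem_zpowers a))
    have h4 : (⟨d * x * d⁻¹, hSn.conj_mem x x.2 d⟩ : S) =
        ⟨x1, hx1S⟩ * ⟨d * (⟨n, hnS⟩ : S) * d⁻¹, hSn.conj_mem n hnS d⟩ := by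
      apply Subtype.ext
      show d * (x : Γ) * d⁻¹ = x1 * (d * n * d⁻¹)
      rw [hx, ← mul_assoc, ← mul_assoc, ← mul_assoc, h3]
    rw [h4, map_mul, hTF d hdU ⟨n, hnS⟩ hn, ← map_mul, ← hxe]
  · -- type II
    haveI : Fintype A := Fintype.ofFinite A
    let v : S → S → Additive Kˣ := fun x y => Additive.ofMul (form hZm hc χ x y)
    have hRv : ∀ g : Γ, formR S Kˣ g v = fun x y => Additive.ofMul (form hZm hc (dualAct Z g χ) x y) := by
      intro g
      funext x y
      exact congrArg Additive.ofMul (form_conj (hZm := hZm) (hc := hc) χ g x y)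
    have hprod : (∏ g : A, dualAct Z (g : Γ) χ) = 1 := by
      apply hone
      intro b hb
      rw [map_prod]
      refine Fintype.prod_equiv (Equiv.mulLeft (⟨b, hb⟩ : A)) _ _ fun g => ?_
      rw [← dualAct_mul_apply]; rfl
    have h1 := c.typeII (formσ S Kˣ) (formR S Kˣ) (formRσ S Kˣ) (fun g hg => formσ_one Kˣ hg) ha hap hI v (by
      funext x y
      rw [Finset.sum_apply, Finset.sum_apply]
      have h2 : ∀ g : A, formR S Kˣ (g : Γ) v x y = Additive.ofMul (form hZm hc (dualAct Z (g : Γ) χ) x y) := by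
        intro g; rw [hRv]
      rw [Finset.sum_congr rfl (fun g _ => h2 g), ← ofMul_prod]
      have h3 : (∏ g : A, form hZm hc (dualAct Z (g : Γ) χ) x y) = 1 := by
        have h4 : (∏ g : A, form hZm hc (dualAct Z (g : Γ) χ) x y) =
            (∏ g : A, dualAct Z (g : Γ) χ) ⟨⁅(x : Γ), (y : Γ)⁆, hc x x.2 y y.2⟩ := by
          rw [MonoidHom.finsetProd_apply]; rfl
        rw [h4, hprod]; rfl
      rw [h3]; rfl) (by
      rw [hRv, haχ]) (fun m hm => by
      funext x y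
      show Additive.ofMul (form hZm hc χ ⟨m⁻¹ * x * m, _⟩ y) = Additive.ofMul (form hZm hc χ x y)
      have h2 := hEF (inv_mem hm) x
      congr 1
      rw [← h2]
      congr 2
      apply Subtype.ext
      show m⁻¹ * (x : Γ) * m = m⁻¹ * x * m⁻¹⁻¹
      rw [inv_inv]) (by
      funext x y
      show Additive.ofMul ((form hZm hc χ x y) ^ Nat.card S) = 0
      have h2 : (form hZm hc χ x y) ^ Nat.card S = 1 := by
        rw [← map_pow, pow_card_eq_one', map_one]
      rw [h2]; rfl) (inv_mem hy)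
    intro x
    ext z
    have h2 : Additive.ofMul (form hZm hc χ ⟨y⁻¹⁻¹ * x * y⁻¹, _⟩ z) = Additive.ofMul (form hZm hc χ x z) :=
      congrFun (congrFun h1 x) z
    have h3 : form hZm hc χ ⟨y⁻¹⁻¹ * x * y⁻¹, by rw [inv_inv]; exact hSn.conj_mem x x.2 y⟩ z =
      form hZm hc χ x z := h2
    rw [← h3]
    congr 3
    apply Subtype.ext
    show y * (x : Γ) * y⁻¹ = y⁻¹⁻¹ * x * y⁻¹
    rw [inv_inv]

end

end Cfsg.Agent.H25
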