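import Mathlib
import Cfsg.Agent.H25.FpfPB2

/-!
Operator groups of order `pq`: kernels of class at most two.
-/

set_option autoImplicit false

namespace Cfsg.Agent.H25

open Subgroup Module
open scoped commutatorElement

section

variable {K : Type*} [Field K] [IsAlgClosed K] {M : Type*} [AddCommGroup M] [Module K M]
  [FiniteDimensional K M] {Γ : Type*} [Group Γ] [Finite Γ]
variable (π : Γ →* Module.End K M) {S U A Z : Subgroup Γ} {s : ℕ} [hSn : S.Normal]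

theorem Cfg.eq_bot_of_class_two (c : Cfg S U A s) (hs : s.Prime)
    (hZm : ∀ x, x ∈ Z ↔ x ∈ S ∧ ∀ y ∈ S, y * x = x * y) (hc : ∀ x ∈ S, ∀ y ∈ S, ⁅x, y⁆ ∈ Z)
    (hexp : ∀ x ∈ S, x ^ s ∈ Z) (hUZ : ∀ u ∈ U, ∀ z ∈ Z, z * u = u * z)
    (hsK : (s : K) ≠ 0) (hAK : (Nat.card A : K) ≠ 0)
    (hA : ∀ v : M, (∀ a ∈ A, π a v = v) → v = 0)
    (hfaith : ∀ x ∈ S, π x = 1 → x = 1) : S = ⊥ := by
  have hZS : Z ≤ S := fun z hz => ((hZm z).mp hz).1
  haveI hZn : Z.Normal := by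
    refine ⟨fun z hz g => (hZm _).mpr ⟨hSn.conj_mem z (hZS hz) g, fun y hy => ?_⟩⟩
    have h1 : g⁻¹ * y * g ∈ S := by have := hSn.conj_mem y hy g⁻¹; rwa [inv_inv] at this
    have h2 := ((hZm z).mp hz).2 _ h1
    calc y * (g * z * g⁻¹) = g * (g⁻¹ * y * g * z) * g⁻¹ := by group
      _ = g * (z * (g⁻¹ * y * g)) * g⁻¹ := by rw [h2]
      _ = g * z * g⁻¹ * y := by group
  have hZp : IsPGroup s Z := c.hS.to_le hZS
  haveI : Fact s.Prime := ⟨hs⟩
  have hcardK : ∀ T : Subgroup Γ, IsPGroup s T → (Nat.card T : K) ≠ 0 := by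
    intro T hT
    obtain ⟨n, hn⟩ := IsPGroup.iff_card.mp hT
    rw [hn, Nat.cast_pow]
    exact pow_ne_zero _ hsK
  have hZc : IsMulCommutative Z :=
    ⟨⟨fun x y => Subtype.ext (((hZm y).mp y.2).2 x (hZS x.2))⟩⟩
  have hSc : IsMulCommutative S := by
    refine ⟨⟨fun x y => ?_⟩⟩
    have h1 : ⁅(x : Γ), (y : Γ)⁆ = 1 := by
      apply hfaith _ (hZS (hc x x.2 y y.2))
      refine eq_one_of_weights π Z hZc (hcardK Z hZp) (b := ⟨_, hc x x.2 y y.2⟩) ?_
      intro χ hχ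
      have h2 := c.form_trivial π hs hZm hc hexp hUZ hsK hAK hA hχ x
      have h3 : form hZm hc χ x y = 1 := by rw [h2]; rfl
      exact h3
    apply Subtype.ext
    exact commutatorElement_eq_one_iff_mul_comm.mp h1
  exact c.eq_bot_of_comm π hSc (hcardK S c.hS) hAK hA hfaith

end

end Cfsg.Agent.H25
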