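import Mathlib
import Cfsg.Agent.H25.FpfPB3
import Cfsg.Agent.H25.FpfNil
import Cfsg.Agent.H23.HHRed
import Cfsg.Agent.H24.MaxNil

/-!
Operator groups of order `pq`: groups acting faithfully on a module without fixed points of the
operator group are nilpotent.
-/

set_option autoImplicit false

namespace Cfsg.Agent.H25

open Subgroup Module
open scoped commutatorElement

theorem Cfg.of_injective {Γ Γ' : Type*} [Group Γ] [Group Γ'] (f : Γ' →* Γ) (hf : Function.Injective f)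
    {S U A : Subgroup Γ'} {s : ℕ} (c : Cfg (S.map f) (U.map f) (A.map f) s) : Cfg S U A s := by
  have hcard : ∀ T : Subgroup Γ', Nat.card (T.map f) = Nat.card T := fun T => card_map_of_injective hf
  have hnorm : ∀ (g : Γ') (T : Subgroup Γ'), f g ∈ normalizer (T.map f : Set Γ) → g ∈ normalizer (T : Set Γ') := by
    intro g T hg
    rw [mem_normalizer_iff] at hg ⊢
    intro x
    have h1 : ∀ y : Γ', y ∈ T ↔ f y ∈ T.map f := fun y => (mem_map_iff_mem hf).symm
    rw [h1, hg (f x), ← map_inv, ← map_mul, ← map_mul, ← h1]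
  have hcent : ∀ (g : Γ') (T : Subgroup Γ'), f g ∈ centralizer (T.map f : Set Γ) ↔ g ∈ centralizer (T : Set Γ') := by
    intro g T
    rw [mem_centralizer_iff, mem_centralizer_iff]
    constructor
    · intro h x hx
      apply hf
      rw [map_mul, map_mul]
      exact h (f x) ⟨x, hx, rfl⟩
    · rintro h _ ⟨x, hx, rfl⟩
      rw [← map_mul, ← map_mul, h x hx]
  have hbot : ∀ T : Subgroup Γ', (T.map f) ⊓ centralizer (A.map f : Set Γ) = ⊥ →
      T ⊓ centralizer (A : Set Γ') = ⊥ := by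
    intro T h
    rw [eq_bot_iff]
    rintro x ⟨hx1, hx2⟩
    have h1 : f x ∈ (T.map f) ⊓ centralizer (A.map f : Set Γ) := ⟨⟨x, hx1, rfl⟩, (hcent x A).mpr hx2⟩
    rw [h, mem_bot] at h1
    rw [mem_bot]
    apply hf
    rw [h1, map_one]
  refine ⟨?_, ?_, ?_, ?_, ?_, ?_, ?_, hbot S c.hfS, hbot U c.hfU, ?_, ?_, ?_⟩
  · have := c.hA; rwa [hcard] at this
  · exact c.hS.of_equiv (S.equivMapOfInjective f hf).symm
  · intro a ha
    exact hnorm a U (c.hAU ⟨a, ha, rfl⟩)
  · have := c.hcS; rwa [hcard, hcard] at this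
  · have := c.hcU; rwa [hcard, hcard] at this
  · have := c.hSU; rwa [hcard, hcard] at this
  · exact H1.isSolvable_of_equiv (U.equivMapOfInjective f hf).symm c.hUs
  · apply map_injective hf
    rw [map_commutator]; exact c.hgen
  · intro x hx
    rw [← hcent]
    apply c.hUU
    rw [← map_commutator]
    exact ⟨x, hx, rfl⟩
  · intro a ha hap hn x hx y hy h1 h2
    apply hf
    rw [map_mul, map_mul]
    refine c.hnil (f a) ⟨a, ha, rfl⟩ ?_ ?_ (f x) ⟨x, hx, rfl⟩ (f y) ⟨y, hy, rfl⟩ ?_ ?_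
    · rwa [orderOf_injective f hf]
    · rintro _ ⟨b, hb, rfl⟩
      have h3 := hn hb
      have h4 : (zpowers a).map f = zpowers (f a) := f.map_zpowers a
      rw [← h4]
      exact le_normalizer_map f ⟨b, h3, rfl⟩
    · rw [← map_mul, h1, map_mul]
    · rw [← map_mul, h2, map_mul]

section

variable {K : Type*} [Field K] [IsAlgClosed K] {M : Type*} [AddCommGroup M] [Module K M]
  [FiniteDimensional K M] {Γ : Type*} [Group Γ] [Finite Γ]
variable (π : Γ →* Module.End K M) {S U A : Subgroup Γ} {s : ℕ}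

theorem Cfg.eq_bot_of_normal [hSn : S.Normal] (c : Cfg S U A s) (hs : s.Prime)
    (hsK : (s : K) ≠ 0) (hAK : (Nat.card A : K) ≠ 0)
    (hA : ∀ v : M, (∀ a ∈ A, π a v = v) → v = 0)
    (hfaith : ∀ x ∈ S, π x = 1 → x = 1)
    (h : (∀ x ∈ S, ∀ y ∈ S, x * y = y * x) ∨ ((∀ x ∈ S, ∀ y ∈ S, ∀ z ∈ S, ⁅x, y⁆ * z = z * ⁅x, y⁆) ∧
      (∀ x ∈ S, ∀ y ∈ S, x ^ s * y = y * x ^ s) ∧
      (∀ z ∈ S, (∀ y ∈ S, z * y = y * z) → ∀ u ∈ U, z * u = u * z))) : S = ⊥ := by
  haveI : Fact s.Prime := ⟨hs⟩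
  rcases h with h | ⟨h1, h2, h3⟩
  · have hSc : IsMulCommutative S := ⟨⟨fun x y => Subtype.ext (h x x.2 y y.2)⟩⟩
    have hSK : (Nat.card S : K) ≠ 0 := by
      obtain ⟨n, hn⟩ := IsPGroup.iff_card.mp c.hS
      rw [hn, Nat.cast_pow]
      exact pow_ne_zero _ hsK
    exact c.eq_bot_of_comm π hSc hSK hAK hA hfaith
  · refine c.eq_bot_of_class_two π (Z := S ⊓ centralizer (S : Set Γ)) hs ?_ ?_ ?_ ?_ hsK hAK hA hfaith
    · intro x
      rw [mem_inf, mem_centralizer_iff]; rfl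
    · intro x hx y hy
      refine ⟨?_, ?_⟩
      · exact commutator_le_self S (commutator_mem_commutator hx hy)
      · show _ ∈ centralizer _
        rw [mem_centralizer_iff]
        intro z hz
        exact (h1 x hx y hy z hz).symm
    · intro x hx
      refine ⟨pow_mem hx s, ?_⟩
      show _ ∈ centralizer _
      rw [mem_centralizer_iff]
      intro z hz
      exact (h2 x hx z hz).symm
    · intro u hu z hz
      exact h3 z hz.1 (fun y hy => (mem_centralizer_iff.mp hz.2 y hy).symm) u hu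

theorem Cfg.eq_bot_of_normalizer (c : Cfg S U A s) (hs : s.Prime) (hUAS : U ⊔ A ≤ normalizer (S : Set Γ))
    (hsK : (s : K) ≠ 0) (hAK : (Nat.card A : K) ≠ 0)
    (hA : ∀ v : M, (∀ a ∈ A, π a v = v) → v = 0)
    (hfaith : ∀ x ∈ S, π x = 1 → x = 1)
    (h : (∀ x ∈ S, ∀ y ∈ S, x * y = y * x) ∨ ((∀ x ∈ S, ∀ y ∈ S, ∀ z ∈ S, ⁅x, y⁆ * z = z * ⁅x, y⁆) ∧
      (∀ x ∈ S, ∀ y ∈ S, x ^ s * y = y * x ^ s) ∧
      (∀ z ∈ S, (∀ y ∈ S, z * y = y * z) → ∀ u ∈ U, z * u = u * z))) : S = ⊥ := by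
  set L : Subgroup Γ := S ⊔ (U ⊔ A) with hL
  have hSL : S ≤ L := le_sup_left
  have hUL : U ≤ L := le_sup_left.trans le_sup_right
  have hAL : A ≤ L := le_sup_right.trans le_sup_right
  haveI hSn : (S.subgroupOf L).Normal :=
    normal_subgroupOf_of_le_normalizer (H23.sup_le_normalizer hUAS)
  have hmap : ∀ T : Subgroup Γ, T ≤ L → (T.subgroupOf L).map L.subtype = T := fun T hT => by
    rw [subgroupOf_map_subtype, inf_eq_left.mpr hT]
  have c' : Cfg (S.subgroupOf L) (U.subgroupOf L) (A.subgroupOf L) s := by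
    apply Cfg.of_injective L.subtype L.subtype_injective
    rw [hmap S hSL, hmap U hUL, hmap A hAL]
    exact c
  have hcA : Nat.card (A.subgroupOf L) = Nat.card A := Nat.card_congr (subgroupOfEquivOfLe hAL).toEquiv
  have h1 := c'.eq_bot_of_normal (π.comp L.subtype) hs hsK (by rw [hcA]; exact hAK) (by
    intro v hv
    apply hA
    intro a ha
    exact hv ⟨a, hAL ha⟩ ha) (by
    intro x hx hx1
    exact Subtype.ext (hfaith x hx hx1)) (by
    rcases h with h | ⟨h1, h2, h3⟩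
    · left
      intro x hx y hy
      exact Subtype.ext (h x hx y hy)
    · right
      refine ⟨fun x hx y hy z hz => Subtype.ext (h1 x hx y hy z hz),
        fun x hx y hy => Subtype.ext (h2 x hx y hy), fun z hz h u hu => Subtype.ext (h3 z hz ?_ u hu)⟩
      intro y hy
      exact congrArg Subtype.val (h ⟨y, hSL hy⟩ hy))
  rw [← hmap S hSL, h1, Subgroup.map_bot]

end

end Cfsg.Agent.H25
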