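import Mathlib
import Cfsg.Agent.H25.FpfPB4

/-!
Operator groups of order `pq`: groups acting faithfully on a module without fixed points of the
operator group are nilpotent.
-/

set_option autoImplicit false

namespace Cfsg.Agent.H25

open Subgroup Module
open scoped commutatorElement

section

variable {K : Type*} [Field K] [IsAlgClosed K] {M : Type*} [AddCommGroup M] [Module K M]
  [FiniteDimensional K M] {Γ : Type*} [Group Γ] [Finite Γ]
variable (π : Γ →* Module.End K M) {H A : Subgroup Γ}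

theorem pq_nilpotent_of_module (hH : H.Normal) (hs : Group.IsSolvable H)
    (hApq : ∃ p q : ℕ, p.Prime ∧ q.Prime ∧ Nat.card A = p * q)
    (hcop : (Nat.card A).Coprime (Nat.card H)) (hfix : H ⊓ centralizer (A : Set Γ) = ⊥)
    (hAK : (Nat.card A : K) ≠ 0) (hA : ∀ v : M, (∀ a ∈ A, π a v = v) → v = 0)
    (hfaith : ∀ x ∈ H, π x = 1 → x = 1)
    (hchar : ∀ (s : ℕ) [Fact s.Prime], (s : K) = 0 → ∀ P : Subgroup Γ, P.Normal → P ≤ H →
      IsPGroup s P → P = ⊥) : Group.IsNilpotent H := by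
  classical
  have hAH : A ≤ normalizer (H : Set Γ) := by rw [normalizer_eq_top]; exact le_top
  apply nilpotent_of_pgroups hH hs
  intro u hu
  obtain ⟨U1, hU1, hAU1⟩ := H23.exists_invariant_sylow hAH hcop (Or.inr hs) u
  refine ⟨U1, hU1, ?_⟩
  intro s hs' P hsu hPn hPH hP
  by_contra hcon
  have hsK : (s : K) ≠ 0 := by
    intro h0
    apply hcon
    rw [hchar s h0 P hPn hPH hP]
    intro x _
    rw [mem_centralizer_iff]
    intro y hy
    have : y = 1 := mem_bot.mp hy
    rw [this, one_mul, mul_one]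
  -- minimal `A`-invariant subgroup acting nontrivially on `P`
  obtain ⟨U, hU⟩ := (Set.toFinite {U : Subgroup Γ | U ≤ U1 ∧ A ≤ normalizer (U : Set Γ) ∧
    ¬ U ≤ centralizer (P : Set Γ)}).exists_minimal ⟨U1, le_rfl, hAU1, hcon⟩
  obtain ⟨hUU1, hAU, hUP⟩ := hU.prop
  have hUH : U ≤ H := hUU1.trans hU1.le
  have hUp : IsPGroup u U := hU1.isPGroup.to_le hUU1
  have hUne : U ≠ ⊥ := by rintro rfl; exact hUP bot_le
  have hUU : ⁅U, U⁆ ≤ centralizer (P : Set Γ) := by
    by_contra h1
    have hlt : ⁅U, U⁆ < U := H23.commutator_lt_of_isPGroup hUp hUp le_normalizer hUne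
    have h2 : A ≤ normalizer ((⁅U, U⁆ : Subgroup Γ) : Set Γ) := by
      intro a ha
      rw [H1.mem_normalizer_iff_conj_smul, H23.conj_smul_commutator,
        H1.mem_normalizer_iff_conj_smul.mp (hAU ha)]
    exact absurd hlt (not_lt_of_ge (hU.le_of_le ⟨hlt.le.trans hUU1, h2, h1⟩ hlt.le))
  -- minimal `S`
  have hPU : ⁅P, U⁆ ≠ ⊥ := by
    intro h1
    rw [commutator_comm, commutator_eq_bot_iff_le_centralizer] at h1
    exact hUP h1
  obtain ⟨S, hS⟩ := (Set.toFinite {S : Subgroup Γ | S ≤ P ∧ U ⊔ A ≤ normalizer (S : Set Γ) ∧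
    ⁅S, U⁆ ≠ ⊥}).exists_minimal ⟨P, le_rfl, by rw [normalizer_eq_top]; exact le_top, hPU⟩
  obtain ⟨hSP, hUAS, hSU⟩ := hS.prop
  have hSH : S ≤ H := hSP.trans hPH
  have hSp : IsPGroup s S := hP.to_le hSP
  have hcardU : ∃ n, Nat.card U = u ^ n := IsPGroup.iff_card.mp hUp
  have hcardS : ∃ n, Nat.card S = s ^ n := IsPGroup.iff_card.mp hSp
  have hus : Nat.Coprime u s := (Nat.coprime_primes hu.out hs'.out).mpr (Ne.symm hsu)
  have hUs : (Nat.card U).Coprime s := by
    obtain ⟨n, hn⟩ := hcardU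
    rw [hn]; exact Nat.Coprime.pow_left n hus
  have hmin : ∀ T : Subgroup Γ, T < S → U ⊔ A ≤ normalizer (T : Set Γ) → ⁅T, U⁆ = ⊥ := by
    intro T hT hn
    by_contra h1
    exact absurd hT (not_lt_of_ge (hS.le_of_le ⟨hT.le.trans hSP, hn, h1⟩ hT.le))
  obtain ⟨hgen, hcases, -, -⟩ := H23.hall_higman_reduction (p := s) (U ⊔ A) U S hSp hUAS le_sup_left
    (sup_le le_normalizer hAU) hUs hSU hmin
  have c : Cfg S U A s := by
    refine ⟨hApq, hSp, hAU, Nat.Coprime.coprime_dvd_right (card_dvd_of_le hSH) hcop,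
      Nat.Coprime.coprime_dvd_right (card_dvd_of_le hUH) hcop, ?_, H1.isSolvable_of_le hUH hs,
      le_bot_iff.mp ((inf_le_inf_right _ hSH).trans hfix.le),
      le_bot_iff.mp ((inf_le_inf_right _ hUH).trans hfix.le), hgen, hUU.trans (centralizer_le hSP), ?_⟩
    · obtain ⟨m, hm⟩ := hcardS
      rw [hm]; exact (Nat.Coprime.pow_left m hUs.symm)
    · intro a ha hap hn x hx y hy h1 h2
      have hnil := nilpotent_of_normal_pq hApq hAH hfix ha hap hn
      have hmem : ∀ z ∈ H, a * z = z * a → z ∈ H ⊓ centralizer (zpowers a : Set Γ) := by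
        intro z hz h3
        refine ⟨hz, ?_⟩
        show z ∈ centralizer _
        rw [mem_centralizer_iff]
        intro w hw
        have h4 : Commute a z := h3
        obtain ⟨i, rfl⟩ := hw
        exact (h4.zpow_left i).eq
      have hx' := hmem x (hSH hx) h1
      have hy' := hmem y (hUH hy) h2
      haveI := hs'
      have hxo : ∃ k : ℕ, orderOf (⟨x, hx'⟩ : (H ⊓ centralizer (zpowers a : Set Γ) : Subgroup Γ)) = s ^ k := by
        obtain ⟨k, hk⟩ := (IsPGroup.iff_orderOf.mp hSp) ⟨x, hx⟩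
        refine ⟨k, ?_⟩
        rw [Subgroup.orderOf_mk] at hk ⊢
        exact hk
      have hyo : (orderOf (⟨y, hy'⟩ : (H ⊓ centralizer (zpowers a : Set Γ) : Subgroup Γ))).Coprime s := by
        rw [Subgroup.orderOf_mk]
        exact Nat.Coprime.coprime_dvd_left (Subgroup.orderOf_dvd_natCard U hy) hUs
      have h5 := H24.commute_of_nilpotent_coprime hnil hxo hyo
      exact congrArg Subtype.val h5.eq
  have hSne : S ≠ ⊥ := by
    rintro rfl
    apply hSU
    rw [commutator_eq_bot_iff_le_centralizer]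
    exact bot_le
  apply hSne
  refine c.eq_bot_of_normalizer π hs'.out hUAS hsK hAK hA (fun x hx => hfaith x (hSH hx)) ?_
  by_cases hab : ∀ x ∈ S, ∀ y ∈ S, x * y = y * x
  · exact Or.inl hab
  right
  rcases hcases with hel | hsp
  · exfalso
    apply hab
    intro x hx y hy
    haveI := hel.1
    exact congrArg Subtype.val (hel.1.is_comm.comm ⟨x, hx⟩ ⟨y, hy⟩)
  obtain ⟨-, hfr, hcomm⟩ := hsp
  refine ⟨?_, ?_, ?_⟩
  · intro x hx y hy z hz
    have h1 : (⁅(⟨x, hx⟩ : S), (⟨y, hy⟩ : S)⁆ : S) ∈ center S := by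
      rw [← hcomm]
      exact commutator_mem_commutator (mem_top _) (mem_top _)
    rw [mem_center_iff] at h1
    exact (congrArg Subtype.val (h1 ⟨z, hz⟩)).symm
  · intro x hx y hy
    have h1 : (⟨x, hx⟩ : S) ^ s ∈ center S := by
      rw [← hfr]
      exact H2.pow_mem_frattini hSp _
    rw [mem_center_iff] at h1
    exact (congrArg Subtype.val (h1 ⟨y, hy⟩)).symm
  · intro z hz hzc w hw
    set Z : Subgroup Γ := S ⊓ centralizer (S : Set Γ) with hZ
    have hZS : Z < S := by
      refine lt_of_le_of_ne inf_le_left fun h1 => hab ?_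
      intro x hx y hy
      have h2 : x ∈ Z := by rw [h1]; exact hx
      exact (mem_centralizer_iff.mp h2.2 y hy).symm
    have hZn : U ⊔ A ≤ normalizer (Z : Set Γ) := by
      intro g hg
      have h1 := hUAS hg
      rw [mem_normalizer_iff] at h1 ⊢
      have key : ∀ g : Γ, g ∈ normalizer (S : Set Γ) → ∀ x ∈ Z, g * x * g⁻¹ ∈ Z := by
        rintro g hg x ⟨hx1, hx2⟩
        refine ⟨(mem_normalizer_iff.mp hg x).mp hx1, ?_⟩
        show _ ∈ centralizer _
        rw [mem_centralizer_iff]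
        intro y hy
        have h3 : g⁻¹ * y * g ∈ S := by
          have := (mem_normalizer_iff.mp (inv_mem hg) y).mp hy
          rwa [inv_inv] at this
        have h4 := mem_centralizer_iff.mp hx2 _ h3
        calc y * (g * x * g⁻¹) = g * (g⁻¹ * y * g * x) * g⁻¹ := by group
          _ = g * (x * (g⁻¹ * y * g)) * g⁻¹ := by rw [h4]
          _ = g * x * g⁻¹ * y := by group
      intro x
      constructor
      · exact key g (hUAS hg) x
      · intro hx
        have h2 := key g⁻¹ (inv_mem (hUAS hg)) _ hx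
        have h3 : g⁻¹ * (g * x * g⁻¹) * g⁻¹⁻¹ = x := by group
        rwa [h3] at h2
    have h1 := hmin Z hZS hZn
    rw [commutator_eq_bot_iff_le_centralizer] at h1
    have h2 : z ∈ Z := ⟨hz, by
      show z ∈ centralizer _
      rw [mem_centralizer_iff]
      intro y hy
      exact (hzc y hy).symm⟩
    exact (mem_centralizer_iff.mp (h1 h2) w hw).symm

end

end Cfsg.Agent.H25
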