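import Mathlib
import Cfsg.Agent.H25.FpfPB5

/-!
Operator groups of order `pq` acting without fixed points: the Fitting height is at most two.
-/

set_option autoImplicit false

namespace Cfsg.Agent.H25

open Subgroup Module
open scoped commutatorElement

universe u

/-- the hypotheses on the operator group -/
structure PQData {Γ : Type*} [Group Γ] (H A : Subgroup Γ) : Prop where
  hH : H.Normal
  hs : Group.IsSolvable H
  hApq : ∃ p q : ℕ, p.Prime ∧ q.Prime ∧ Nat.card A = p * q
  hcop : (Nat.card A).Coprime (Nat.card H)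
  hfix : H ⊓ centralizer (A : Set Γ) = ⊥

theorem card_map_mk'_of_coprime {Γ : Type*} [Group Γ] [Finite Γ] {A N : Subgroup Γ} [N.Normal]
    (h : (Nat.card A).Coprime (Nat.card N)) : Nat.card (A.map (QuotientGroup.mk' N)) = Nat.card A := by
  rw [← relIndex_ker, QuotientGroup.ker_mk', relIndex]
  have h1 : N.subgroupOf A = ⊥ := by
    rw [subgroupOf_eq_bot]
    exact (Subgroup.disjoint_of_coprime_natCard h.symm)
  rw [h1, index_bot]

theorem PQData.quot {Γ : Type*} [Group Γ] [Finite Γ] {H N A : Subgroup Γ} [N.Normal] (hNH : N ≤ H)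
    (d : PQData H A) : PQData (H.map (QuotientGroup.mk' N)) (A.map (QuotientGroup.mk' N)) := by
  have hcN : (Nat.card A).Coprime (Nat.card N) := Nat.Coprime.coprime_dvd_right (card_dvd_of_le hNH) d.hcop
  have hcA := card_map_mk'_of_coprime hcN
  refine ⟨d.hH.map _ (QuotientGroup.mk'_surjective N), H1.isSolvable_map _ d.hs, ?_, ?_, ?_⟩
  · rw [hcA]; exact d.hApq
  · rw [hcA]; exact Nat.Coprime.coprime_dvd_right (card_map_dvd _ _) d.hcop
  · have h3 := H23.map_inf_centralizer (A := A) (G := H) (N := N) hcN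
      (Or.inr (H1.isSolvable_of_le hNH d.hs)) hNH
    rw [d.hfix, Subgroup.map_bot] at h3
    exact h3.symm

theorem PQData.module_step {Γ : Type u} [Group Γ] [Finite Γ] {H N A : Subgroup Γ} (d : PQData H A)
    (hN : N.Normal) (hNH : N ≤ H) (hne : N ≠ ⊥)
    (hmin : ∀ K : Subgroup Γ, K.Normal → K ≤ N → K = ⊥ ∨ K = N) :
    ∃ k, H.lowerCentralSeries k ≤ centralizer (N : Set Γ) := by
  classical
  haveI := d.hH
  haveI := hN
  obtain ⟨r, hr, hrN, K, iF, iA, iC, M, iM1, iM2, iM3, π, hfaith, hchar, hfix⟩ :=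
    exists_module d.hH hN hne hmin (H1.isSolvable_of_le hNH d.hs)
  set C := H ⊓ centralizer (N : Set Γ) with hC
  have d' := d.quot (N := C) inf_le_left
  have hAr : (Nat.card A).Coprime r := Nat.Coprime.coprime_dvd_right (hrN.trans (card_dvd_of_le hNH)) d.hcop
  haveI : Fact r.Prime := ⟨hr⟩
  have hcA : Nat.card (A.map (QuotientGroup.mk' C)) = Nat.card A :=
    card_map_mk'_of_coprime (Nat.Coprime.coprime_dvd_right (card_dvd_of_le inf_le_left) d.hcop)
  have hAK : (Nat.card (A.map (QuotientGroup.mk' C)) : K) ≠ 0 := by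
    rw [hcA]
    apply H1.cast_ne_zero_of_not_dvd (ℓ := r)
    intro h
    have := Nat.dvd_gcd h (dvd_refl r)
    rw [hAr] at this
    exact hr.one_lt.ne' (Nat.dvd_one.mp this)
  have hA : ∀ v : M, (∀ a ∈ A.map (QuotientGroup.mk' C), π a v = v) → v = 0 := by
    intro v hv
    refine hfix A hAr ?_ v ?_
    · intro n hn h
      have h1 : n ∈ H ⊓ centralizer (A : Set Γ) := ⟨hNH hn, by
        show n ∈ centralizer _
        rw [mem_centralizer_iff]
        exact h⟩
      rw [d.hfix] at h1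
      exact mem_bot.mp h1
    · intro a ha
      exact hv _ ⟨a, ha, rfl⟩
  have h7 : Group.IsNilpotent (H.map (QuotientGroup.mk' C)) :=
    pq_nilpotent_of_module π d'.hH d'.hs d'.hApq d'.hcop d'.hfix hAK hA hfaith (by
      intro s hs hsK P hPn hPH hP
      have h8 : r ∣ s := (CharP.cast_eq_zero_iff K r s).mp hsK
      have h9 : r = s := (Nat.prime_dvd_prime_iff_eq hr hs.out).mp h8
      subst h9
      exact hchar P hPn hPH hP)
  obtain ⟨k, hk⟩ := (isNilpotent_iff_lowerCentralSeries (S := H.map (QuotientGroup.mk' C))).mp h7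
  refine ⟨k, ?_⟩
  have h8 : H.lowerCentralSeries k ≤ C := by
    rw [← H1.map_mk'_eq_bot_iff, map_lowerCentralSeries]
    exact hk
  exact h8.trans inf_le_right

theorem PQData.main {Γ : Type u} [Group Γ] [Finite Γ] {H A : Subgroup Γ} (d : PQData H A) :
    ∃ F : Subgroup Γ, F.Normal ∧ F ≤ H ∧ Group.IsNilpotent F ∧ ∃ k, H.lowerCentralSeries k ≤ F := by
  obtain ⟨F, hF, hFH, hFn, k, -, hkF⟩ := height_induction.{u} (fun _ => True) ⟨1, trivial⟩
    (fun {Γ} _ H => ∃ A : Subgroup Γ, PQData H A)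
    (fun {Γ} _ {H} ⟨A, d⟩ => ⟨d.hH, d.hs⟩)
    (fun {Γ} _ _ {H N} _ hNH ⟨A, d⟩ => ⟨_, d.quot hNH⟩)
    (fun {Γ} _ _ {H N} ⟨A, d⟩ hN hNH hne hmin => by
      obtain ⟨k, hk⟩ := d.module_step hN hNH hne hmin
      exact ⟨k, trivial, hk⟩)
    (Nat.card Γ) (H := H) le_rfl ⟨A, d⟩
  exact ⟨F, hF, hFH, hFn, k, hkF⟩

/-- abstract form -/
theorem pq_abstract {G A Γ : Type*} [Group G] [Finite G] (hsol : Group.IsSolvable G) [Group A]
    [Group Γ] [Finite Γ] (act : A →* MulAut G)
    (hpq : ∃ p q : ℕ, p.Prime ∧ q.Prime ∧ Nat.card A = p * q) (hcop : (Nat.card A).Coprime (Nat.card G))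
    (hfpf : ∀ g : G, (∀ a : A, act a g = g) → g = 1)
    (i1 : G →* Γ) (i2 : A →* Γ) (hinj : Function.Injective i1) (hinj2 : Function.Injective i2)
    (hn : i1.range.Normal) (hact : ∀ (a : A) (g : G), i2 a * i1 g = i1 (act a g) * i2 a) :
    ∃ F : Subgroup G, F.Normal ∧ Group.IsNilpotent F ∧ (∀ a : A, F.map (act a).toMonoidHom ≤ F) ∧
      ∃ k, (⊤ : Subgroup G).lowerCentralSeries k ≤ F := by
  classical
  have hcardH : Nat.card i1.range = Nat.card G :=
    (Nat.card_congr (MonoidHom.ofInjective hinj).toEquiv).symm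
  have hcardA : Nat.card i2.range = Nat.card A :=
    (Nat.card_congr (MonoidHom.ofInjective hinj2).toEquiv).symm
  have d : PQData i1.range i2.range := by
    refine ⟨hn, H1.isSolvable_of_equiv (MonoidHom.ofInjective hinj) hsol, ?_, ?_, ?_⟩
    · rw [hcardA]; exact hpq
    · rw [hcardA, hcardH]; exact hcop
    · rw [eq_bot_iff]
      rintro _ ⟨⟨g, rfl⟩, h⟩
      replace h := mem_centralizer_iff.mp h
      have h1 : g = 1 := by
        apply hfpf
        intro a
        have h2 := h (i2 a) ⟨a, rfl⟩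
        rw [hact] at h2
        exact hinj (mul_right_cancel h2)
      rw [h1, map_one]
      exact one_mem _
  obtain ⟨F, hF, hFH, hFn, k, hk⟩ := d.main
  have hmap : (F.comap i1).map i1 = F := map_comap_eq_self hFH
  refine ⟨F.comap i1, hF.comap i1, ?_, ?_, k, ?_⟩
  · have h1 : Group.IsNilpotent ((F.comap i1).map i1) := by rw [hmap]; exact hFn
    exact H1.isNilpotent_of_equiv ((F.comap i1).equivMapOfInjective i1 hinj).symm h1
  · rintro a _ ⟨g, hg, rfl⟩
    show i1 (act a g) ∈ F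
    have h1 : i1 (act a g) = i2 a * i1 g * (i2 a)⁻¹ := by rw [hact, mul_inv_cancel_right]
    rw [h1]
    exact hF.conj_mem _ hg _
  · rw [← map_le_iff_le_comap, map_lowerCentralSeries, ← MonoidHom.range_eq_map]
    exact hk

end Cfsg.Agent.H25
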