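import Mathlib
import Cfsg.Agent.H25.FpfS3c

/-!
The symmetric group of degree 3 acting without fixed points: groups of class two, continued.
-/

set_option autoImplicit false

namespace Cfsg.Agent.H25

open Subgroup Module
open scoped commutatorElement

namespace S3Data

variable {K : Type*} [Field K] {Γ : Type*} [Group Γ] [Finite Γ] {H : Subgroup Γ} [hHn : H.Normal] {ρ τ : Γ}
variable {M : Type*} [AddCommGroup M] [Module K M] (π : Γ →* Module.End K M)

variable {S : Subgroup Γ} [hSn : S.Normal] {Z : Subgroup Γ} [hZn : Z.Normal]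
variable [IsAlgClosed K] [FiniteDimensional K M]

theorem class_two_rho (d : S3Data H ρ τ) {s : ℕ} [hs : Fact s.Prime] (hs2 : s ≠ 2) (hs3 : s ≠ 3)
    (hSH : S ≤ H) (hS : IsPGroup s S)
    (_hcommZ : ∀ x ∈ S, ∀ y ∈ S, ⁅x, y⁆ ∈ Z)
    (hsK : (s : K) ≠ 0) (h6 : (6 : K) ≠ 0) (hA : ∀ v : M, π ρ v = v → π τ v = v → v = 0)
    (hZm : ∀ x, x ∈ Z ↔ x ∈ S ∧ ∀ y ∈ S, y * x = x * y)
    {χ : Z →* Kˣ} (hρ : dualAct Z ρ χ = χ)
    (hτ : dualAct Z τ χ ≠ χ) (hχ : WS π Z χ ≠ ⊥) {x y : Γ} (hx : x ∈ S) (hy : y ∈ S)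
    (hxy : ⁅x, y⁆ ∈ Z) : χ ⟨⁅x, y⁆, hxy⟩ = 1 := by
  classical
  set W := WS π Z χ with hW
  have hZS : Z ≤ S := fun z hz => ((hZm z).mp hz).1
  have hZH : Z ≤ H := hZS.trans hSH
  have hSW : ∀ x ∈ S, ∀ w ∈ W, π x w ∈ W := fun x hx w hw => map_S π hZm hx hw
  have hρW : ∀ w ∈ W, π ρ w ∈ W := by
    intro w hw
    have h1 := map_WS π Z hw ρ
    rwa [hρ] at h1
  have h3K : (3 : K) ≠ 0 := by
    intro h
    apply h6
    have : (6 : K) = 2 * 3 := by norm_num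
    rw [this, h, mul_zero]
  have hZK : (Nat.card Z : K) ≠ 0 := card_Z_ne hZS hs.out hS hsK
  -- no fixed vectors
  have hno : ∀ w ∈ W, π ρ w = w → w = 0 := by
    intro w hw hfix
    refine ws_fixed_zero π Z hZK (A := closure {ρ, τ}) (d.card_ne h6) (fun w hw =>
      hA w (hw ρ (subset_closure (Or.inl rfl))) (hw τ (subset_closure (Or.inr rfl)))) hw ?_
    intro a ha h
    have hρf : ρ ∈ fixW π (Submodule.span K {w}) := by
      intro v hv
      obtain ⟨c, rfl⟩ := Submodule.mem_span_singleton.mp hv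
      rw [map_smul, hfix]
    obtain ⟨i, hi | hi⟩ := d.mem_cases ha
    · rw [hi]
      exact (zpow_mem hρf i) w (Submodule.mem_span_singleton_self w)
    · exfalso
      apply hτ
      have h5 : ρ ^ i * τ ∈ stabChi Z χ := by rw [← hi]; exact h
      have h6 : ρ ∈ stabChi Z χ := hρ
      have h7 := mul_mem (inv_mem (zpow_mem h6 i)) h5
      rw [inv_mul_cancel_left] at h7
      exact h7
  -- [S, ρ] acts trivially
  have hcomR : ∀ x ∈ S, ⁅x, ρ⁆ ∈ fixW π W := by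
    intro x hx
    have h1 : ⁅ρ, x⁆ ∈ fixW π W := by
      intro w hw
      rw [commutatorElement_def]
      exact lemmaP π W (r := 3) (s := s) (Ne.symm hs3) (by exact_mod_cast h3K) hsK (by
        rintro ⟨m, hm, h⟩
        apply hs2
        have h4 : s ∣ 2 := by
          have : (3 : ℕ) - 1 = 2 := rfl
          rw [this] at h
          rw [h]; exact dvd_pow_self s (by omega)
        exact (Nat.prime_dvd_prime_iff_eq hs.out Nat.prime_two).mp h4) hS
        (by rw [normalizer_eq_top]; trivial) d.hρ hSW hρW hno hx hw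
    rw [← commutatorElement_inv]
    exact inv_mem h1
  have hcle : ⁅S, zpowers ρ⁆ ≤ fixW π W :=
    commutator_zpowers_le (by rw [normalizer_eq_top]; trivial) hcomR
  have hkey : ∀ z (hz : z ∈ Z), (∀ w ∈ W, π z w = w) → χ ⟨z, hz⟩ = 1 := by
    intro z hz h
    obtain ⟨w, hw, hw0⟩ := Submodule.exists_mem_ne_zero_of_ne_bot hχ
    have h1 : π z w = (χ ⟨z, hz⟩ : K) • w := hw ⟨z, hz⟩
    rw [h w hw] at h1
    have h2 : ((χ ⟨z, hz⟩ : K) - 1) • w = 0 := by rw [sub_smul, one_smul, ← h1, sub_self]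
    rcases smul_eq_zero.mp h2 with h3 | h3
    · exact Units.ext (sub_eq_zero.mp h3)
    · exact absurd h3 hw0
  have hle : zpowers ρ ≤ closure {ρ, τ} := by
    rw [zpowers_le]; exact subset_closure (Or.inl rfl)
  have hnorm : zpowers ρ ≤ normalizer (S : Set Γ) := by rw [normalizer_eq_top]; exact le_top
  have hsol : Group.IsSolvable S := H1.isSolvable_of_le hSH d.hsolv
  obtain ⟨c, hc1, n, hn, rfl⟩ := H23.exists_centralizer_mul_commutator (A := zpowers ρ) (G := S) hnorm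
    (d.cop hle hSH) (Or.inr hsol) hx
  obtain ⟨c', hc1', n', hn', rfl⟩ := H23.exists_centralizer_mul_commutator (A := zpowers ρ) (G := S) hnorm
    (d.cop hle hSH) (Or.inr hsol) hy
  have hcρ : ρ * c = c * ρ := mem_centralizer_iff.mp hc1.2 ρ (mem_zpowers ρ)
  have hcρ' : ρ * c' = c' * ρ := mem_centralizer_iff.mp hc1'.2 ρ (mem_zpowers ρ)
  apply hkey
  intro w hw
  rw [comm_congr (π := π) (W := W) hSW hc1.1 hc1'.1 (hcle hn) (hcle hn') hw]
  have h1 : ⁅c, c'⁆ = 1 := by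
    rw [commutatorElement_eq_one_iff_mul_comm]
    exact (d.inv_of_comm (hSH hc1.1) hcρ).2 c' (hSH hc1'.1) hcρ'
  rw [h1, map_one]; rfl

/-- **(III)** class two groups are abelian -/
theorem class_two_comm (d : S3Data H ρ τ) {s : ℕ} [hs : Fact s.Prime]
    (hSH : S ≤ H) (hS : IsPGroup s S) (hc : ∀ x ∈ S, ∀ y ∈ S, ∀ z ∈ S, z * ⁅x, y⁆ = ⁅x, y⁆ * z)
    (hsK : (s : K) ≠ 0) (h6 : (6 : K) ≠ 0) (hA : ∀ v : M, π ρ v = v → π τ v = v → v = 0)
    (hfaith : ∀ x ∈ S, π x = 1 → x = 1) {x y : Γ} (hx : x ∈ S) (hy : y ∈ S) : x * y = y * x := by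
  classical
  by_cases hS1 : S = ⊥
  · rw [hS1, mem_bot] at hx hy
    rw [hx, hy]
  have hsd : s ∣ Nat.card H := by
    obtain ⟨e, he⟩ := hS.exists_card_eq
    refine dvd_trans ?_ (card_dvd_of_le hSH)
    rw [he]
    apply dvd_pow_self
    rintro rfl
    rw [pow_zero, card_eq_one] at he
    exact hS1 he
  have hcop := d.hcop
  have hs2 : s ≠ 2 := by
    rintro rfl
    have := Nat.dvd_gcd hsd (show 2 ∣ 6 by norm_num)
    rw [hcop] at this
    norm_num at this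
  have hs3 : s ≠ 3 := by
    rintro rfl
    have := Nat.dvd_gcd hsd (show 3 ∣ 6 by norm_num)
    rw [hcop] at this
    norm_num at this
  set Z := S ⊓ centralizer (S : Set Γ) with hZ
  have hZm : ∀ x, x ∈ Z ↔ x ∈ S ∧ ∀ y ∈ S, y * x = x * y := fun x => mem_Z
  have hcommZ : ∀ x ∈ S, ∀ y ∈ S, ⁅x, y⁆ ∈ Z := by
    intro x hx y hy
    rw [hZm]
    refine ⟨?_, fun z hz => hc x hx y hy z hz⟩
    rw [commutatorElement_def]
    exact mul_mem (mul_mem (mul_mem hx hy) (inv_mem hx)) (inv_mem hy)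
  have hZS : Z ≤ S := inf_le_left
  have hZH : Z ≤ H := hZS.trans hSH
  have hZK : (Nat.card Z : K) ≠ 0 := card_Z_ne hZS hs.out hS hsK
  have hZc : IsMulCommutative Z := by
    refine ⟨⟨fun a b => ?_⟩⟩
    apply Subtype.ext
    exact ((hZm b).mp b.2).2 a (hZS a.2)
  rw [← commutatorElement_eq_one_iff_mul_comm]
  apply hfaith _ (hZS (hcommZ x hx y hy))
  refine eq_one_of_weights π Z hZc hZK (b := ⟨⁅x, y⁆, hcommZ x hx y hy⟩) ?_
  intro χ hχ
  by_cases hρ : dualAct Z ρ χ = χ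
  · by_cases hτ : dualAct Z τ χ = χ
    · have h1 : χ = 1 := d.chi_eq_one hZH hρ hτ
      rw [h1]; rfl
    · exact d.class_two_rho π hs2 hs3 hSH hS hcommZ hsK h6 hA hZm hρ hτ hχ hx hy _
  · obtain ⟨a, ha, ha1, hafix⟩ := d.exists_stab π hZK h6 hA hχ
    obtain ⟨i, hi | hi⟩ := d.mem_cases ha
    · exfalso
      apply hρ
      obtain ⟨k, hk⟩ := d.zpow_mem_gen (i := i) (by rw [← hi]; exact ha1)
      have hk' : (ρ ^ i) ^ k = ρ := hk
      have h3 : ρ ∈ stabChi Z χ := by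
        rw [← hk']; exact zpow_mem (by rw [← hi]; exact hafix) k
      exact h3
    · subst hi
      refine (d.change i).class_two_tau π hs2 hs3 hSH hS hc hsK h6 ?_ hZm hafix hρ hχ hx hy _
      intro v h1 h2
      apply hA v h1
      have h3 : π (ρ ^ i) v = v := all_fix π (ρ := ρ) (τ := ρ) h1 h1 (zpow_mem (subset_closure (Set.mem_insert _ _)) i)
      have h4 : π ((ρ ^ i)⁻¹) v = v := by
        nth_rewrite 1 [← h3]
        rw [← Module.End.mul_apply, ← map_mul, inv_mul_cancel, map_one]; rfl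
      have h5 : τ = (ρ ^ i)⁻¹ * (ρ ^ i * τ) := by group
      rw [h5, map_mul, Module.End.mul_apply, h2, h4]

/-- central in `H` -/
theorem central_of_comm (d : S3Data H ρ τ) {B : Subgroup Γ} [B.Normal] (hBH : B ≤ H)
    (hBc : IsMulCommutative B) (hBK : (Nat.card B : K) ≠ 0) (h6 : (6 : K) ≠ 0)
    (hA : ∀ v : M, π ρ v = v → π τ v = v → v = 0) (hfaith : ∀ x ∈ H, π x = 1 → x = 1) {b h : Γ}
    (hb : b ∈ B) (hh : h ∈ H) : h * b = b * h := by
  have hb' : h * b * h⁻¹ ∈ B := (inferInstance : B.Normal).conj_mem b hb h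
  have h1 : h * b * h⁻¹ * b⁻¹ = 1 := by
    apply hfaith _ (hBH (mul_mem hb' (inv_mem hb)))
    refine eq_one_of_weights π B hBc hBK (b := ⟨h * b * h⁻¹ * b⁻¹, mul_mem hb' (inv_mem hb)⟩) ?_
    intro χ hχ
    have h2 := d.dualAct_eq π hBH hBK h6 hA hχ (inv_mem hh)
    have h3 : dualAct B h⁻¹ χ ⟨b, hb⟩ = χ ⟨h * b * h⁻¹, hb'⟩ := by
      rw [dualAct_apply_of_mem h⁻¹ χ hb (by rw [inv_inv]; exact hb')]
      simp only [inv_inv]
    have h4 : (⟨h * b * h⁻¹ * b⁻¹, mul_mem hb' (inv_mem hb)⟩ : B) = ⟨h * b * h⁻¹, hb'⟩ * ⟨b, hb⟩⁻¹ := rfl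
    rw [h4, map_mul, ← h3, h2, map_inv, mul_inv_cancel]
  have h5 := mul_inv_eq_one.mp h1
  exact mul_inv_eq_iff_eq_mul.mp h5

end S3Data

end Cfsg.Agent.H25
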