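import Mathlib
import Cfsg.Agent.H25.FpfS3d
import Cfsg.Agent.H25.FpfRed

/-!
The symmetric group of degree 3 acting without fixed points: the derived subgroup is nilpotent.
-/

set_option autoImplicit false

namespace Cfsg.Agent.H25

open Subgroup Module
open scoped commutatorElement

universe u

namespace S3Data

section

variable {K : Type*} [Field K] {Γ : Type*} [Group Γ] [Finite Γ] {H : Subgroup Γ} [hHn : H.Normal] {ρ τ : Γ}
variable {M : Type*} [AddCommGroup M] [Module K M] (π : Γ →* Module.End K M)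
variable [IsAlgClosed K] [FiniteDimensional K M]

theorem pgroup_central (d : S3Data H ρ τ) {s : ℕ} [hs : Fact s.Prime] {P : Subgroup Γ} (hPn : P.Normal)
    (hPH : P ≤ H) (hP : IsPGroup s P) (hsK : (s : K) ≠ 0) (h6 : (6 : K) ≠ 0)
    (hA : ∀ v : M, π ρ v = v → π τ v = v → v = 0) (hfaith : ∀ x ∈ H, π x = 1 → x = 1) :
    P ≤ centralizer (H : Set Γ) := by
  classical
  haveI := hPn
  set Z := P ⊓ centralizer (P : Set Γ) with hZ
  have hcen : ∀ B : Subgroup Γ, B.Normal → B ≤ P → IsMulCommutative B → B ≤ centralizer (H : Set Γ) := by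
    intro B hBn hBP hBc b hb
    haveI := hBn
    rw [mem_centralizer_iff]
    intro h hh
    exact d.central_of_comm π (hBP.trans hPH) hBc (card_Z_ne hBP hs.out hP hsK) h6 hA hfaith hb hh
  have hZc : ⁅Z, P⁆ = ⊥ := commutator_eq_bot_iff_le_centralizer.mpr inf_le_right
  have hclass : ⁅P, P⁆ ≤ Z := by
    by_contra hne
    obtain ⟨N, hN⟩ := (Set.toFinite {N : Subgroup Γ | N.Normal ∧ N ≤ ⁅P, P⁆ ∧ ¬ N ≤ Z}).exists_minimal
      ⟨⁅P, P⁆, inferInstance, le_rfl, hne⟩
    obtain ⟨h1, h2, h3⟩ := hN.prop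
    haveI := h1
    have hPP : ⁅P, P⁆ ≤ P := H23.commutator_le_of_le_normalizer le_normalizer
    have hNP : N ≤ P := h2.trans hPP
    have hN1 : N ≠ ⊥ := by rintro rfl; exact h3 bot_le
    have hlt : ⁅N, P⁆ < N := H23.commutator_lt_of_isPGroup (hP.to_le hNP) hP
      (by rw [normalizer_eq_top]; exact le_top) hN1
    have hNPZ : ⁅N, P⁆ ≤ Z := by
      by_contra h4
      exact absurd hlt (not_lt_of_ge (hN.le_of_le ⟨inferInstance, hlt.le.trans h2, h4⟩ hlt.le))
    have h5 : ⁅⁅N, P⁆, P⁆ = ⊥ := by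
      rw [eq_bot_iff, ← hZc]; exact commutator_mono hNPZ le_rfl
    have h6' : ⁅⁅P, N⁆, P⁆ = ⊥ := by rw [commutator_comm P N]; exact h5
    have h7 : ⁅⁅P, P⁆, N⁆ = ⊥ := commutator_commutator_eq_bot_of_rotate h6' h5
    have h8 : ⁅N, N⁆ = ⊥ := by
      rw [eq_bot_iff, ← h7]; exact commutator_mono h2 le_rfl
    have h9 : IsMulCommutative N := le_centralizer_iff_isMulCommutative.mp
      (commutator_eq_bot_iff_le_centralizer.mp h8)
    have h10 := hcen N h1 hNP h9
    apply h3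
    refine le_inf hNP (h10.trans ?_)
    exact centralizer_le hPH
  have hPc : IsMulCommutative P := by
    refine ⟨⟨fun a b => ?_⟩⟩
    apply Subtype.ext
    refine d.class_two_comm π hPH hP ?_ hsK h6 hA (fun x hx => hfaith x (hPH hx)) a.2 b.2
    intro x hx y hy z hz
    have h1 : ⁅x, y⁆ ∈ Z := hclass (commutator_mem_commutator hx hy)
    exact mem_centralizer_iff.mp h1.2 z hz
  exact hcen P hPn le_rfl hPc

end

theorem quot {Γ : Type*} [Group Γ] [Finite Γ] {H N : Subgroup Γ} [N.Normal] {ρ τ : Γ} (hNH : N ≤ H)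
    (d : S3Data H ρ τ) : S3Data (H.map (QuotientGroup.mk' N)) (QuotientGroup.mk' N ρ)
      (QuotientGroup.mk' N τ) := by
  have hcl : (closure {ρ, τ}).map (QuotientGroup.mk' N) =
      closure {QuotientGroup.mk' N ρ, QuotientGroup.mk' N τ} := by
    rw [MonoidHom.map_closure, Set.image_pair]
  refine ⟨by rw [← map_pow, d.hρ, map_one], by rw [← map_pow, d.hτ, map_one], ?_, ?_, ?_, ?_, ?_⟩
  · rw [← map_inv, ← map_mul, ← map_mul, d.hrel, map_inv]
  · exact Nat.Coprime.coprime_dvd_left (card_map_dvd _ _) d.hcop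
  · exact H1.isSolvable_map _ d.hsolv
  · intro g hg h1 h2
    have h3 := H23.map_inf_centralizer (A := closure {ρ, τ}) (G := H) (N := N) (d.cop le_rfl hNH)
      (Or.inr (H1.isSolvable_of_le hNH d.hsolv)) hNH
    have h4 : H ⊓ centralizer ((closure {ρ, τ} : Subgroup Γ) : Set Γ) = ⊥ := by
      rw [eq_bot_iff]
      rintro x ⟨hx1, hx2⟩
      rw [mem_bot]
      replace hx2 := mem_centralizer_iff.mp hx2
      exact d.hfix x hx1 (hx2 ρ (subset_closure (Or.inl rfl))) (hx2 τ (subset_closure (Or.inr rfl)))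
    rw [h4, Subgroup.map_bot, hcl] at h3
    have h5 : g ∈ (⊥ : Subgroup (Γ ⧸ N)) := by
      rw [h3]
      refine ⟨hg, ?_⟩
      show g ∈ centralizer _
      have h6 : closure {QuotientGroup.mk' N ρ, QuotientGroup.mk' N τ} ≤ centralizer {g} := by
        rw [closure_le]
        rintro u (hu | hu)
        · rw [hu, SetLike.mem_coe, mem_centralizer_singleton_iff]; exact h1
        · rw [Set.mem_singleton_iff] at hu
          rw [hu, SetLike.mem_coe, mem_centralizer_singleton_iff]; exact h2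
      rw [mem_centralizer_iff]
      intro u hu
      exact mem_centralizer_singleton_iff.mp (h6 hu)
    exact mem_bot.mp h5
  · rw [← hcl, ← Subgroup.map_sup, d.hsup, map_top_of_surjective _ (QuotientGroup.mk'_surjective N)]

theorem module_step {Γ : Type u} [Group Γ] [Finite Γ] {H N : Subgroup Γ} {ρ τ : Γ} (d : S3Data H ρ τ)
    (hH : H.Normal) (hN : N.Normal) (hNH : N ≤ H) (hne : N ≠ ⊥)
    (hmin : ∀ K : Subgroup Γ, K.Normal → K ≤ N → K = ⊥ ∨ K = N) :
    H.lowerCentralSeries 1 ≤ centralizer (N : Set Γ) := by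
  classical
  haveI := hH
  haveI := hN
  obtain ⟨r, hr, hrN, K, iF, iA, iC, M, iM1, iM2, iM3, π, hfaith, hchar, hfix⟩ :=
    exists_module hH hN hne hmin (H1.isSolvable_of_le hNH d.hsolv)
  set C := H ⊓ centralizer (N : Set Γ) with hC
  have d' := d.quot (N := C) inf_le_left
  have hr6 : Nat.Coprime 6 r := Nat.Coprime.coprime_dvd_right (hrN.trans (card_dvd_of_le hNH)) d.hcop.symm
  haveI : Fact r.Prime := ⟨hr⟩
  have h6 : (6 : K) ≠ 0 := by
    have h1 : ((6 : ℕ) : K) ≠ 0 := by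
      apply H1.cast_ne_zero_of_not_dvd (ℓ := r)
      intro h
      have := Nat.dvd_gcd h (dvd_refl r)
      rw [hr6] at this
      exact hr.one_lt.ne' (Nat.dvd_one.mp this)
    exact_mod_cast h1
  have hA : ∀ v : M, π (QuotientGroup.mk' C ρ) v = v → π (QuotientGroup.mk' C τ) v = v → v = 0 := by
    intro v h1 h2
    refine hfix (closure {ρ, τ}) (Nat.Coprime.coprime_dvd_left d.card_dvd hr6) ?_ v ?_
    · intro n hn h
      exact d.hfix n (hNH hn) (h ρ (subset_closure (Or.inl rfl))) (h τ (subset_closure (Or.inr rfl)))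
    · intro a ha
      refine all_fix π h1 h2 ?_
      have h3 : QuotientGroup.mk' C a ∈ (closure {ρ, τ}).map (QuotientGroup.mk' C) := ⟨a, ha, rfl⟩
      rwa [MonoidHom.map_closure, Set.image_pair] at h3
  haveI hHn' : (H.map (QuotientGroup.mk' C)).Normal := hH.map _ (QuotientGroup.mk'_surjective C)
  have h7 := comm_of_normal_pgroups (H := H.map (QuotientGroup.mk' C)) hHn' d'.hsolv (by
    intro s hs P hPn hPH hP
    by_cases hsK : (s : K) = 0
    · have h8 : r ∣ s := (CharP.cast_eq_zero_iff K r s).mp hsK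
      have h9 : r = s := (Nat.prime_dvd_prime_iff_eq hr hs.out).mp h8
      subst h9
      rw [hchar P hPn hPH hP]; exact bot_le
    · exact d'.pgroup_central π hPn hPH hP hsK h6 hA hfaith)
  rw [Subgroup.lowerCentralSeries_succ, Subgroup.lowerCentralSeries_zero]
  have h8 : ⁅H, H⁆ ≤ C := by
    rw [← H1.map_mk'_eq_bot_iff, map_commutator, commutator_eq_bot_iff_le_centralizer]
    exact h7
  exact h8.trans inf_le_right

theorem main {Γ : Type u} [Group Γ] [Finite Γ] {H : Subgroup Γ} {ρ τ : Γ} (d : S3Data H ρ τ)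
    (hH : H.Normal) : Group.IsNilpotent (⁅H, H⁆ : Subgroup Γ) := by
  obtain ⟨F, hF, hFH, hFn, k, hk, hkF⟩ := height_induction.{u} (fun k => k = 1) ⟨1, rfl⟩
    (fun {Γ} _ H => ∃ ρ τ, S3Data H ρ τ ∧ H.Normal)
    (fun {Γ} _ {H} ⟨ρ, τ, d, h⟩ => ⟨h, d.hsolv⟩)
    (fun {Γ} _ _ {H N} _ hNH ⟨ρ, τ, d, h⟩ => ⟨_, _, d.quot hNH, h.map _ (QuotientGroup.mk'_surjective N)⟩)
    (fun {Γ} _ _ {H N} ⟨ρ, τ, d, h⟩ hN hNH hne hmin => ⟨1, rfl, d.module_step h hN hNH hne hmin⟩)
    (Nat.card Γ) (H := H) le_rfl ⟨ρ, τ, d, hH⟩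
  subst hk
  rw [Subgroup.lowerCentralSeries_succ, Subgroup.lowerCentralSeries_zero] at hkF
  exact H1.isNilpotent_of_le hkF hFn

end S3Data

end Cfsg.Agent.H25
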