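import Mathlib
import Cfsg.Agent.H25.FpfS3e

/-!
The symmetric group of degree 3 acting without fixed points: abstract group action.
-/

set_option autoImplicit false

namespace Cfsg.Agent.H25

open Subgroup

universe u

theorem s3_abstract {G Γ : Type u} [Group G] [Finite G] (hsol : Group.IsSolvable G) [Group Γ] [Finite Γ]
    [MulDistribMulAction (Equiv.Perm (Fin 3)) G] (hcop : (Nat.card G).Coprime 6)
    (hfpf : ∀ g : G, (∀ a : Equiv.Perm (Fin 3), a • g = g) → g = 1)
    (i1 : G →* Γ) (i2 : Equiv.Perm (Fin 3) →* Γ) (hinj : Function.Injective i1)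
    (hn : i1.range.Normal) (hact : ∀ (a : Equiv.Perm (Fin 3)) (g : G), i2 a * i1 g = i1 (a • g) * i2 a)
    (hdec : ∀ x : Γ, ∃ g a, x = i1 g * i2 a) : Group.IsNilpotent ↥(commutator G) := by
  classical
  set H : Subgroup Γ := i1.range with hH
  haveI hHn : H.Normal := hn
  set ρ0 : Equiv.Perm (Fin 3) := finRotate 3 with hρ0
  set τ0 : Equiv.Perm (Fin 3) := Equiv.swap 0 1 with hτ0
  have hgen : ∀ a : Equiv.Perm (Fin 3), ∃ (i : Fin 3) (j : Fin 2), a = ρ0 ^ (i : ℕ) * τ0 ^ (j : ℕ) := by
    decide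
  have hcardH : Nat.card H = Nat.card G := by
    rw [hH]; exact (Nat.card_congr (MonoidHom.ofInjective hinj).toEquiv).symm
  have d : S3Data H (i2 ρ0) (i2 τ0) := by
    refine ⟨?_, ?_, ?_, by rw [hcardH]; exact hcop, ?_, ?_, ?_⟩
    · rw [← map_pow]
      have : ρ0 ^ 3 = 1 := by decide
      rw [this, map_one]
    · rw [← map_pow]
      have : τ0 ^ 2 = 1 := by decide
      rw [this, map_one]
    · rw [← map_inv, ← map_mul, ← map_mul]
      have : τ0 * ρ0 * τ0⁻¹ = ρ0⁻¹ := by decide
      rw [this, map_inv]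
    · exact H1.isSolvable_of_equiv (MonoidHom.ofInjective hinj) hsol
    · rintro _ ⟨g, rfl⟩ h1 h2
      rw [hact] at h1 h2
      have h3 : ρ0 • g = g := hinj (mul_right_cancel h1)
      have h4 : τ0 • g = g := hinj (mul_right_cancel h2)
      have h5 : g = 1 := by
        apply hfpf
        intro a
        have h6 : a ∈ MulAction.stabilizer (Equiv.Perm (Fin 3)) g := by
          obtain ⟨i, j, rfl⟩ := hgen a
          exact mul_mem (pow_mem h3 _) (pow_mem h4 _)
        exact h6
      rw [h5, map_one]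
    · have hρm : i2 ρ0 ∈ closure ({i2 ρ0, i2 τ0} : Set Γ) := subset_closure (Set.mem_insert _ _)
      have hτm : i2 τ0 ∈ closure ({i2 ρ0, i2 τ0} : Set Γ) :=
        subset_closure (Set.mem_insert_of_mem _ (Set.mem_singleton _))
      rw [eq_top_iff]
      intro x _
      obtain ⟨g, a, rfl⟩ := hdec x
      refine mul_mem (mem_sup_left ⟨_, rfl⟩) (mem_sup_right ?_)
      obtain ⟨i, j, h2⟩ := hgen a
      rw [h2, map_mul, map_pow, map_pow]
      exact mul_mem (pow_mem hρm _) (pow_mem hτm _)
  have h1 := d.main hHn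
  have h2 : (commutator G).map i1 = ⁅H, H⁆ := by
    rw [_root_.commutator_def, map_commutator, ← MonoidHom.range_eq_map]
  rw [← h2] at h1
  exact H1.isNilpotent_of_equiv ((commutator G).equivMapOfInjective i1 hinj).symm h1

end Cfsg.Agent.H25
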