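import Cfsg.Prelude
import Cfsg.Agent.H2.Cyc
import Cfsg.Agent.H25.ClassSize

set_option autoImplicit false
set_option linter.unusedSectionVars false
open Cfsg

/-!
# Frobenius' theorem on the number of solutions of `x ^ n ∈ C`
-/

namespace Cfsg.Agent.H25

open Subgroup

/-- divisibility of the cardinality of a finite set from divisibility of the fibers -/
theorem dvd_card_of_fiber {α β : Type*} [Finite α] (f : α → β) (n : ℕ)
    (h : ∀ a : α, n ∣ Nat.card {b : α // f b = f a}) : n ∣ Nat.card α := by
  classical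
  haveI := Fintype.ofFinite α
  rw [Nat.card_eq_fintype_card, ← Finset.card_univ,
    Finset.card_eq_sum_card_image f Finset.univ]
  apply Finset.dvd_sum
  intro b hb
  obtain ⟨a, -, rfl⟩ := Finset.mem_image.1 hb
  have := h a
  rwa [Nat.card_eq_fintype_card, Fintype.card_subtype] at this

section

variable {G : Type*} [Group G] [Finite G]

/-- the number of solutions of `x ^ n = c` -/
noncomputable def nsol (G : Type*) [Group G] (c : G) (n : ℕ) : ℕ := Nat.card {x : G // x ^ n = c}

theorem conj_pow_aux {G : Type*} [Group G] {g c x : G} {n : ℕ} (h : g * c * g⁻¹ = x ^ n) :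
    (g⁻¹ * x * g) ^ n = c := by
  have h2 : g⁻¹ * x * g = g⁻¹ * x * (g⁻¹)⁻¹ := by rw [inv_inv]
  rw [h2, conj_pow, inv_inv, ← h]
  group

/-- the number of solutions of `x ^ n ~ c` is the class size times the number of solutions of
`x ^ n = c`. -/
theorem card_isConj_pow (c : G) (n : ℕ) :
    Nat.card {x : G // IsConj c (x ^ n)} = Nat.card {y : G // IsConj c y} * nsol G c n := by
  classical
  have hex : ∀ y : {y : G // IsConj c y}, ∃ g : G, g * c * g⁻¹ = y := fun y => by
    obtain ⟨g, hg⟩ := isConj_iff.1 y.2
    exact ⟨g, hg⟩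
  choose g hg using hex
  rw [nsol, ← Nat.card_prod]
  apply Nat.card_congr
  refine
    { toFun := fun x => (⟨x.1 ^ n, x.2⟩, ⟨(g ⟨x.1 ^ n, x.2⟩)⁻¹ * x.1 * g ⟨x.1 ^ n, x.2⟩,
          conj_pow_aux (hg ⟨x.1 ^ n, x.2⟩)⟩)
      invFun := fun yz => ⟨g yz.1 * yz.2.1 * (g yz.1)⁻¹, by
        rw [conj_pow, yz.2.2, hg]
        exact yz.1.2⟩
      left_inv := ?_
      right_inv := ?_ }
  · rintro ⟨x, hx⟩
    apply Subtype.ext
    show g ⟨x ^ n, hx⟩ * ((g ⟨x ^ n, hx⟩)⁻¹ * x * g ⟨x ^ n, hx⟩) * (g ⟨x ^ n, hx⟩)⁻¹ = x
    group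
  · rintro ⟨y, z, hz⟩
    have h1 : (⟨(g y * z * (g y)⁻¹) ^ n, by rw [conj_pow, hz, hg]; exact y.2⟩ : {y : G // IsConj c y}) = y := by
      apply Subtype.ext
      show (g y * z * (g y)⁻¹) ^ n = y
      rw [conj_pow, hz, hg]
    apply Prod.ext
    · exact h1
    · apply Subtype.ext
      show (g ⟨(g y * z * (g y)⁻¹) ^ n, _⟩)⁻¹ * (g y * z * (g y)⁻¹) * g ⟨(g y * z * (g y)⁻¹) ^ n, _⟩ = z
      rw [h1]
      group

/-- solutions of `x ^ n = c` lie in the centralizer of `c`. -/
theorem nsol_centralizer (c : G) (n : ℕ) :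
    nsol G c n = nsol (centralizer ({c} : Set G)) ⟨c, mem_centralizer_singleton_iff.2 rfl⟩ n := by
  apply Nat.card_congr
  refine
    { toFun := fun x => ⟨⟨x.1, by
        obtain ⟨x, rfl⟩ := x
        rw [mem_centralizer_singleton_iff, ← pow_succ, ← pow_succ']⟩, Subtype.ext x.2⟩
      invFun := fun x => ⟨x.1.1, congrArg Subtype.val x.2⟩
      left_inv := fun x => rfl
      right_inv := fun x => rfl }

theorem card_class_mul (c : G) :
    Nat.card {y : G // IsConj c y} * Nat.card (centralizer ({c} : Set G)) = Nat.card G := by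
  rw [card_conj_eq_index, mul_comm, card_mul_index]

/-- translation by a central element -/
theorem nsol_central {d : G} (hd : d ∈ center G) (n : ℕ) : nsol G (d ^ n) n = nsol G 1 n := by
  apply Nat.card_congr
  have hc : ∀ (e : ℤ) (x : G), Commute (d ^ e) x := fun e x =>
    (mem_center_iff.1 ((center G).zpow_mem hd e) x).symm
  refine
    { toFun := fun x => ⟨d⁻¹ * x.1, ?_⟩
      invFun := fun x => ⟨d * x.1, ?_⟩
      left_inv := fun x => Subtype.ext (by simp)
      right_inv := fun x => Subtype.ext (by simp) }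
  · have h1 : Commute d⁻¹ x.1 := by
      have := hc (-1) x.1
      rwa [zpow_neg_one] at this
    rw [h1.mul_pow, x.2, inv_pow, inv_mul_cancel]
  · have h1 : Commute d x.1 := by
      have := hc 1 x.1
      rwa [zpow_one] at this
    rw [h1.mul_pow, x.2, mul_one]

theorem pow_dvd_orderOf {x : G} {p e : ℕ} (hp : p.Prime) (h : p ∣ orderOf (x ^ p ^ e)) :
    p ^ e ∣ orderOf x := by
  rw [orderOf_pow] at h
  obtain ⟨j, hj, hj2⟩ := (Nat.dvd_prime_pow hp).1 (Nat.gcd_dvd_right (orderOf x) (p ^ e))
  rw [hj2] at h
  rcases hj.lt_or_eq with hlt | rfl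
  · exfalso
    have h1 : p ^ j ∣ orderOf x := hj2 ▸ Nat.gcd_dvd_left _ _
    have h2 : p ^ (j + 1) ∣ orderOf x := by
      obtain ⟨k, hk⟩ := h1
      rw [hk, Nat.mul_div_cancel_left _ (pow_pos hp.pos j)] at h
      rw [hk, pow_succ]
      exact mul_dvd_mul_left _ h
    have h3 : p ^ (j + 1) ∣ Nat.gcd (orderOf x) (p ^ e) := Nat.dvd_gcd h2 (pow_dvd_pow p hlt)
    rw [hj2, Nat.pow_dvd_pow_iff_le_right hp.one_lt] at h3
    omega
  · exact hj2 ▸ Nat.gcd_dvd_left _ _

/-- the subgroup of order `p ^ e` of `⟨x⟩` -/
noncomputable def omegaSub (x : G) (m : ℕ) : Subgroup G := zpowers (x ^ (orderOf x / m))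

theorem card_omegaSub {x : G} {m : ℕ} (h : m ∣ orderOf x) : Nat.card (omegaSub x m) = m := by
  rw [omegaSub, Nat.card_zpowers]
  have h0 := orderOf_pos x
  obtain ⟨k, hk⟩ := h
  have hm : 0 < m := Nat.pos_of_ne_zero (by rintro rfl; rw [zero_mul] at hk; omega)
  have hk0 : k ≠ 0 := by rintro rfl; rw [mul_zero] at hk; omega
  rw [hk, Nat.mul_div_cancel_left _ hm, orderOf_pow_of_dvd hk0 (by rw [hk]; exact Dvd.intro_left _ rfl), hk]
  exact Nat.mul_div_cancel _ (Nat.pos_of_ne_zero hk0)

theorem omegaSub_le (x : G) (m : ℕ) : omegaSub x m ≤ zpowers x := by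
  rw [omegaSub, zpowers_le]
  exact npow_mem_zpowers x _

theorem omegaSub_eq {x y : G} {m : ℕ} (hx : m ∣ orderOf x) (hy : m ∣ orderOf y) (hyx : y ∈ zpowers x) :
    omegaSub y m = omegaSub x m := by
  have h1 : omegaSub y m ≤ zpowers x := (omegaSub_le y m).trans (by rw [zpowers_le]; exact hyx)
  have h2 := omegaSub_le x m
  have h3 : (omegaSub y m).subgroupOf (zpowers x) = (omegaSub x m).subgroupOf (zpowers x) := by
    apply H2.eq_of_card_eq_of_isCyclic
    rw [Nat.card_congr (subgroupOfEquivOfLe h1).toEquiv, Nat.card_congr (subgroupOfEquivOfLe h2).toEquiv,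
      card_omegaSub hx, card_omegaSub hy]
  have h4 := congrArg (Subgroup.map (zpowers x).subtype) h3
  rwa [subgroupOf_map_subtype, subgroupOf_map_subtype, inf_eq_left.2 h1, inf_eq_left.2 h2] at h4

theorem nsol_of_dvd {c : G} {p : ℕ} (hp : p.Prime) (e : ℕ) (hc : p ∣ orderOf c) :
    p ^ e ∣ nsol G c (p ^ e) := by
  apply dvd_card_of_fiber (fun x : {x : G // x ^ p ^ e = c} =>
    ({y : G | x.1⁻¹ * y ∈ omegaSub x.1 (p ^ e)} : Set G))
  rintro ⟨x, hx⟩
  have hd : ∀ {y : G}, y ^ p ^ e = c → p ^ e ∣ orderOf y := fun {y} hy =>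
    pow_dvd_orderOf hp (by rw [hy]; exact hc)
  have hkey : Nat.card {b : {x : G // x ^ p ^ e = c} //
      ({y : G | b.1⁻¹ * y ∈ omegaSub b.1 (p ^ e)} : Set G) =
        {y : G | x⁻¹ * y ∈ omegaSub x (p ^ e)}} = Nat.card (omegaSub x (p ^ e)) := by
    apply Nat.card_congr
    refine
      { toFun := fun b => ⟨x⁻¹ * b.1.1, ?_⟩
        invFun := fun t => ⟨⟨x * t.1, ?_⟩, ?_⟩
        left_inv := fun b => Subtype.ext (Subtype.ext (by simp))
        right_inv := fun t => Subtype.ext (by simp) }
    · have h1 : b.1.1 ∈ ({y : G | b.1.1⁻¹ * y ∈ omegaSub b.1.1 (p ^ e)} : Set G) := by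
        show b.1.1⁻¹ * b.1.1 ∈ omegaSub b.1.1 (p ^ e)
        rw [inv_mul_cancel]; exact one_mem _
      rw [b.2] at h1
      exact h1
    · have ht : (t : G) ∈ zpowers x := omegaSub_le x _ t.2
      obtain ⟨k, hk⟩ := ht
      have hcomm : Commute x (t : G) := by
        rw [← hk]; exact (Commute.refl x).zpow_right k
      have ht2 : (t : G) ^ p ^ e = 1 := by
        have := pow_card_eq_one' (x := t)
        rw [card_omegaSub (hd hx)] at this
        exact congrArg Subtype.val this
      rw [hcomm.mul_pow, hx, ht2, mul_one]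
    · have ht : (t : G) ∈ zpowers x := omegaSub_le x _ t.2
      have hxt : x * (t : G) ∈ zpowers x := mul_mem (mem_zpowers x) ht
      have hcomm : Commute x (t : G) := by
        obtain ⟨k, hk⟩ := ht
        rw [← hk]; exact (Commute.refl x).zpow_right k
      have ht2 : (t : G) ^ p ^ e = 1 := by
        have := pow_card_eq_one' (x := t)
        rw [card_omegaSub (hd hx)] at this
        exact congrArg Subtype.val this
      have hsol : (x * (t : G)) ^ p ^ e = c := by
        rw [hcomm.mul_pow, hx, ht2, mul_one]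
      have h2 := omegaSub_eq (hd hx) (hd hsol) hxt
      ext y
      show (x * (t : G))⁻¹ * y ∈ omegaSub (x * (t : G)) (p ^ e) ↔ x⁻¹ * y ∈ omegaSub x (p ^ e)
      rw [h2, mul_inv_rev, mul_assoc]
      exact (omegaSub x (p ^ e)).mul_mem_cancel_left (inv_mem t.2)
  rw [hkey, card_omegaSub (hd hx)]

theorem isConj_central_iff {c : G} (hc : c ∈ center G) (y : G) : IsConj c y ↔ y = c := by
  constructor
  · intro h
    obtain ⟨g, hg⟩ := isConj_iff.1 h
    rw [← hg, mem_center_iff.1 hc g, mul_inv_cancel_right]
  · rintro rfl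
    exact IsConj.refl _

theorem card_isConj_pow_central {c : G} (hc : c ∈ center G) (n : ℕ) :
    Nat.card {x : G // IsConj c (x ^ n)} = nsol G c n :=
  Nat.card_congr (Equiv.subtypeEquivRight fun x => isConj_central_iff hc _)

end

theorem nsol_dvd_aux.{u} (N : ℕ) : ∀ (G : Type u) [Group G] [Finite G], Nat.card G = N →
    ∀ (n : ℕ) (c : G), c ∈ center G → Nat.gcd n (Nat.card G) ∣ nsol G c n := by
  induction N using Nat.strong_induction_on with
  | _ N ihN =>
    intro G _ _ hN n
    -- noncentral elements
    have hnc : ∀ (m : ℕ) (c : G), c ∉ center G →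
        Nat.gcd m (Nat.card G) ∣ Nat.card {x : G // IsConj c (x ^ m)} := by
      intro m c hc
      have h1 := card_class_mul c
      rw [card_isConj_pow, nsol_centralizer]
      have h2 : Nat.card (centralizer ({c} : Set G)) < N := by
        rw [← hN]
        apply lt_of_le_of_ne (Nat.le_of_dvd Nat.card_pos (card_subgroup_dvd_card _))
        intro h
        apply hc
        have h3 := eq_top_of_card_eq _ h
        rw [mem_center_iff]
        intro g
        have : g ∈ centralizer ({c} : Set G) := by rw [h3]; trivial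
        exact mem_centralizer_singleton_iff.1 this
      have h3 := ihN _ h2 (centralizer ({c} : Set G)) rfl m ⟨c, mem_centralizer_singleton_iff.2 rfl⟩ (by
        rw [mem_center_iff]
        rintro ⟨g, hg⟩
        exact Subtype.ext (mem_centralizer_singleton_iff.1 hg))
      refine dvd_trans ?_ (mul_dvd_mul_left _ h3)
      rw [← Nat.gcd_mul_left, h1]
      exact Nat.gcd_dvd_gcd_of_dvd_left _ (Dvd.intro_left _ rfl)
    induction n using Nat.strong_induction_on with
    | _ n ihn =>
      intro c hc
      rcases Nat.eq_zero_or_pos n with rfl | hn0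
      · rw [Nat.gcd_zero_left]
        by_cases hc1 : c = 1
        · rw [nsol]
          have : Nat.card {x : G // x ^ 0 = c} = Nat.card G := by
            apply Nat.card_congr
            exact Equiv.subtypeUnivEquiv (fun x => by rw [pow_zero, hc1])
          rw [this]
        · have : nsol G c 0 = 0 := by
            rw [nsol, Nat.card_eq_zero]
            left
            exact ⟨fun x => hc1 (by have := x.2; rw [pow_zero] at this; exact this.symm)⟩
          rw [this]
          exact dvd_zero _
      by_cases hn1 : n = 1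
      · rw [hn1, Nat.gcd_one_left]; exact one_dvd _
      have hall : ∀ m, m < n → ∀ c : G, Nat.gcd m (Nat.card G) ∣ Nat.card {x : G // IsConj c (x ^ m)} := by
        intro m hm c
        by_cases hc : c ∈ center G
        · rw [card_isConj_pow_central hc]
          exact ihn m hm c hc
        · exact hnc m c hc
      -- composite exponent
      have hcomp : ∀ n1 n2 : ℕ, n = n1 * n2 → n2 < n → Nat.gcd n2 (Nat.card G) ∣ nsol G c n := by
        intro n1 n2 hn12 hlt
        apply dvd_card_of_fiber (fun x : {x : G // x ^ n = c} => ConjClasses.mk (x.1 ^ n2))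
        rintro ⟨a, ha⟩
        have h1 : Nat.card {b : {x : G // x ^ n = c} // ConjClasses.mk (b.1 ^ n2) = ConjClasses.mk (a ^ n2)} =
            Nat.card {x : G // IsConj (a ^ n2) (x ^ n2)} := by
          apply Nat.card_congr
          refine
            { toFun := fun b => ⟨b.1.1, (ConjClasses.mk_eq_mk_iff_isConj.1 b.2).symm⟩
              invFun := fun x => ⟨⟨x.1, ?_⟩, (ConjClasses.mk_eq_mk_iff_isConj.2 x.2).symm⟩
              left_inv := fun b => rfl
              right_inv := fun x => rfl }
          have h2 : IsConj ((a ^ n2) ^ n1) ((x.1 ^ n2) ^ n1) := x.2.pow n1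
          rw [← pow_mul, ← pow_mul, mul_comm n2 n1, ← hn12, ha] at h2
          exact (isConj_central_iff hc _).1 h2
        rw [h1]
        exact hall n2 hlt _
      have hprime := Nat.minFac_prime hn1
      set p := n.minFac with hp
      haveI : Fact p.Prime := ⟨hprime⟩
      obtain ⟨e, m, hm, hnm⟩ := Nat.exists_eq_pow_mul_and_not_dvd hn0.ne' p hprime.ne_one
      have he : e ≠ 0 := by
        rintro rfl
        rw [pow_zero, one_mul] at hnm
        exact hm (hnm ▸ Nat.minFac_dvd n)
      by_cases hm1 : m = 1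
      · -- prime power
        rw [hm1, mul_one] at hnm
        by_cases hpc : p ∣ orderOf c
        · rw [hnm]
          exact (Nat.gcd_dvd_left _ _).trans (nsol_of_dvd hprime e hpc)
        -- the central `p'`-elements
        let Z : Subgroup G :=
          { carrier := {z | z ∈ center G ∧ (orderOf z).Coprime p}
            one_mem' := ⟨one_mem _, by rw [orderOf_one]; exact Nat.coprime_one_left _⟩
            mul_mem' := by
              rintro x y ⟨hx, hx'⟩ ⟨hy, hy'⟩
              refine ⟨mul_mem hx hy, ?_⟩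
              have hxy : Commute x y := (mem_center_iff.1 hx y).symm
              exact Nat.Coprime.coprime_dvd_left hxy.orderOf_mul_dvd_mul_orderOf (hx'.mul_left hy')
            inv_mem' := by
              rintro x ⟨hx, hx'⟩
              exact ⟨inv_mem hx, by rw [orderOf_inv]; exact hx'⟩ }
        have hZmem : ∀ z, z ∈ Z ↔ z ∈ center G ∧ (orderOf z).Coprime p := fun z => Iff.rfl
        have hZp : (Nat.card Z).Coprime p := by
          rw [Nat.coprime_comm, Nat.Prime.coprime_iff_not_dvd hprime]
          intro hd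
          obtain ⟨z, hz⟩ := exists_prime_orderOf_dvd_card' (G := Z) p hd
          have h1 := z.2.2
          rw [orderOf_coe, hz] at h1
          exact hprime.one_lt.ne' ((Nat.coprime_self p).1 h1)
        have hZn : (Nat.card Z).Coprime n := by
          rw [hnm]; exact hZp.pow_right e
        have hcZ : c ∈ Z := ⟨hc, by
          rw [Nat.coprime_comm, Nat.Prime.coprime_iff_not_dvd hprime]; exact hpc⟩
        have hred : nsol G c n = nsol G 1 n := by
          obtain ⟨d, hd⟩ := (powCoprime hZn).surjective ⟨c, hcZ⟩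
          have hd' : (d : G) ^ n = c := congrArg Subtype.val hd
          rw [← hd']
          exact nsol_central d.2.1 n
        rw [hred]
        -- count
        have hcount1 : Nat.card {x : G // x ^ n ∈ Z} = Nat.card Z * nsol G 1 n := by
          rw [nsol, ← Nat.card_prod]
          apply Nat.card_congr
          have hcomm : ∀ (z : Z) (x : G), Commute (z : G) x := fun z x =>
            (mem_center_iff.1 z.2.1 x).symm
          have hpow : ∀ y : Z, (((powCoprime hZn).symm y : Z) : G) ^ n = y := fun y =>
            congrArg Subtype.val ((powCoprime hZn).apply_symm_apply y)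
          refine
            { toFun := fun x => ((powCoprime hZn).symm ⟨x.1 ^ n, x.2⟩,
                ⟨(((powCoprime hZn).symm ⟨x.1 ^ n, x.2⟩ : Z) : G)⁻¹ * x.1, ?_⟩)
              invFun := fun dx => ⟨(dx.1 : G) * dx.2.1, ?_⟩
              left_inv := fun x => Subtype.ext (by simp)
              right_inv := ?_ }
          · rw [((hcomm _ x.1).inv_left).mul_pow, inv_pow, hpow]
            exact inv_mul_cancel _
          · rw [(hcomm _ _).mul_pow, dx.2.2, mul_one]
            exact pow_mem dx.1.2 n
          · rintro ⟨d, x, hx⟩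
            have h1 : (powCoprime hZn).symm ⟨((d : G) * x) ^ n, by
                rw [(hcomm _ _).mul_pow, hx, mul_one]; exact pow_mem d.2 n⟩ = d := by
              rw [Equiv.symm_apply_eq]
              apply Subtype.ext
              show ((d : G) * x) ^ n = (d : G) ^ n
              rw [(hcomm _ _).mul_pow, hx, mul_one]
            apply Prod.ext
            · exact h1
            · apply Subtype.ext
              show (((powCoprime hZn).symm ⟨((d : G) * x) ^ n, _⟩ : Z) : G)⁻¹ * ((d : G) * x) = x
              rw [h1, inv_mul_cancel_left]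
        have hcount2 : Nat.gcd n (Nat.card G) ∣ Nat.card {x : G // ¬ x ^ n ∈ Z} := by
          apply dvd_card_of_fiber (fun x : {x : G // ¬ x ^ n ∈ Z} => ConjClasses.mk (x.1 ^ n))
          rintro ⟨a, ha⟩
          have h1 : Nat.card {b : {x : G // ¬ x ^ n ∈ Z} // ConjClasses.mk (b.1 ^ n) = ConjClasses.mk (a ^ n)} =
              Nat.card {x : G // IsConj (a ^ n) (x ^ n)} := by
            apply Nat.card_congr
            refine
              { toFun := fun b => ⟨b.1.1, (ConjClasses.mk_eq_mk_iff_isConj.1 b.2).symm⟩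
                invFun := fun x => ⟨⟨x.1, ?_⟩, (ConjClasses.mk_eq_mk_iff_isConj.2 x.2).symm⟩
                left_inv := fun b => rfl
                right_inv := fun x => rfl }
            intro hx
            apply ha
            have h2 := (isConj_central_iff hx.1 _).1 x.2.symm
            rw [h2]; exact hx
          rw [h1]
          by_cases hac : a ^ n ∈ center G
          · rw [card_isConj_pow_central hac, hnm]
            have h3 : p ∣ orderOf (a ^ n) := by
              by_contra h4
              apply ha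
              exact ⟨hac, by rw [Nat.coprime_comm, Nat.Prime.coprime_iff_not_dvd hprime]; exact h4⟩
            rw [hnm] at h3
            exact (Nat.gcd_dvd_left _ _).trans (nsol_of_dvd hprime e h3)
          · exact hnc n _ hac
        have hsum : Nat.card {x : G // x ^ n ∈ Z} + Nat.card {x : G // ¬ x ^ n ∈ Z} = Nat.card G := by
          classical
          rw [← Nat.card_sum]
          exact Nat.card_congr (Equiv.sumCompl _)
        have h4 : Nat.gcd n (Nat.card G) ∣ Nat.card Z * nsol G 1 n := by
          rw [← hcount1]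
          refine (Nat.dvd_add_left hcount2).1 ?_
          rw [hsum]
          exact Nat.gcd_dvd_right _ _
        refine Nat.Coprime.dvd_of_dvd_mul_left ?_ h4
        exact Nat.Coprime.coprime_dvd_left (Nat.gcd_dvd_left _ _) hZn.symm
      · -- two coprime factors
        have hm0 : m ≠ 0 := by rintro rfl; rw [mul_zero] at hnm; omega
        have hpe : 1 < p ^ e := Nat.one_lt_pow he hprime.one_lt
        have hcop : (p ^ e).Coprime m := Nat.Coprime.pow_left e
          ((Nat.Prime.coprime_iff_not_dvd hprime).2 hm)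
        have h1 := hcomp (p ^ e) m hnm (by
          rw [hnm]
          exact lt_mul_of_one_lt_left (Nat.pos_of_ne_zero hm0) hpe)
        have h2 := hcomp m (p ^ e) (by rw [hnm, mul_comm]) (by
          rw [hnm]
          exact lt_mul_of_one_lt_right (by omega) (by omega))
        have h3 : Nat.gcd n (Nat.card G) = Nat.gcd (p ^ e) (Nat.card G) * Nat.gcd m (Nat.card G) := by
          rw [hnm, Nat.gcd_comm, Nat.Coprime.gcd_mul _ hcop, Nat.gcd_comm (p ^ e), Nat.gcd_comm m]
        rw [h3]
        exact Nat.Coprime.mul_dvd_of_dvd_of_dvd (Nat.Coprime.coprime_dvd_left (Nat.gcd_dvd_left _ _)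
          (Nat.Coprime.coprime_dvd_right (Nat.gcd_dvd_left _ _) hcop)) h2 h1

/-- **Frobenius**: the number of solutions of `x ^ n ∈ C`. -/
theorem card_isConj_pow_dvd {G : Type*} [Group G] [Finite G] (c : G) (n : ℕ) :
    Nat.gcd (Nat.card {y : G // IsConj c y} * n) (Nat.card G) ∣
      Nat.card {x : G // IsConj c (x ^ n)} := by
  rw [card_isConj_pow, nsol_centralizer, ← card_class_mul c, Nat.gcd_mul_left]
  apply mul_dvd_mul_left
  apply nsol_dvd_aux _ _ rfl
  rw [mem_center_iff]
  rintro ⟨g, hg⟩
  exact Subtype.ext (mem_centralizer_singleton_iff.1 hg)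

/-- **Frobenius**: the number of solutions of `x ^ n = 1`. -/
theorem card_pow_eq_one_dvd {G : Type*} [Group G] [Finite G] (n : ℕ) :
    Nat.gcd n (Nat.card G) ∣ Nat.card {x : G // x ^ n = 1} :=
  nsol_dvd_aux _ G rfl n 1 (one_mem _)

end Cfsg.Agent.H25
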