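import Cfsg.Prelude
import Cfsg.Agent.H25.FrobExt2

set_option autoImplicit false
open Cfsg

/-!
# Quaternion lifts, and fixed-point-free representations in characteristic `q`
-/

namespace Cfsg.Agent.H25

section quat

variable (n : ℕ) [NeZero n] {G : Type*} [Group G] (A X : G)

/-- powers indexed by `ZMod (2 n)` -/
def qpow (i : ZMod (2 * n)) : G := A ^ i.val

theorem qpow_add (hA : A ^ (2 * n) = 1) (i j : ZMod (2 * n)) :
    qpow n A (i + j) = qpow n A i * qpow n A j := by
  haveI : NeZero (2 * n) := ⟨by have := NeZero.ne n; omega⟩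
  rw [qpow, qpow, qpow, ZMod.val_add, ← pow_add]
  have h1 := Nat.mod_add_div (i.val + j.val) (2 * n)
  conv_rhs => rw [← h1, pow_add, pow_mul, hA, one_pow, mul_one]

theorem qpow_zero : qpow n A 0 = 1 := by
  rw [qpow, ZMod.val_zero, pow_zero]

theorem qpow_neg (hA : A ^ (2 * n) = 1) (i : ZMod (2 * n)) : qpow n A (-i) = (qpow n A i)⁻¹ := by
  rw [eq_inv_iff_mul_eq_one, ← qpow_add n A hA, neg_add_cancel, qpow_zero]

theorem qpow_nat : qpow n A (n : ZMod (2 * n)) = A ^ n := by
  have := NeZero.pos n
  rw [qpow, ZMod.val_natCast, Nat.mod_eq_of_lt (by omega)]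

theorem qpow_one (hA : A ^ (2 * n) = 1) : qpow n A 1 = A := by
  have := NeZero.pos n
  haveI : Fact (1 < 2 * n) := ⟨by omega⟩
  rw [qpow, ZMod.val_one, pow_one]

/-- The homomorphism from a generalized quaternion group given by its presentation. -/
def quatLift (hA : A ^ (2 * n) = 1) (hX : X * X = A ^ n) (hAX : A * X = X * A⁻¹) :
    QuaternionGroup n →* G :=
  MonoidHom.mk' (fun x => match x with
    | .a i => qpow n A i
    | .xa i => X * qpow n A i) (by
    have key : ∀ i : ZMod (2 * n), qpow n A i * X = X * qpow n A (-i) := by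
      intro i
      rw [qpow_neg n A hA, qpow]
      have : ∀ k : ℕ, A ^ k * X = X * (A ^ k)⁻¹ := by
        intro k
        induction k with
        | zero => simp
        | succ k ih =>
          rw [pow_succ, mul_assoc, hAX, ← mul_assoc, ih, mul_inv_rev, mul_assoc, ← mul_inv_rev,
            ← mul_inv_rev, ← pow_succ, ← pow_succ']
      exact this _
    intro x y
    cases x with
    | a i =>
      cases y with
      | a j =>
        rw [QuaternionGroup.a_mul_a]
        exact qpow_add n A hA i j
      | xa j =>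
        rw [QuaternionGroup.a_mul_xa]
        show X * qpow n A (j - i) = qpow n A i * (X * qpow n A j)
        rw [← mul_assoc, key, mul_assoc, ← qpow_add n A hA, neg_add_eq_sub]
    | xa i =>
      cases y with
      | a j =>
        rw [QuaternionGroup.xa_mul_a]
        show X * qpow n A (i + j) = X * qpow n A i * qpow n A j
        rw [mul_assoc, ← qpow_add n A hA]
      | xa j =>
        rw [QuaternionGroup.xa_mul_xa]
        show qpow n A (n + j - i) = X * qpow n A i * (X * qpow n A j)
        rw [mul_assoc, ← mul_assoc (qpow n A i), key, mul_assoc, ← qpow_add n A hA, ← mul_assoc,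
          hX, ← qpow_nat n A, ← qpow_add n A hA]
        congr 1
        abel)

theorem quatLift_a (hA : A ^ (2 * n) = 1) (hX : X * X = A ^ n) (hAX : A * X = X * A⁻¹)
    (i : ZMod (2 * n)) : quatLift n A X hA hX hAX (.a i) = qpow n A i := rfl

theorem quatLift_xa (hA : A ^ (2 * n) = 1) (hX : X * X = A ^ n) (hAX : A * X = X * A⁻¹)
    (i : ZMod (2 * n)) : quatLift n A X hA hX hAX (.xa i) = X * qpow n A i := rfl

theorem quatLift_injective (hA : A ^ (2 * n) = 1) (hX : X * X = A ^ n) (hAX : A * X = X * A⁻¹)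
    (hord : orderOf A = 2 * n) (hXn : X ∉ Subgroup.zpowers A) :
    Function.Injective (quatLift n A X hA hX hAX) := by
  haveI : NeZero (2 * n) := ⟨by have := NeZero.ne n; omega⟩
  rw [injective_iff_map_eq_one]
  intro x hx
  cases x with
  | a i =>
    rw [quatLift_a, qpow] at hx
    have h1 := orderOf_dvd_of_pow_eq_one hx
    rw [hord] at h1
    have h2 := Nat.eq_zero_of_dvd_of_lt h1 i.val_lt
    rw [(ZMod.val_eq_zero i).1 h2]
    rfl
  | xa i =>
    exfalso
    apply hXn
    rw [quatLift_xa] at hx
    rw [eq_inv_of_mul_eq_one_left hx]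
    exact inv_mem (Subgroup.npow_mem_zpowers A _)

end quat

theorem frobExt_sl2_rep {H : Type*} [Group H] [Finite H] {q : ℕ} [Fact q.Prime]
    (f : H →* Matrix.SpecialLinearGroup (Fin 2) (ZMod q)) (hf : Function.Injective f)
    (hq : (Nat.card H).Coprime q) :
    ∃ ρ : H →* AddMonoid.End (Fin 2 → ZMod q), ∀ h : H, h ≠ 1 → ∀ v, ρ h v = v → v = 0 := by
  let ρ : H →* AddMonoid.End (Fin 2 → ZMod q) :=
    { toFun := fun h =>
        { toFun := fun v => (f h).1.mulVec v
          map_zero' := Matrix.mulVec_zero _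
          map_add' := fun v w => Matrix.mulVec_add _ v w }
      map_one' := by
        ext1 v
        show (f 1).1.mulVec v = v
        rw [map_one, Matrix.SpecialLinearGroup.coe_one, Matrix.one_mulVec]
      map_mul' := fun a b => by
        ext1 v
        show (f (a * b)).1.mulVec v = (f a).1.mulVec ((f b).1.mulVec v)
        rw [map_mul, Matrix.SpecialLinearGroup.coe_mul, Matrix.mulVec_mulVec] }
  refine ⟨ρ, ?_⟩
  intro h hh v hv
  by_contra hv0
  have h1 := sl2_fix_pow (f h) v hv0 hv
  rw [← map_pow, ← map_one f] at h1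
  have h2 := hf h1
  apply hh
  rw [← orderOf_eq_one_iff]
  exact Nat.eq_one_of_dvd_coprimes hq (orderOf_dvd_natCard h) (orderOf_dvd_of_pow_eq_one h2)

/-- `H` has a fixed-point-free action on an abelian group of order `m`. -/
def FpfCard (H : Type*) [Group H] (m : ℕ) : Prop :=
  ∃ (M : Type) (_ : AddCommGroup M) (_ : Finite M) (ρ : H →* AddMonoid.End M),
    (∀ h : H, h ≠ 1 → ∀ v, ρ h v = v → v = 0) ∧ Nat.card M = m

theorem FpfCard.one (H : Type*) [Group H] : FpfCard H 1 :=
  ⟨PUnit, inferInstance, inferInstance, 1, fun _ _ _ _ => rfl, by simp⟩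

theorem FpfCard.mul {H : Type*} [Group H] {m n : ℕ} (hm : FpfCard H m) (hn : FpfCard H n) :
    FpfCard H (m * n) := by
  obtain ⟨M, i1, i2, ρ, h1, h2⟩ := hm
  obtain ⟨N, i3, i4, σ, h3, h4⟩ := hn
  refine ⟨M × N, inferInstance, inferInstance,
    { toFun := fun h => AddMonoidHom.prodMap (ρ h) (σ h)
      map_one' := by rw [map_one, map_one]; rfl
      map_mul' := fun a b => by rw [map_mul, map_mul]; rfl }, ?_, ?_⟩
  · rintro h hh ⟨v, w⟩ hv
    have e1 : ρ h v = v := congrArg Prod.fst hv
    have e2 : σ h w = w := congrArg Prod.snd hv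
    exact Prod.ext (h1 h hh v e1) (h3 h hh w e2)
  · rw [Nat.card_prod, h2, h4]

theorem FpfCard.exists_frob {H : Type*} [Group H] [Finite H] [Nontrivial H] {m : ℕ}
    (hm : FpfCard H m) (hm1 : 1 < m) :
    ∃ (L : Type) (_ : Group L) (_ : Finite L) (K : Subgroup L), IsFrobeniusComplement K ∧
      Nonempty (H ≃* K) ∧ Nat.card (frobeniusKernel K) = m := by
  obtain ⟨M, i1, i2, ρ, h1, h2⟩ := hm
  have : Nontrivial M := by
    rw [← Finite.one_lt_card_iff_nontrivial, h2]
    exact hm1
  rw [← h2]
  exact frobExt_distrib inferInstance this ρ h1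

end Cfsg.Agent.H25
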