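import Cfsg.Agent.H2.TateCor

/-!
# Hall–Wielandt: cocycle computations
-/

set_option autoImplicit false
set_option linter.style.haveILetI false
set_option linter.unusedVariables false

namespace Cfsg.Agent.H25.HW

open Subgroup
open scoped commutatorElement

section cocycle
variable {G X A : Type*} [Group G] [MulAction G X] [CommGroup A]

def IsCoc (c : G → X → A) : Prop := ∀ (g h : G) (q : X), c (g * h) q = c g (h • q) * c h q

theorem IsCoc.one {c : G → X → A} (hc : IsCoc c) (q : X) : c 1 q = 1 := by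
  have h := hc 1 1 q
  rw [one_smul, mul_one] at h
  exact left_eq_mul.1 h

theorem prod_smul {c : X → A} {h : G} {S : Finset X} (hh : ∀ q ∈ S, h • q ∈ S) :
    ∏ q ∈ S, c (h • q) = ∏ q ∈ S, c q := by
  classical
  have h1 : S.image (fun q => h • q) = S := by
    apply Finset.eq_of_subset_of_card_le
    · intro q hq
      obtain ⟨q', hq', rfl⟩ := Finset.mem_image.1 hq
      exact hh q' hq'
    · rw [Finset.card_image_of_injective _ (MulAction.injective h)]
  conv_rhs => rw [← h1]
  rw [Finset.prod_image (fun a _ b _ hab => MulAction.injective h hab)]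

theorem prod_mul {c : G → X → A} (hc : IsCoc c) {g h : G} {S : Finset X} (hh : ∀ q ∈ S, h • q ∈ S) :
    ∏ q ∈ S, c (g * h) q = (∏ q ∈ S, c g q) * ∏ q ∈ S, c h q := by
  rw [Finset.prod_congr rfl (fun q _ => hc g h q), Finset.prod_mul_distrib, prod_smul hh]

theorem coc_pow {c : G → X → A} (hc : IsCoc c) (u : G) (q : X) (n : ℕ) :
    c (u ^ n) q = ∏ i ∈ Finset.range n, c u (u ^ i • q) := by
  induction n with
  | zero => rw [pow_zero, hc.one, Finset.range_zero, Finset.prod_empty]
  | succ n ih => rw [pow_succ', hc, ih, Finset.prod_range_succ, mul_comm]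

theorem lemA [Finite G] {c : G → X → A} (hc : IsCoc c) (u : G) : ∀ (n : ℕ) (S : Finset X), S.card = n →
    (∀ q ∈ S, u • q ∈ S) → (∀ q ∈ S, c (u ^ Function.minimalPeriod (fun x : X => u • x) q) q = 1) →
    ∏ q ∈ S, c u q = 1 := by
  classical
  intro n
  induction n using Nat.strong_induction_on with
  | _ n ih =>
    intro S hn hS hq
    rcases S.eq_empty_or_nonempty with h0 | ⟨q, hqS⟩
    · rw [h0, Finset.prod_empty]
    set f := Function.minimalPeriod (fun x : X => u • x) q with hf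
    have hiter : ∀ (i : ℕ) (x : X), (fun x : X => u • x)^[i] x = u ^ i • x := fun i x => by
      rw [smul_iterate]
    have hfpos : 0 < f := by
      apply Function.minimalPeriod_pos_of_mem_periodicPts
      refine ⟨orderOf u, orderOf_pos u, ?_⟩
      show (fun x : X => u • x)^[orderOf u] q = q
      rw [hiter, pow_orderOf_eq_one, one_smul]
    have hfq : u ^ f • q = q := by
      rw [← hiter]; exact Function.iterate_minimalPeriod
    have hinj : Set.InjOn (fun i : ℕ => u ^ i • q) (Finset.range f : Set ℕ) := by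
      intro i hi j hj hij
      have h1 := Function.iterate_injOn_Iio_minimalPeriod (f := fun x : X => u • x) (x := q)
      apply h1 (by simpa using hi) (by simpa using hj)
      simp only [hiter]; exact hij
    set O : Finset X := (Finset.range f).image (fun i => u ^ i • q) with hO
    have hpowS : ∀ i : ℕ, u ^ i • q ∈ S := by
      intro i
      induction i with
      | zero => rw [pow_zero, one_smul]; exact hqS
      | succ i ihi => rw [pow_succ', mul_smul]; exact hS _ ihi
    have hOS : O ⊆ S := by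
      intro x hx
      obtain ⟨i, -, rfl⟩ := Finset.mem_image.1 hx
      exact hpowS i
    have hO1 : ∏ x ∈ O, c u x = 1 := by
      rw [hO, Finset.prod_image (fun i hi j hj hij => hinj hi hj hij), ← coc_pow hc]
      exact hq q hqS
    have hqO : q ∈ O := Finset.mem_image.2 ⟨0, by simpa using hfpos, by simp⟩
    have hcard : (S \ O).card < n := by
      rw [← hn]
      exact Finset.card_lt_card (Finset.sdiff_ssubset hOS ⟨q, hqO⟩)
    have h2 := ih _ hcard (S \ O) rfl (by
      intro x hx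
      obtain ⟨hxS, hxO⟩ := Finset.mem_sdiff.1 hx
      refine Finset.mem_sdiff.2 ⟨hS x hxS, fun h => hxO ?_⟩
      obtain ⟨i, hi, hix⟩ := Finset.mem_image.1 h
      rcases Nat.eq_zero_or_pos i with h0 | h0
      · subst h0
        rw [pow_zero, one_smul] at hix
        refine Finset.mem_image.2 ⟨f - 1, by simp; omega, ?_⟩
        apply MulAction.injective u
        show u • (u ^ (f - 1) • q) = u • x
        rw [← mul_smul, ← pow_succ', Nat.sub_add_cancel hfpos, hfq]
        exact hix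
      · refine Finset.mem_image.2 ⟨i - 1, by have := Finset.mem_range.1 hi; simp; omega, ?_⟩
        apply MulAction.injective u
        show u • (u ^ (i - 1) • q) = u • x
        rw [← mul_smul, ← pow_succ', Nat.sub_add_cancel h0]
        exact hix) (fun x hx => hq x (Finset.mem_sdiff.1 hx).1)
    rw [← Finset.prod_sdiff hOS, h2, hO1, one_mul]

end cocycle

section shift
variable {p : ℕ} [hp : Fact p.Prime]

/-- shift of sequences -/
def sh (p : ℕ) : (ℕ → ZMod p) →ₗ[ZMod p] (ℕ → ZMod p) where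
  toFun f := fun i => f (i + 1)
  map_add' _ _ := rfl
  map_smul' _ _ := rfl

theorem sh_pow (f : ℕ → ZMod p) (n i : ℕ) : ((sh p) ^ n) f i = f (i + n) := by
  induction n generalizing i with
  | zero => simp
  | succ n ih =>
    rw [pow_succ', Module.End.mul_apply]
    show ((sh p) ^ n) f (i + 1) = _
    rw [ih]; congr 1; ring

open Polynomial in
theorem poly_id : ((X : (ZMod p)[X]) - 1) ^ (p - 1) = ∑ i ∈ Finset.range p, X ^ i := by
  have h1 : (X : (ZMod p)[X]) - 1 ≠ 0 := by
    have := X_sub_C_ne_zero (1 : ZMod p)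
    rwa [C_1] at this
  apply mul_left_cancel₀ h1
  rw [← pow_succ', Nat.sub_add_cancel hp.out.one_le, sub_pow_char, one_pow, mul_geom_sum]

theorem sum_eq (f : ℕ → ZMod p) : (((sh p) - 1) ^ (p - 1)) f 0 = ∑ i ∈ Finset.range p, f i := by
  have h1 := congrArg (Polynomial.aeval (sh p)) (poly_id (p := p))
  rw [map_pow, map_sub, map_one, Polynomial.aeval_X, map_sum] at h1
  rw [h1, LinearMap.sum_apply, Finset.sum_apply]
  apply Finset.sum_congr rfl
  intro i _
  rw [map_pow, Polynomial.aeval_X, sh_pow, zero_add]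

variable {G : Type*} [Group G]

/-- the commutator map `y ↦ y⁻¹ z⁻¹ y z` -/
def gam (z : G) : G → G := fun y => y⁻¹ * z⁻¹ * y * z

theorem lemC {R : Subgroup G} {φ : G → Multiplicative (ZMod p)} (hφ : ∀ v ∈ R, ∀ w ∈ R, φ (v * w) = φ v * φ w)
    {z : G} (hz : ∀ v ∈ R, z⁻¹ * v * z ∈ R) {u : G} (hu : u ∈ R) (hg : (gam z)^[p - 1] u = 1) :
    ∏ i ∈ Finset.range p, φ ((z ^ i)⁻¹ * u * z ^ i) = 1 := by
  have hφ1 : φ 1 = 1 := by
    have := hφ 1 (one_mem _) 1 (one_mem _)
    rw [mul_one] at this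
    exact left_eq_mul.1 this
  have hφi : ∀ v ∈ R, φ v⁻¹ = (φ v)⁻¹ := by
    intro v hv
    have := hφ v⁻¹ (inv_mem hv) v hv
    rw [inv_mul_cancel, hφ1] at this
    exact (inv_eq_of_mul_eq_one_left this.symm).symm
  have hzi : ∀ (i : ℕ), ∀ v ∈ R, (z ^ i)⁻¹ * v * z ^ i ∈ R := by
    intro i
    induction i with
    | zero => intro v hv; simpa using hv
    | succ i ih =>
      intro v hv
      have := ih _ (hz v hv)
      convert this using 1
      rw [pow_succ']; group
  let F : G → ℕ → ZMod p := fun y i => (φ ((z ^ i)⁻¹ * y * z ^ i)).toAdd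
  have hF1 : F 1 = 0 := by
    funext i
    show (φ ((z ^ i)⁻¹ * 1 * z ^ i)).toAdd = 0
    rw [mul_one, inv_mul_cancel, hφ1]; rfl
  have hgR : ∀ y ∈ R, gam z y ∈ R := by
    intro y hy
    have h1 : gam z y = y⁻¹ * (z⁻¹ * y * z) := by unfold gam; group
    rw [h1]; exact mul_mem (inv_mem hy) (hz y hy)
  have hstep : ∀ y ∈ R, F (gam z y) = ((sh p) - 1) (F y) := by
    intro y hy
    funext i
    show (φ ((z ^ i)⁻¹ * gam z y * z ^ i)).toAdd = (φ ((z ^ (i + 1))⁻¹ * y * z ^ (i + 1))).toAdd - (φ ((z ^ i)⁻¹ * y * z ^ i)).toAdd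
    have h1 : (z ^ i)⁻¹ * gam z y * z ^ i = ((z ^ i)⁻¹ * y * z ^ i)⁻¹ * ((z ^ (i + 1))⁻¹ * y * z ^ (i + 1)) := by
      unfold gam
      rw [pow_succ']; group
    rw [h1, hφ _ (inv_mem (hzi i y hy)) _ (hzi (i + 1) y hy), hφi _ (hzi i y hy), toAdd_mul, toAdd_inv]
    ring
  have hiter : ∀ j : ℕ, (gam z)^[j] u ∈ R ∧ F ((gam z)^[j] u) = (((sh p) - 1) ^ j) (F u) := by
    intro j
    induction j with
    | zero => exact ⟨hu, by simp⟩
    | succ j ih =>
      rw [Function.iterate_succ_apply']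
      refine ⟨hgR _ ih.1, ?_⟩
      rw [hstep _ ih.1, ih.2, pow_succ', Module.End.mul_apply]
  have h2 := (hiter (p - 1)).2
  rw [hg, hF1] at h2
  have h3 := sum_eq (F u)
  rw [← h2] at h3
  have h4 : (∏ i ∈ Finset.range p, φ ((z ^ i)⁻¹ * u * z ^ i)).toAdd = 0 := by
    rw [toAdd_prod]; exact h3.symm
  exact h4

end shift

section orbit
variable {E X : Type*} [Group E] [Finite E] [MulAction E X] {p : ℕ} [hp : Fact p.Prime]

open Classical in
theorem lemB [Finite X] {c : E → X → Multiplicative (ZMod p)} (hc : IsCoc c) {M : Subgroup E} (hMn : M.Normal) (hM : M.index = p)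
    {q : X} (hq : MulAction.stabilizer E q ≤ M) {z : E} (hz : z ∉ M) {u : E} (hu : u ∈ M)
    (hg : (gam z)^[p - 1] u = 1) :
    ∏ x ∈ (Set.toFinite (MulAction.orbit E q)).toFinset, c u x = 1 := by
  set B : Finset X := (Set.toFinite {x : X | ∃ m ∈ M, m • q = x}).toFinset with hB
  have hBmem : ∀ x, x ∈ B ↔ ∃ m ∈ M, m • q = x := by intro x; rw [hB, Set.Finite.mem_toFinset]; rfl
  have hBinv : ∀ m ∈ M, ∀ x ∈ B, m • x ∈ B := by
    intro m hm x hx
    obtain ⟨m', hm', rfl⟩ := (hBmem x).1 hx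
    exact (hBmem _).2 ⟨m * m', mul_mem hm hm', by rw [mul_smul]⟩
  have hcard : Nat.card (E ⧸ M) = p := by rw [← Subgroup.index_eq_card, hM]
  have hz1 : (z : E ⧸ M) ≠ 1 := by rwa [Ne, QuotientGroup.eq_one_iff]
  have hzo : orderOf (z : E ⧸ M) = p := by
    have h1 : orderOf (z : E ⧸ M) ∣ p := by rw [← hcard]; exact orderOf_dvd_natCard _
    rcases (Nat.dvd_prime hp.out).1 h1 with h2 | h2
    · rw [orderOf_eq_one_iff] at h2; exact absurd h2 hz1
    · exact h2
  have hcover : ∀ e : E, ∃ i < p, (z ^ i)⁻¹ * e ∈ M := by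
    intro e
    obtain ⟨n, hn⟩ := mem_powers_of_prime_card hcard (g := (z : E ⧸ M)) (g' := (e : E ⧸ M)) hz1
    refine ⟨n % p, Nat.mod_lt _ hp.out.pos, ?_⟩
    rw [← QuotientGroup.eq, QuotientGroup.mk_pow]
    rw [← hn]
    show (z : E ⧸ M) ^ (n % p) = (z : E ⧸ M) ^ n
    conv_rhs => rw [← Nat.mod_add_div n p, pow_add, pow_mul]
    have : (z : E ⧸ M) ^ p = 1 := by
      conv_lhs => rw [← hzo]
      exact pow_orderOf_eq_one _
    rw [this, one_pow, mul_one]
  have hY : (Set.toFinite (MulAction.orbit E q)).toFinset = (Finset.range p).biUnion (fun i => B.image (fun x => z ^ i • x)) := by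
    ext x
    rw [Set.Finite.mem_toFinset, Finset.mem_biUnion]
    constructor
    · rintro ⟨e, rfl⟩
      obtain ⟨i, hi, hie⟩ := hcover e
      refine ⟨i, Finset.mem_range.2 hi, Finset.mem_image.2 ⟨((z ^ i)⁻¹ * e) • q, (hBmem _).2 ⟨_, hie, rfl⟩, ?_⟩⟩
      show z ^ i • (((z ^ i)⁻¹ * e) • q) = e • q
      rw [← mul_smul]; congr 1; group
    · rintro ⟨i, -, hx⟩
      obtain ⟨y, hy, rfl⟩ := Finset.mem_image.1 hx
      obtain ⟨m, -, rfl⟩ := (hBmem y).1 hy
      exact ⟨z ^ i * m, by show (z ^ i * m) • q = z ^ i • m • q; rw [mul_smul]⟩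
  have hdisj : ∀ i ∈ Finset.range p, ∀ j ∈ Finset.range p, i ≠ j →
      Disjoint (B.image (fun x => z ^ i • x)) (B.image (fun x => z ^ j • x)) := by
    intro i hi j hj hij
    rw [Finset.disjoint_left]
    intro x hx1 hx2
    obtain ⟨y1, hy1, rfl⟩ := Finset.mem_image.1 hx1
    obtain ⟨y2, hy2, hyy⟩ := Finset.mem_image.1 hx2
    obtain ⟨m1, hm1, rfl⟩ := (hBmem _).1 hy1
    obtain ⟨m2, hm2, rfl⟩ := (hBmem _).1 hy2
    have h1 : m1⁻¹ * (z ^ i)⁻¹ * z ^ j * m2 ∈ M := by
      apply hq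
      rw [MulAction.mem_stabilizer_iff]
      have h2 : z ^ j • m2 • q = z ^ i • m1 • q := hyy
      rw [mul_assoc, mul_assoc, mul_smul, mul_smul, mul_smul, h2, inv_smul_smul, inv_smul_smul]
    have h3 : (z ^ i)⁻¹ * z ^ j ∈ M := by
      have h4 := mul_mem (mul_mem hm1 h1) (inv_mem hm2)
      have h5 : m1 * (m1⁻¹ * (z ^ i)⁻¹ * z ^ j * m2) * m2⁻¹ = (z ^ i)⁻¹ * z ^ j := by group
      rwa [h5] at h4
    rw [← QuotientGroup.eq, QuotientGroup.mk_pow, QuotientGroup.mk_pow] at h3
    have h6 := (pow_inj_mod (x := (z : E ⧸ M)) (n := i) (m := j)).1 h3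
    rw [hzo, Nat.mod_eq_of_lt (Finset.mem_range.1 hi), Nat.mod_eq_of_lt (Finset.mem_range.1 hj)] at h6
    exact hij h6
  rw [hY, Finset.prod_biUnion (fun i hi j hj hij => hdisj i hi j hj hij)]
  have hzM : ∀ v ∈ M, z⁻¹ * v * z ∈ M := by
    intro v hv
    simpa using hMn.conj_mem v hv z⁻¹
  have hziM : ∀ i : ℕ, (z ^ i)⁻¹ * u * z ^ i ∈ M := by
    intro i
    simpa using hMn.conj_mem u hu (z ^ i)⁻¹
  have key : ∀ i ∈ Finset.range p, ∏ x ∈ B.image (fun x => z ^ i • x), c u x = ∏ x ∈ B, c ((z ^ i)⁻¹ * u * z ^ i) x := by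
    intro i _
    rw [Finset.prod_image (fun a _ b _ hab => MulAction.injective (z ^ i) hab)]
    have h1 : ∀ x ∈ B, c u (z ^ i • x) * c (z ^ i) x = c (z ^ i) (((z ^ i)⁻¹ * u * z ^ i) • x) * c ((z ^ i)⁻¹ * u * z ^ i) x := by
      intro x _
      rw [← hc, ← hc]
      congr 1; group
    have h2 := Finset.prod_congr rfl h1
    rw [Finset.prod_mul_distrib, Finset.prod_mul_distrib,
      prod_smul (c := c (z ^ i)) (h := (z ^ i)⁻¹ * u * z ^ i) (fun x hx => hBinv _ (hziM i) x hx), mul_comm] at h2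
    exact mul_left_cancel h2
  rw [Finset.prod_congr rfl key]
  exact lemC (R := M) (φ := fun v => ∏ x ∈ B, c v x) (fun v hv w hw => prod_mul hc (fun x hx => hBinv w hw x hx)) hzM hu hg

theorem lemD [Finite X] (hE : IsPGroup p E) {c : E → X → Multiplicative (ZMod p)} (hc : IsCoc c) (u : E) (Q : Subgroup E)
    (huQ : zpowers u ⊔ Q = ⊤) (hg : ∀ z ∈ Q, (gam z)^[p - 1] u = 1)
    (hA : ∀ q : X, u • q ≠ q → c (u ^ Function.minimalPeriod (fun x : X => u • x) q) q = 1) :
    ∀ (n : ℕ) (S : Finset X), S.card = n → (∀ e : E, ∀ q ∈ S, e • q ∈ S) → (∀ q ∈ S, ∃ z ∈ Q, z • q ≠ q) →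
    ∏ q ∈ S, c u q = 1 := by
  classical
  intro n
  induction n using Nat.strong_induction_on with
  | _ n ih =>
    intro S hn hS hQ
    by_cases hfix : ∃ q ∈ S, u • q = q
    · obtain ⟨q, hqS, hq⟩ := hfix
      have hne : MulAction.stabilizer E q ≠ ⊤ := by
        intro h
        obtain ⟨z, hz, hzq⟩ := hQ q hqS
        apply hzq
        rw [← MulAction.mem_stabilizer_iff, h]; exact Subgroup.mem_top _
      obtain ⟨M, hqM, hM, hMn⟩ := H2.exists_le_index_eq hE hne
      have huM : u ∈ M := hqM (MulAction.mem_stabilizer_iff.2 hq)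
      have hMt : M ≠ ⊤ := by
        rintro rfl
        rw [Subgroup.index_top] at hM
        exact hp.out.one_lt.ne hM
      obtain ⟨z, hzQ, hzM⟩ : ∃ z ∈ Q, z ∉ M := by
        by_contra hcon
        push Not at hcon
        apply hMt
        rw [eq_top_iff, ← huQ]
        exact sup_le (by rwa [zpowers_le]) hcon
      have h1 := lemB hc hMn hM hqM hzM huM (hg z hzQ)
      set Y : Finset X := (Set.toFinite (MulAction.orbit E q)).toFinset with hY
      have hYm : ∀ x, x ∈ Y ↔ x ∈ MulAction.orbit E q := fun x => by rw [hY, Set.Finite.mem_toFinset]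
      have hYS : Y ⊆ S := by
        intro x hx
        obtain ⟨e, rfl⟩ := (hYm x).1 hx
        exact hS e q hqS
      have hqY : q ∈ Y := (hYm q).2 (MulAction.mem_orbit_self q)
      have hcard : (S \ Y).card < n := by
        rw [← hn]
        exact Finset.card_lt_card (Finset.sdiff_ssubset hYS ⟨q, hqY⟩)
      have h2 := ih _ hcard (S \ Y) rfl (by
        intro e x hx
        obtain ⟨h3, h4⟩ := Finset.mem_sdiff.1 hx
        refine Finset.mem_sdiff.2 ⟨hS e x h3, fun h => h4 ?_⟩
        rw [hYm] at h ⊢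
        have := MulAction.mem_orbit_of_mem_orbit e⁻¹ h
        rwa [inv_smul_smul] at this) (fun x hx => hQ x (Finset.mem_sdiff.1 hx).1)
      rw [← Finset.prod_sdiff hYS, h2, one_mul]
      exact h1
    · push Not at hfix
      exact lemA hc u _ S rfl (fun q hq => hS u q hq) (fun q hq => hA q (hfix q hq))

end orbit

end Cfsg.Agent.H25.HW
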