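import Cfsg.Agent.H25.HW
import Cfsg.Agent.H25.Primary
import Cfsg.Agent.H1.Sylow
import Cfsg.Prelude.Def_BaumannBlocks

/-!
# The Hall–Wielandt theorem
-/

set_option autoImplicit false
set_option linter.style.haveILetI false
set_option linter.unusedVariables false

namespace Cfsg.Agent.H25.HW

open Subgroup Cfsg
open scoped commutatorElement Pointwise

section trans
variable {G : Type*} [Group G] [Finite G] {A : Type*} [CommGroup A] (N : Subgroup G) (ϕ : N →* A)

theorem cmem (g : G) (q : G ⧸ N) : (Quotient.out (g • q) : G)⁻¹ * g * Quotient.out q ∈ N := by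
  rw [mul_assoc, ← QuotientGroup.eq]
  have h1 : ((Quotient.out (g • q) : G) : G ⧸ N) = g • q := Quotient.out_eq' _
  have h2 : ((g * Quotient.out q : G) : G ⧸ N) = g • ((Quotient.out q : G) : G ⧸ N) := rfl
  rw [h1, h2]
  congr 1
  exact (Quotient.out_eq' q).symm

noncomputable def cc (g : G) (q : G ⧸ N) : A := ϕ ⟨(Quotient.out (g • q) : G)⁻¹ * g * Quotient.out q, cmem N g q⟩

theorem cc_coc : IsCoc (cc N ϕ) := by
  intro g h q
  unfold cc
  rw [← map_mul]
  congr 1
  apply Subtype.ext
  show (Quotient.out ((g * h) • q) : G)⁻¹ * (g * h) * Quotient.out q =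
    ((Quotient.out (g • h • q) : G)⁻¹ * g * Quotient.out (h • q)) * ((Quotient.out (h • q) : G)⁻¹ * h * Quotient.out q)
  rw [mul_smul]; group

noncomputable def tau : G →* A :=
  letI : Fintype (G ⧸ N) := Fintype.ofFinite _
  { toFun := fun g => ∏ q : G ⧸ N, cc N ϕ g q
    map_one' := by
      apply Finset.prod_eq_one
      intro q _
      exact (cc_coc N ϕ).one q
    map_mul' := by
      intro g h
      exact prod_mul (cc_coc N ϕ) (fun q _ => Finset.mem_univ _) }

theorem tau_conj (g x : G) : tau N ϕ (g * x * g⁻¹) = tau N ϕ x := by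
  rw [map_mul, map_mul, map_inv, mul_comm (tau N ϕ g), mul_inv_cancel_right]

theorem cc_fix {g : G} {q : G ⧸ N} (h : g • q = q) :
    ∃ hm : (Quotient.out q : G)⁻¹ * g * Quotient.out q ∈ N, cc N ϕ g q = ϕ ⟨_, hm⟩ := by
  have h1 := cmem N g q
  have h2 : (Quotient.out (g • q) : G)⁻¹ * g * Quotient.out q = (Quotient.out q : G)⁻¹ * g * Quotient.out q := by
    rw [h]
  refine ⟨by rw [← h2]; exact h1, ?_⟩
  unfold cc
  congr 1
  exact Subtype.ext h2

end trans

variable {G : Type*} [Group G] [Finite G] {p : ℕ} [hp : Fact p.Prime]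

theorem exists_conj_mem {P N : Subgroup G} (hPN : P ≤ N) (hPi : ¬ p ∣ P.index) {T : Subgroup G} (hT : IsPGroup p T)
    (hTN : T ≤ N) : ∃ n ∈ N, MulAut.conj n • T ≤ P := by
  have hAN : ¬ p ∣ (P.subgroupOf N).index := by
    intro h1
    exact hPi (h1.trans (Subgroup.relIndex_dvd_index_of_le hPN))
  obtain ⟨y, hy⟩ := H1.exists_conj_le_of_not_dvd_index (P := T.subgroupOf N)
    (H := P.subgroupOf N) (hT.of_equiv (Subgroup.subgroupOfEquivOfLe hTN).symm) hAN
  refine ⟨y, y.2, ?_⟩
  have h1 := Subgroup.map_mono (f := N.subtype) hy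
  rwa [H1.map_conj_smul, Subgroup.map_subgroupOf_eq_of_le hTN,
    Subgroup.map_subgroupOf_eq_of_le hPN] at h1

theorem exists_conj_mem_elt {P N : Subgroup G} (hPN : P ≤ N) (hPi : ¬ p ∣ P.index) {x : G} (hx : ∃ k, orderOf x = p ^ k)
    (hxN : x ∈ N) : ∃ n ∈ N, n * x * n⁻¹ ∈ P := by
  obtain ⟨k, hk⟩ := hx
  obtain ⟨n, hn, h⟩ := exists_conj_mem hPN hPi (T := zpowers x) (IsPGroup.of_card (by rw [Nat.card_zpowers, hk]))
    (by rwa [zpowers_le])
  refine ⟨n, hn, ?_⟩
  apply h
  rw [H1.mem_conj_smul]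
  have : n⁻¹ * (n * x * n⁻¹) * n = x := by group
  rw [this]; exact mem_zpowers x

theorem tau_eq (P : Sylow p G) (Q : Subgroup G) (hQ : Cfsg.IsWeaklyClosed Q (P : Subgroup G))
    (h : ∀ u ∈ (P : Subgroup G), ∀ z ∈ Q, (gam z)^[p - 1] u = 1)
    (hPN : (P : Subgroup G) ≤ normalizer (Q : Set G)) (ϕ : ↥(normalizer (Q : Set G)) →* Multiplicative (ZMod p)) :
    ∀ (n : ℕ) (u : G) (hu : u ∈ (P : Subgroup G)), orderOf u = n →
      tau (normalizer (Q : Set G)) ϕ u = ϕ ⟨u, hPN hu⟩ := by
  classical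
  obtain ⟨N, hN⟩ : ∃ N, N = normalizer (Q : Set G) := ⟨_, rfl⟩
  have hPi : ¬ p ∣ (P : Subgroup G).index := P.not_dvd_index
  intro n
  induction n using Nat.strong_induction_on with
  | _ n ih =>
    intro u hu hun
    letI : Fintype (G ⧸ normalizer (Q : Set G)) := Fintype.ofFinite _
    set q0 : G ⧸ normalizer (Q : Set G) := ((1 : G) : G ⧸ normalizer (Q : Set G)) with hq0
    set E : Subgroup G := zpowers u ⊔ Q with hE
    have hEP : E ≤ (P : Subgroup G) := sup_le (by rwa [zpowers_le]) hQ.1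
    have hEp : IsPGroup p E := P.isPGroup'.to_le hEP
    have huE : u ∈ E := Subgroup.mem_sup_left (mem_zpowers u)
    have hQE : Q ≤ E := le_sup_right
    let c' : E → (G ⧸ normalizer (Q : Set G)) → Multiplicative (ZMod p) := fun e q => cc _ ϕ (e : G) q
    have hc' : IsCoc c' := fun g h q => cc_coc _ ϕ (g : G) (h : G) q
    have hpu : ∃ a, orderOf u = p ^ a := by
      obtain ⟨a, ha⟩ := (IsPGroup.iff_orderOf.1 P.isPGroup') ⟨u, hu⟩
      exact ⟨a, by rw [← ha, Subgroup.orderOf_mk]⟩
    have hsmul : ∀ (e : E) (q : G ⧸ normalizer (Q : Set G)), e • q = (e : G) • q := fun e q => rfl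
    have hfixN : ∀ x : G, x ∈ normalizer (Q : Set G) → x • q0 = q0 := by
      intro x hx
      show ((x * 1 : G) : G ⧸ normalizer (Q : Set G)) = ((1 : G) : G ⧸ normalizer (Q : Set G))
      rw [QuotientGroup.eq, mul_one, mul_one]
      exact inv_mem hx
    have hmain : ∏ q ∈ Finset.univ.erase q0, c' ⟨u, huE⟩ q = 1 := by
      apply lemD (E := E) hEp hc' ⟨u, huE⟩ (Q.subgroupOf E) ?_ ?_ ?_ _ _ rfl ?_ ?_
      · apply Subgroup.map_injective E.subtype_injective
        rw [Subgroup.map_sup, MonoidHom.map_zpowers, Subgroup.map_subgroupOf_eq_of_le hQE, ← MonoidHom.range_eq_map,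
          Subgroup.range_subtype]
        rfl
      · intro z hz
        have h1 : ∀ j : ℕ, (((gam z)^[j] ⟨u, huE⟩ : E) : G) = (gam (z : G))^[j] u := by
          intro j
          induction j with
          | zero => rfl
          | succ j ihj => rw [Function.iterate_succ_apply', Function.iterate_succ_apply', ← ihj]; rfl
        apply Subtype.ext
        rw [h1]
        exact h u hu z hz
      · intro q hqne
        set f := Function.minimalPeriod (fun x : G ⧸ normalizer (Q : Set G) => (⟨u, huE⟩ : E) • x) q with hf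
        have hiter : ∀ (i : ℕ) (x : G ⧸ normalizer (Q : Set G)), (fun x => (⟨u, huE⟩ : E) • x)^[i] x = (u ^ i) • x := fun i x => by
          have h1 := congrFun (smul_iterate (⟨u, huE⟩ : E) i) x
          exact h1
        have hfq : (u ^ f) • q = q := by
          rw [← hiter]; exact Function.iterate_minimalPeriod
        have hfd : f ∣ orderOf u := by
          apply Function.IsPeriodicPt.minimalPeriod_dvd
          show (fun x => (⟨u, huE⟩ : E) • x)^[orderOf u] q = q
          rw [hiter, pow_orderOf_eq_one, one_smul]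
        have hf1 : f ≠ 1 := by
          intro h1
          apply hqne
          rw [h1, pow_one] at hfq
          exact hfq
        obtain ⟨a, ha⟩ := hpu
        obtain ⟨b, hb, hfb⟩ := (Nat.dvd_prime_pow hp.out).1 (ha ▸ hfd)
        have hb0 : b ≠ 0 := by
          rintro rfl
          exact hf1 (by rw [hfb, pow_zero])
        have hpf : p ∣ f := by rw [hfb]; exact dvd_pow_self p hb0
        show cc _ ϕ ((⟨u, huE⟩ : E) ^ f : E) q = 1
        have hw : (((⟨u, huE⟩ : E) ^ f : E) : G) = u ^ f := rfl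
        rw [hw]
        obtain ⟨hm, hcf⟩ := cc_fix _ ϕ hfq
        rw [hcf]
        have hfpos : 0 < f := Nat.pos_of_dvd_of_pos hfd (orderOf_pos u)
        have hwo : orderOf (u ^ f) = orderOf u / f := orderOf_pow_of_dvd hfpos.ne' hfd
        have hwlt : orderOf (u ^ f) < n := by
          rw [hwo, ← hun]
          exact Nat.div_lt_self (orderOf_pos u) (by omega)
        have hwk : ∃ k, orderOf (u ^ f) = p ^ k := by
          have h1 : orderOf (u ^ f) ∣ p ^ a := by rw [← ha]; exact orderOf_pow_dvd f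
          obtain ⟨k, -, hk⟩ := (Nat.dvd_prime_pow hp.out).1 h1
          exact ⟨k, hk⟩
        have ho : orderOf ((Quotient.out q : G)⁻¹ * u ^ f * Quotient.out q) = orderOf (u ^ f) := by
          have h1 : (Quotient.out q : G)⁻¹ * u ^ f * Quotient.out q = MulAut.conj (Quotient.out q : G)⁻¹ (u ^ f) := by
            rw [MulAut.conj_apply, inv_inv]
          rw [h1]
          exact orderOf_injective (MulAut.conj (Quotient.out q : G)⁻¹).toMonoidHom (MulEquiv.injective _) _
        obtain ⟨m, hmN, hmP⟩ := exists_conj_mem_elt hPN hPi (by rw [ho]; exact hwk) hm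
        have ho2 : orderOf (m * ((Quotient.out q : G)⁻¹ * u ^ f * Quotient.out q) * m⁻¹) = orderOf (u ^ f) := by
          rw [← ho]
          exact orderOf_injective (MulAut.conj m).toMonoidHom (MulEquiv.injective _) _
        have e1 := ih _ (by rw [ho2]; exact hwlt) _ hmP rfl
        have e2 := ih _ hwlt (u ^ f) (pow_mem hu f) rfl
        have e3 : tau _ ϕ (m * ((Quotient.out q : G)⁻¹ * u ^ f * Quotient.out q) * m⁻¹) = tau _ ϕ (u ^ f) := by
          have h1 : m * ((Quotient.out q : G)⁻¹ * u ^ f * Quotient.out q) * m⁻¹ =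
              (m * (Quotient.out q : G)⁻¹) * u ^ f * (m * (Quotient.out q : G)⁻¹)⁻¹ := by group
          rw [h1, tau_conj]
        have e4 : ϕ ⟨u ^ f, hPN (pow_mem hu f)⟩ = 1 := by
          have h1 : (⟨u ^ f, hPN (pow_mem hu f)⟩ : normalizer (Q : Set G)) = ⟨u, hPN hu⟩ ^ f := rfl
          rw [h1, map_pow]
          obtain ⟨f', hf'⟩ := hpf
          rw [hf', pow_mul]
          have h2 : (ϕ ⟨u, hPN hu⟩) ^ p = 1 := by
            apply Multiplicative.toAdd.injective
            rw [toAdd_pow, toAdd_one, nsmul_eq_mul, CharP.cast_eq_zero, zero_mul]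
          rw [h2, one_pow]
        have e5 : ϕ ⟨_, hPN hmP⟩ = ϕ ⟨_, hm⟩ := by
          have h1 : (⟨m * ((Quotient.out q : G)⁻¹ * u ^ f * Quotient.out q) * m⁻¹, hPN hmP⟩ : normalizer (Q : Set G)) =
              ⟨m, hmN⟩ * ⟨_, hm⟩ * ⟨m, hmN⟩⁻¹ := rfl
          rw [h1, map_mul, map_mul, map_inv, mul_comm (ϕ ⟨m, hmN⟩), mul_inv_cancel_right]
        rw [← e5, ← e1, e3, e2, e4]
      · intro e q hq
        rw [Finset.mem_erase] at hq ⊢
        refine ⟨fun h => hq.1 ?_, Finset.mem_univ _⟩
        have h1 : (e : G)⁻¹ • q0 = q0 := hfixN _ (inv_mem (hPN (hEP e.2)))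
        rw [← h1, ← h, hsmul, inv_smul_smul]
      · intro q hq
        by_contra hcon
        push Not at hcon
        apply (Finset.mem_erase.1 hq).1
        obtain ⟨x, rfl⟩ := QuotientGroup.mk_surjective q
        have h1 : MulAut.conj x⁻¹ • Q ≤ normalizer (Q : Set G) := by
          intro y hy
          rw [H1.mem_conj_smul, inv_inv] at hy
          have h2 := hcon ⟨x * y * x⁻¹, hQE hy⟩ (by rw [Subgroup.mem_subgroupOf]; exact hy)
          rw [hsmul] at h2
          have h3 : ((x * y * x⁻¹ * x : G) : G ⧸ normalizer (Q : Set G)) = (x : G ⧸ normalizer (Q : Set G)) := h2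
          rw [eq_comm, QuotientGroup.eq] at h3
          have h4 : x⁻¹ * (x * y * x⁻¹ * x) = y := by group
          rwa [h4] at h3
        have hQp : IsPGroup p Q := P.isPGroup'.to_le hQ.1
        obtain ⟨m, hmN, hmP⟩ := exists_conj_mem hPN hPi (T := MulAut.conj x⁻¹ • Q) (hQp.map _) h1
        rw [H1.conj_smul_smul] at hmP
        have h5 := hQ.2 (m * x⁻¹) hmP
        have h6 : m * x⁻¹ ∈ normalizer (Q : Set G) := H1.mem_normalizer_iff_conj_smul.2 h5
        have h7 : x ∈ normalizer (Q : Set G) := by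
          have h8 := mul_mem (inv_mem h6) hmN
          have h9 : (m * x⁻¹)⁻¹ * m = x := by group
          rwa [h9] at h8
        rw [hq0, QuotientGroup.eq, mul_one]
        exact inv_mem h7
    have htau : tau _ ϕ u = ∏ q : G ⧸ normalizer (Q : Set G), cc _ ϕ u q := rfl
    rw [htau, ← Finset.mul_prod_erase Finset.univ _ (Finset.mem_univ q0)]
    have h2 : ∏ q ∈ Finset.univ.erase q0, cc _ ϕ u q = 1 := hmain
    rw [h2, mul_one]
    obtain ⟨hm, hcf⟩ := cc_fix _ ϕ (hfixN u (hPN hu))
    rw [hcf]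
    have ht : (Quotient.out q0 : G) ∈ normalizer (Q : Set G) := by
      have h3 : ((Quotient.out q0 : G) : G ⧸ normalizer (Q : Set G)) = ((1 : G) : G ⧸ normalizer (Q : Set G)) := Quotient.out_eq' _
      rw [eq_comm, QuotientGroup.eq] at h3
      simpa using h3
    have h3 : (⟨_, hm⟩ : normalizer (Q : Set G)) = ⟨_, ht⟩⁻¹ * ⟨u, hPN hu⟩ * ⟨_, ht⟩ := rfl
    rw [h3, map_mul, map_mul, map_inv, mul_comm, ← mul_assoc, mul_inv_cancel, one_mul]

/-- **Hall–Wielandt** -/
theorem main (P : Sylow p G) (Q : Subgroup G) (hQ : Cfsg.IsWeaklyClosed Q (P : Subgroup G))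
    (h : ∀ u ∈ (P : Subgroup G), ∀ z ∈ Q, (gam z)^[p - 1] u = 1) :
    Cfsg.pResidualOf p (Subgroup.normalizer (Q : Set G)) = Cfsg.pResidual p G ⊓ Subgroup.normalizer (Q : Set G) := by
  haveI hKn : (Cfsg.pResidual p G).Normal := H2.pResidual_normal (G := G) (p := p)
  have hPN : (P : Subgroup G) ≤ normalizer (Q : Set G) := by
    intro g hg
    rw [H1.mem_normalizer_iff_conj_smul]
    apply hQ.2
    rintro _ ⟨x, hx, rfl⟩
    exact mul_mem (mul_mem hg (hQ.1 hx)) (inv_mem hg)
  have hPi : ¬ p ∣ (P : Subgroup G).index := P.not_dvd_index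
  have hNi : ¬ p ∣ (normalizer (Q : Set G)).index := fun hd => hPi (hd.trans (Subgroup.index_dvd_of_le hPN))
  have hcore := H2.tate_core (normalizer (Q : Set G)) hNi (by
    intro M hMn hMi
    haveI := hMn
    have hc1 : Nat.card (↥(normalizer (Q : Set G)) ⧸ M) = p := by rw [← Subgroup.index_eq_card]; exact hMi
    have hc2 : Nat.card (Multiplicative (ZMod p)) = p := by
      rw [Nat.card_congr Multiplicative.toAdd, Nat.card_zmod]
    let e : (↥(normalizer (Q : Set G)) ⧸ M) ≃* Multiplicative (ZMod p) := mulEquivOfPrimeCardEq hc1 hc2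
    let ϕ : ↥(normalizer (Q : Set G)) →* Multiplicative (ZMod p) := e.toMonoidHom.comp (QuotientGroup.mk' M)
    have hϕ : ∀ x, ϕ x = 1 → x ∈ M := by
      intro x hx
      have h1 : e (x : ↥(normalizer (Q : Set G)) ⧸ M) = e 1 := by rw [map_one]; exact hx
      rw [← QuotientGroup.eq_one_iff]
      exact e.injective h1
    have hAp : ∀ a : Multiplicative (ZMod p), a ^ p = 1 := by
      intro a
      apply Multiplicative.toAdd.injective
      rw [toAdd_pow, toAdd_one, nsmul_eq_mul, CharP.cast_eq_zero, zero_mul]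
    have hcopA : ∀ (a : Multiplicative (ZMod p)) (m : ℕ), m.Coprime p → a ^ m = 1 → a = 1 := by
      intro a m hm ha
      rw [← orderOf_eq_one_iff]
      exact Nat.eq_one_of_dvd_coprimes hm (orderOf_dvd_of_pow_eq_one ha) (orderOf_dvd_of_pow_eq_one (hAp a))
    have hK : ∀ g ∈ Cfsg.pResidual p G, tau (normalizer (Q : Set G)) ϕ g = 1 := by
      intro g hg
      have h1 : Cfsg.pResidual p G ≤ (tau (normalizer (Q : Set G)) ϕ).ker := by
        unfold Cfsg.pResidual
        rw [Subgroup.closure_le]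
        intro x hx
        rw [SetLike.mem_coe, MonoidHom.mem_ker]
        apply hcopA _ (orderOf x) hx
        rw [← map_pow, pow_orderOf_eq_one, map_one]
      exact h1 hg
    apply le_of_primary
    intro x hx r k hr hk
    rw [Subgroup.mem_subgroupOf] at hx
    apply hϕ
    by_cases hrp : r = p
    · subst hrp
      obtain ⟨m, hmN, hmP⟩ := exists_conj_mem_elt hPN hPi (x := (x : G)) ⟨k, by rw [Subgroup.orderOf_coe, hk]⟩ x.2
      have h1 := tau_eq P Q hQ h hPN ϕ _ _ hmP rfl
      rw [hK _ (hKn.conj_mem _ hx m)] at h1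
      have h2 : (⟨m * x * m⁻¹, hPN hmP⟩ : normalizer (Q : Set G)) = ⟨m, hmN⟩ * x * ⟨m, hmN⟩⁻¹ := rfl
      rw [h2, map_mul, map_mul, map_inv, mul_comm (ϕ ⟨m, hmN⟩), mul_inv_cancel_right] at h1
      exact h1.symm
    · apply hcopA _ (r ^ k) (Nat.Coprime.pow_left k ((Nat.coprime_primes hr hp.out).2 hrp))
      rw [← map_pow, ← hk, pow_orderOf_eq_one, map_one])
  apply le_antisymm
  · refine le_inf (H2.map_subtype_pResidual_le _) ?_
    rintro _ ⟨y, _, rfl⟩
    exact y.2
  · rintro x ⟨hxK, hxN⟩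
    exact ⟨⟨x, hxN⟩, hcore (by rw [Subgroup.mem_subgroupOf]; exact hxK), rfl⟩

theorem main_sylow (P : Sylow p G) (hcl : (P : Subgroup G).lowerCentralSeries (p - 1) = ⊥) :
    Cfsg.pResidualOf p (Subgroup.normalizer ((P : Subgroup G) : Set G)) =
      Cfsg.pResidual p G ⊓ Subgroup.normalizer ((P : Subgroup G) : Set G) := by
  apply main P (P : Subgroup G)
  · refine ⟨le_rfl, fun g hg => ?_⟩
    apply Subgroup.eq_of_le_of_card_ge hg
    exact (Subgroup.card_map_of_injective (MulAut.conj g).injective).ge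
  · intro u hu z hz
    have h1 : ∀ j : ℕ, (gam z)^[j] u ∈ (P : Subgroup G).lowerCentralSeries j := by
      intro j
      induction j with
      | zero => exact hu
      | succ j ih =>
        rw [Function.iterate_succ_apply', Subgroup.lowerCentralSeries_succ]
        have h2 : gam z ((gam z)^[j] u) = ⁅((gam z)^[j] u)⁻¹, z⁻¹⁆ := by
          unfold gam; rw [commutatorElement_def]; group
        rw [h2]
        exact Subgroup.commutator_mem_commutator (inv_mem ih) (inv_mem hz)
    have h2 := h1 (p - 1)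
    rw [hcl, Subgroup.mem_bot] at h2
    exact h2

end Cfsg.Agent.H25.HW
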