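import Cfsg.Agent.H1.Hall
import Cfsg.Agent.H1.Chief
import Cfsg.Agent.H1.MinNonNil

/-!
# The number of Hall subgroups of a solvable group
-/

set_option autoImplicit false
set_option linter.style.haveILetI false
set_option linter.unusedVariables false

namespace Cfsg.Agent.H25.HallNum

open Cfsg Subgroup
open scoped commutatorElement Pointwise

universe u

section A
variable {G : Type*} [Group G] [Finite G]

theorem count_eq (H : Subgroup G) (m : ℕ) (hH : Nat.card H = m)
    (hc : ∀ K : Subgroup G, Nat.card K = m → ∃ g : G, MulAut.conj g • H = K) :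
    Nat.card {K : Subgroup G // Nat.card K = m} = (normalizer (H : Set G)).index := by
  letI := H1.conjSubgroupAction G
  have h1 : MulAction.stabilizer G H = normalizer (H : Set G) := by
    ext g
    rw [MulAction.mem_stabilizer_iff, H1.mem_normalizer_iff_conj_smul]; rfl
  have h2 : MulAction.orbit G H = {K : Subgroup G | Nat.card K = m} := by
    ext K
    constructor
    · rintro ⟨g, rfl⟩
      show Nat.card (MulAut.conj g • H : Subgroup G) = m
      rw [H1.card_conj_smul, hH]
    · intro hK
      obtain ⟨g, hg⟩ := hc K hK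
      exact ⟨g, hg⟩
  rw [← h1, MulAction.index_stabilizer, h2]
  rfl

/-- one step: `x` a `q`-element acting on an abelian `q'`-group `W` -/
theorem step (W : Subgroup G) (hW : IsMulCommutative W) {x : G} (hx : x ∈ normalizer (W : Set G))
    {q : ℕ} [hq : Fact q.Prime] (hxq : ∃ a, orderOf x = q ^ a) (hqW : ¬ q ∣ Nat.card W) :
    (centralizer ({x} : Set G)).relIndex W ≡ 1 [MOD q] := by
  have hcomm : ∀ a ∈ W, ∀ b ∈ W, a * b = b * a := fun a ha b hb =>
    congrArg Subtype.val (hW.is_comm.comm ⟨a, ha⟩ ⟨b, hb⟩)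
  have hmem : ∀ w ∈ W, x * w * x⁻¹ ∈ W := fun w hw => (mem_normalizer_iff.1 hx w).1 hw
  let φ : W →* G :=
    { toFun := fun w => x * w * x⁻¹ * (w : G)⁻¹
      map_one' := by simp
      map_mul' := by
        rintro ⟨a, ha⟩ ⟨b, hb⟩
        show x * (a * b) * x⁻¹ * (a * b)⁻¹ = x * a * x⁻¹ * a⁻¹ * (x * b * x⁻¹ * b⁻¹)
        have h1 := hcomm _ (mul_mem (hmem b hb) (inv_mem hb)) _ (inv_mem ha)
        calc x * (a * b) * x⁻¹ * (a * b)⁻¹ = (x * a * x⁻¹) * ((x * b * x⁻¹ * b⁻¹) * a⁻¹) := by group
          _ = (x * a * x⁻¹) * (a⁻¹ * (x * b * x⁻¹ * b⁻¹)) := by rw [h1]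
          _ = _ := by group }
  have hφ : ∀ w : W, φ w = x * w * x⁻¹ * (w : G)⁻¹ := fun w => rfl
  have hker : φ.ker = (centralizer ({x} : Set G)).subgroupOf W := by
    ext w
    rw [MonoidHom.mem_ker, hφ, mem_subgroupOf, mem_centralizer_singleton_iff, mul_inv_eq_one, mul_inv_eq_iff_eq_mul]
    exact eq_comm
  have hidx : (centralizer ({x} : Set G)).relIndex W = Nat.card φ.range := by
    rw [relIndex, ← hker, index_ker]
  rw [hidx]
  set R := φ.range with hR
  have hRW : R ≤ W := by
    rintro _ ⟨w, rfl⟩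
    exact mul_mem (hmem w w.2) (inv_mem w.2)
  have hxR : x ∈ normalizer (R : Set G) := by
    have h1 : ∀ r ∈ R, x * r * x⁻¹ ∈ R := by
      rintro _ ⟨w, rfl⟩
      refine ⟨⟨x * w * x⁻¹, hmem w w.2⟩, ?_⟩
      rw [hφ, hφ]; simp only; group
    rw [H1.mem_normalizer_iff_conj_smul]
    apply eq_of_le_of_card_ge
    · rintro _ ⟨r, hr, rfl⟩
      exact h1 r hr
    · rw [H1.card_conj_smul]
  have hZ : zpowers x ≤ normalizer (R : Set G) := by rwa [zpowers_le]
  letI : MulAction (zpowers x) R := MulAction.compHom R (((MulAut.congr (MulEquiv.refl R)).toMonoidHom.comp (R.normalizerMonoidHom)).comp (inclusion hZ))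
  have hsm : ∀ (g : zpowers x) (r : R), ((g • r : R) : G) = g * r * (g : G)⁻¹ := by
    intro g r; rfl
  have hpg : IsPGroup q (zpowers x) := by
    obtain ⟨a, ha⟩ := hxq
    exact IsPGroup.of_card (by rw [Nat.card_zpowers, ha])
  have h3 := hpg.card_modEq_card_fixedPoints R
  have h4 : Nat.card (MulAction.fixedPoints (zpowers x) R) = 1 := by
    rw [Nat.card_eq_one_iff_unique]
    constructor
    · constructor
      have key : ∀ r : MulAction.fixedPoints (zpowers x) R, ((r : R) : G) = 1 := by
        rintro ⟨⟨r, w, rfl⟩, hr⟩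
        show φ w = 1
        have hr1 : x * φ w * x⁻¹ = φ w := by
          have := congrArg Subtype.val (hr ⟨x, mem_zpowers x⟩)
          rwa [hsm] at this
        have hxr : Commute x (φ w) := by
          show x * φ w = φ w * x
          rw [← mul_inv_eq_iff_eq_mul]; exact hr1
        have h5 : ∀ i : ℕ, x ^ i * w * (x ^ i)⁻¹ = (φ w) ^ i * w := by
          intro i
          induction i with
          | zero => simp
          | succ i ih =>
            calc x ^ (i + 1) * w * (x ^ (i + 1))⁻¹ = x * (x ^ i * w * (x ^ i)⁻¹) * x⁻¹ := by rw [pow_succ']; group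
              _ = x * ((φ w) ^ i * w) * x⁻¹ := by rw [ih]
              _ = (x * (φ w) ^ i * x⁻¹) * (x * w * x⁻¹ * (w : G)⁻¹) * w := by group
              _ = (φ w) ^ i * φ w * w := by
                rw [← hφ]
                congr 2
                rw [mul_inv_eq_iff_eq_mul]
                exact hxr.pow_right i
              _ = (φ w) ^ (i + 1) * w := by rw [pow_succ]
        obtain ⟨a, ha⟩ := hxq
        have h6 := h5 (orderOf x)
        rw [pow_orderOf_eq_one] at h6
        have h7 : (φ w) ^ (orderOf x) = 1 := by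
          have : (φ w) ^ (orderOf x) * (w : G) = 1 * w := by rw [← h6]; group
          exact mul_right_cancel this
        have h8 : orderOf (φ w) ∣ q ^ a := by rw [← ha]; exact orderOf_dvd_of_pow_eq_one h7
        have h9 : orderOf (φ w) ∣ Nat.card W := by
          have := orderOf_dvd_natCard (⟨φ w, hRW ⟨w, rfl⟩⟩ : W)
          rwa [Subgroup.orderOf_mk] at this
        have h10 : (q ^ a).Coprime (Nat.card W) := Nat.Coprime.pow_left _ ((Nat.Prime.coprime_iff_not_dvd hq.out).2 hqW)
        rw [← orderOf_eq_one_iff]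
        exact Nat.eq_one_of_dvd_coprimes h10 h8 h9
      intro r s
      exact Subtype.ext (Subtype.ext ((key r).trans (key s).symm))
    · refine ⟨⟨1, ?_⟩⟩
      intro g
      apply Subtype.ext
      rw [hsm]; simp
  rw [h4] at h3
  exact h3

theorem chainB (N : Subgroup G) (hN : IsMulCommutative N) : ∀ (n : ℕ) (K : Subgroup G), Nat.card K = n →
    Group.IsSolvable K → K ≤ normalizer (N : Set G) → (Nat.card K).Coprime (Nat.card N) →
    ∃ l : List ℕ, l.prod = (centralizer (K : Set G)).relIndex N ∧
      ∀ f ∈ l, f ∣ Nat.card N ∧ ∃ q : ℕ, q.Prime ∧ q ∣ Nat.card K ∧ f ≡ 1 [MOD q] := by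
  intro n
  induction n using Nat.strong_induction_on with
  | _ n ih =>
    intro K hKn hKs hKN hcop
    by_cases hK : K = ⊥
    · refine ⟨[], ?_, by simp⟩
      rw [hK]
      have h1 : centralizer ((⊥ : Subgroup G) : Set G) = ⊤ := by
        rw [eq_top_iff]
        intro g _
        rw [mem_centralizer_iff]
        intro h hh
        have : h = 1 := by simpa using hh
        rw [this]; simp
      rw [h1]; simp
    haveI : Nontrivial K := (Subgroup.nontrivial_iff_ne_bot K).mpr hK
    obtain ⟨M, hMn, hM, -⟩ := H1.exists_normal_prime_index (G := K) hKs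
    haveI := hMn
    have hq := H1.index_prime_of_normal_coatom hM
    set q := M.index with hqdef
    haveI : Fact q.Prime := ⟨hq⟩
    obtain ⟨Q⟩ : Nonempty (Sylow q K) := inferInstance
    have hQM : ¬ (Q : Subgroup K) ≤ M := by
      intro h
      exact Q.not_dvd_index (Subgroup.index_dvd_of_le h)
    obtain ⟨x, hxQ, hxM⟩ := SetLike.not_le_iff_exists.1 hQM
    have hxo : ∃ a, orderOf (x : G) = q ^ a := by
      obtain ⟨a, ha⟩ := (IsPGroup.iff_orderOf.1 Q.isPGroup') ⟨x, hxQ⟩
      refine ⟨a, ?_⟩
      rw [Subgroup.orderOf_mk] at ha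
      rw [← ha, Subgroup.orderOf_coe]
    set K0 : Subgroup G := M.map K.subtype with hK0
    have hK0K : K0 ≤ K := Subgroup.map_subtype_le _
    have hcard : Nat.card K0 * q = Nat.card K := by
      rw [hK0, Subgroup.card_map_of_injective K.subtype_injective]
      exact M.card_mul_index
    have hK0n : Nat.card K0 < n := by
      have h1 : 0 < Nat.card K0 := Nat.card_pos
      have h2 := hq.two_le
      rw [← hKn, ← hcard]
      nlinarith
    have hqK : q ∣ Nat.card K := ⟨Nat.card K0, by rw [← hcard, mul_comm]⟩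
    have hK0s : Group.IsSolvable K0 := by
      exact H1.isSolvable_of_le hK0K hKs
    have hK0c : (Nat.card K0).Coprime (Nat.card N) :=
      Nat.Coprime.coprime_dvd_left ⟨q, hcard.symm⟩ hcop
    obtain ⟨l, hl, hlf⟩ := ih _ hK0n K0 rfl hK0s (hK0K.trans hKN) hK0c
    have hKK0 : K ≤ normalizer (K0 : Set G) := by
      intro g hg
      rw [mem_normalizer_iff]
      intro y
      constructor
      · rintro ⟨z, hz, rfl⟩
        exact ⟨⟨g, hg⟩ * z * ⟨g, hg⟩⁻¹, hMn.conj_mem z hz ⟨g, hg⟩, rfl⟩
      · rintro ⟨z, hz, hzy⟩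
        refine ⟨⟨g, hg⟩⁻¹ * z * ⟨g, hg⟩, by simpa using hMn.conj_mem z hz ⟨g, hg⟩⁻¹, ?_⟩
        have h1 : ((z : K) : G) = g * y * g⁻¹ := hzy
        show g⁻¹ * (z : G) * g = y
        rw [h1]; group
    have htop : M ⊔ zpowers x = ⊤ := by
      apply hM.2
      refine lt_of_le_of_ne le_sup_left ?_
      intro h
      apply hxM
      rw [h]
      exact Subgroup.mem_sup_right (mem_zpowers x)
    have hKsup : K ≤ K0 ⊔ zpowers (x : G) := by
      intro g hg
      have h1 : (⟨g, hg⟩ : K) ∈ M ⊔ zpowers x := by rw [htop]; exact Subgroup.mem_top _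
      have h2 := mem_map_of_mem K.subtype h1
      rw [Subgroup.map_sup, MonoidHom.map_zpowers] at h2
      exact h2
    set W : Subgroup G := centralizer (K0 : Set G) ⊓ N with hW
    have hWc : IsMulCommutative W := by
      constructor; constructor
      rintro ⟨a, ha⟩ ⟨b, hb⟩
      have h1 : a * b = b * a := congrArg Subtype.val (hN.is_comm.comm ⟨a, ha.2⟩ ⟨b, hb.2⟩)
      exact Subtype.ext h1
    have hxW : (x : G) ∈ normalizer (W : Set G) := by
      have h1 := mem_normalizer_iff.1 (hKN x.2)
      have h2 := mem_normalizer_iff.1 (hKK0 x.2)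
      rw [mem_normalizer_iff]
      intro w
      rw [hW, mem_inf, mem_inf, ← h1 w, mem_centralizer_iff, mem_centralizer_iff]
      constructor
      · rintro ⟨h3, h4⟩
        refine ⟨?_, h4⟩
        intro k hk
        have h5 : (x : G)⁻¹ * k * x ∈ K0 := by
          rw [h2]
          have : (x : G) * ((x : G)⁻¹ * k * x) * (x : G)⁻¹ = k := by group
          rw [this]; exact hk
        have h6 := h3 _ h5
        calc k * (x * w * (x : G)⁻¹) = x * (((x : G)⁻¹ * k * x) * w) * (x : G)⁻¹ := by group
          _ = x * (w * ((x : G)⁻¹ * k * x)) * (x : G)⁻¹ := by rw [h6]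
          _ = x * w * (x : G)⁻¹ * k := by group
      · rintro ⟨h3, h4⟩
        refine ⟨?_, h4⟩
        intro k hk
        have h5 : (x : G) * k * (x : G)⁻¹ ∈ K0 := (h2 k).1 hk
        have h6 := h3 _ h5
        calc k * w = (x : G)⁻¹ * (((x : G) * k * (x : G)⁻¹) * (x * w * (x : G)⁻¹)) * x := by group
          _ = (x : G)⁻¹ * ((x * w * (x : G)⁻¹) * ((x : G) * k * (x : G)⁻¹)) * x := by rw [h6]
          _ = w * k := by group
    have hWN : W ≤ N := inf_le_right
    have hqW : ¬ q ∣ Nat.card W := by
      intro h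
      have h1 : q ∣ Nat.card N := h.trans (Subgroup.card_dvd_of_le hWN)
      exact Nat.not_coprime_of_dvd_of_dvd hq.one_lt hqK h1 hcop
    have hstep := step W hWc hxW hxo hqW
    have hinf : centralizer ({(x : G)} : Set G) ⊓ W = centralizer (K : Set G) ⊓ N := by
      apply le_antisymm
      · intro g hg
        obtain ⟨h1, h2'⟩ := mem_inf.1 hg
        obtain ⟨h2, h3⟩ := mem_inf.1 h2'
        refine mem_inf.2 ⟨?_, h3⟩
        have h4 : K ≤ centralizer ({g} : Set G) := by
          refine hKsup.trans (sup_le ?_ ?_)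
          · intro k hk
            rw [mem_centralizer_singleton_iff]
            exact (mem_centralizer_iff.1 h2 k hk)
          · rw [zpowers_le, mem_centralizer_singleton_iff]
            exact (mem_centralizer_singleton_iff.1 h1).symm
        rw [mem_centralizer_iff]
        intro k hk
        exact (mem_centralizer_singleton_iff.1 (h4 hk))
      · intro g hg
        obtain ⟨h1, h3⟩ := mem_inf.1 hg
        have h1' := mem_centralizer_iff.1 h1
        refine mem_inf.2 ⟨?_, mem_inf.2 ⟨?_, h3⟩⟩
        · rw [mem_centralizer_singleton_iff]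
          exact (h1' x x.2).symm
        · rw [mem_centralizer_iff]
          intro k hk
          exact h1' k (hK0K hk)
    refine ⟨(centralizer ({(x : G)} : Set G)).relIndex W :: l, ?_, ?_⟩
    · rw [List.prod_cons, hl]
      have e1 : (centralizer ({(x : G)} : Set G)).relIndex W = (centralizer (K : Set G) ⊓ N).relIndex W := by
        rw [← hinf, inf_relIndex_right]
      have e2 : (centralizer (K0 : Set G)).relIndex N = W.relIndex N := by
        rw [hW, inf_relIndex_right]
      have e3 : (centralizer (K : Set G)).relIndex N = (centralizer (K : Set G) ⊓ N).relIndex N := by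
        rw [inf_relIndex_right]
      rw [e1, e2, e3]
      apply relIndex_mul_relIndex
      · rw [← hinf]; exact inf_le_right
      · exact hWN
    · intro f hf
      rcases List.mem_cons.1 hf with rfl | hf
      · refine ⟨?_, q, hq, hqK, hstep⟩
        exact (Subgroup.relIndex_dvd_card _ _).trans (Subgroup.card_dvd_of_le hWN)
      · obtain ⟨h1, r, hr, h2, h3⟩ := hlf f hf
        exact ⟨h1, r, hr, h2.trans ⟨q, hcard.symm⟩, h3⟩

theorem relIndex_normalizer (N H : Subgroup G) [hNn : N.Normal] (hNs : Group.IsSolvable N)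
    (hcop : (Nat.card N).Coprime (Nat.card H)) :
    (normalizer (H : Set G)).relIndex (normalizer ((H ⊔ N : Subgroup G) : Set G)) =
      (centralizer (H : Set G)).relIndex N := by
  have htop : normalizer (N : Set G) = ⊤ := Subgroup.normalizer_eq_top N
  have hNle : ∀ K : Subgroup G, K ≤ normalizer (N : Set G) := fun K => by rw [htop]; exact le_top
  have hNN : N ≤ normalizer ((H ⊔ N : Subgroup G) : Set G) := le_sup_right.trans le_normalizer
  have hFr : normalizer ((H ⊔ N : Subgroup G) : Set G) = N ⊔ normalizer (H : Set G) := by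
    apply le_antisymm
    · intro g hg
      have h1 : MulAut.conj g • H ≤ N ⊔ H := by
        have h2 : MulAut.conj g • H ≤ MulAut.conj g • (H ⊔ N) := H1.conj_smul_le_conj_smul_iff.mpr le_sup_left
        rw [H1.mem_normalizer_iff_conj_smul.1 hg, sup_comm] at h2
        exact h2
      obtain ⟨n, hn, hn'⟩ := H1.sz_conj_rel N (MulAut.conj g • H) H (hNle H) hcop (Or.inl hNs) (H1.card_conj_smul _ _) h1
      rw [H1.conj_smul_smul] at hn'
      have h3 : n * g ∈ normalizer (H : Set G) := H1.mem_normalizer_iff_conj_smul.2 hn'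
      have h4 : g = n⁻¹ * (n * g) := by group
      rw [h4]
      exact mul_mem (Subgroup.mem_sup_left (inv_mem hn)) (Subgroup.mem_sup_right h3)
    · apply sup_le hNN
      intro g hg
      rw [H1.mem_normalizer_iff_conj_smul] at hg ⊢
      rw [Subgroup.smul_sup, hg, Subgroup.Normal.conj_smul_eq_self g N]
  have hinf : normalizer (H : Set G) ⊓ N = centralizer (H : Set G) ⊓ N := by
    apply le_antisymm
    · intro g hg
      obtain ⟨h1, h2⟩ := mem_inf.1 hg
      refine mem_inf.2 ⟨?_, h2⟩
      rw [mem_centralizer_iff]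
      intro h hh
      have h3 : g * h * g⁻¹ * h⁻¹ ∈ H := mul_mem ((mem_normalizer_iff.1 h1 h).1 hh) (inv_mem hh)
      have h4 : g * h * g⁻¹ * h⁻¹ ∈ N := by
        have : g * h * g⁻¹ * h⁻¹ = g * (h * g⁻¹ * h⁻¹) := by group
        rw [this]
        exact mul_mem h2 (hNn.conj_mem _ (inv_mem h2) h)
      have h5 : N ⊓ H = ⊥ := Subgroup.inf_eq_bot_of_coprime hcop
      have h6 : g * h * g⁻¹ * h⁻¹ ∈ N ⊓ H := ⟨h4, h3⟩
      rw [h5, Subgroup.mem_bot, mul_inv_eq_one, mul_inv_eq_iff_eq_mul] at h6
      exact h6.symm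
    · exact inf_le_inf_right _ (Subgroup.centralizer_le_normalizer _)
  have h1 := H1.card_sup_mul_card_inf_of_le_normalizer (H := N) (K := normalizer (H : Set G)) (hNle _)
  have h2 : (normalizer (H : Set G)).relIndex (N ⊔ normalizer (H : Set G)) * Nat.card (normalizer (H : Set G)) =
      Nat.card (N ⊔ normalizer (H : Set G) : Subgroup G) := by
    have := Subgroup.relIndex_mul_relIndex ⊥ (normalizer (H : Set G)) (N ⊔ normalizer (H : Set G)) bot_le le_sup_right
    rw [relIndex_bot_left, relIndex_bot_left] at this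
    rw [mul_comm]; exact this
  have h3 : (normalizer (H : Set G)).relIndex N * Nat.card (N ⊓ normalizer (H : Set G) : Subgroup G) = Nat.card N := by
    have := Subgroup.relIndex_mul_relIndex ⊥ (N ⊓ normalizer (H : Set G)) N bot_le inf_le_left
    rw [relIndex_bot_left, relIndex_bot_left, inf_relIndex_left] at this
    rw [mul_comm]; exact this
  rw [hFr, ← inf_relIndex_right (centralizer (H : Set G)) N, ← hinf, inf_relIndex_right]
  have h4 : 0 < Nat.card (N ⊓ normalizer (H : Set G) : Subgroup G) := Nat.card_pos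
  have h5 : 0 < Nat.card (normalizer (H : Set G)) := Nat.card_pos
  rw [← h2, ← h3] at h1
  have h6 : (normalizer (H : Set G)).relIndex (N ⊔ normalizer (H : Set G)) *
      (Nat.card (normalizer (H : Set G)) * Nat.card (N ⊓ normalizer (H : Set G) : Subgroup G)) =
      (normalizer (H : Set G)).relIndex N *
      (Nat.card (normalizer (H : Set G)) * Nat.card (N ⊓ normalizer (H : Set G) : Subgroup G)) := by
    calc _ = (normalizer (H : Set G)).relIndex (N ⊔ normalizer (H : Set G)) *
      Nat.card (normalizer (H : Set G)) * Nat.card (N ⊓ normalizer (H : Set G) : Subgroup G) := by ring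
      _ = _ := by rw [h1]; ring
  exact Nat.eq_of_mul_eq_mul_right (Nat.mul_pos h5 h4) h6

end A

def PF (G : Type u) [Group G] (m f : ℕ) : Prop :=
  (∃ q e : ℕ, q.Prime ∧ f = q ^ e) ∧ (∃ K L : Subgroup G, K.Normal ∧ L.Normal ∧ K < L ∧
    (∀ M : Subgroup G, M.Normal → K ≤ M → M ≤ L → M = K ∨ M = L) ∧ f ∣ K.relIndex L) ∧
    (∃ q : ℕ, q.Prime ∧ q ∣ m ∧ f ≡ 1 [MOD q])

theorem PF.comap {G : Type u} [Group G] {N : Subgroup G} [N.Normal] {m m' f : ℕ} (h : PF (G ⧸ N) m' f)
    (hm : m' ∣ m) : PF G m f := by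
  obtain ⟨h1, ⟨K, L, hK, hL, hKL, hM, hf⟩, q, hq, hqm, hqf⟩ := h
  have hs := QuotientGroup.mk'_surjective N
  have hNk : ∀ X : Subgroup (G ⧸ N), N ≤ X.comap (QuotientGroup.mk' N) := by
    intro X g hg
    rw [mem_comap]
    have : QuotientGroup.mk' N g = 1 := (QuotientGroup.eq_one_iff g).2 hg
    rw [this]; exact one_mem _
  refine ⟨h1, ⟨K.comap (QuotientGroup.mk' N), L.comap (QuotientGroup.mk' N), inferInstance, inferInstance,
    (Subgroup.comap_lt_comap_of_surjective hs).2 hKL, ?_, ?_⟩, q, hq, hqm.trans hm, hqf⟩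
  · intro M hMn hKM hML
    have hMM : (M.map (QuotientGroup.mk' N)).comap (QuotientGroup.mk' N) = M := by
      rw [Subgroup.comap_map_eq, QuotientGroup.ker_mk', sup_eq_left.2 ((hNk K).trans hKM)]
    have h2 := hM (M.map (QuotientGroup.mk' N)) (hMn.map _ hs) (by
      rw [← Subgroup.map_comap_eq_self_of_surjective hs K]; exact Subgroup.map_mono hKM) (by
      rw [← Subgroup.map_comap_eq_self_of_surjective hs L]; exact Subgroup.map_mono hML)
    rcases h2 with h2 | h2
    · left; rw [← h2, hMM]
    · right; rw [← h2, hMM]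
  · rw [relIndex_comap, Subgroup.map_comap_eq_self_of_surjective hs]
    exact hf

end Cfsg.Agent.H25.HallNum
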