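import Cfsg.Agent.H25.HallNum

/-!
# The number of Hall subgroups of a solvable group: main induction
-/

set_option autoImplicit false
set_option linter.style.haveILetI false
set_option linter.unusedVariables false

namespace Cfsg.Agent.H25.HallNum

open Cfsg Subgroup
open scoped commutatorElement Pointwise

universe u

theorem main : ∀ (n : ℕ) (G : Type u) [Group G] [Finite G], Nat.card G = n → Group.IsSolvable G →
    ∀ m k : ℕ, Nat.card G = m * k → m.Coprime k →
    ∃ l : List ℕ, l.prod = Nat.card {H : Subgroup G // Nat.card H = m} ∧ ∀ f ∈ l, PF G m f := by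
  intro n
  induction n using Nat.strong_induction_on with
  | _ n ih =>
    intro G _ _ hGn hs m k hmk hcop
    by_cases hm1 : m = 1
    · subst hm1
      refine ⟨[], ?_, by simp⟩
      rw [List.prod_nil]
      symm
      rw [Nat.card_eq_one_iff_unique]
      constructor
      · constructor
        rintro ⟨a, ha⟩ ⟨b, hb⟩
        rw [Subgroup.card_eq_one] at ha hb
        exact Subtype.ext (ha.trans hb.symm)
      · exact ⟨⟨⊥, by simp⟩⟩
    have hnt : (⊤ : Subgroup G) ≠ ⊥ := by
      intro h
      have h1 : Nat.card G = 1 := by rw [← Subgroup.card_top, h, Subgroup.card_bot]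
      rw [h1] at hmk
      exact hm1 (Nat.eq_one_of_mul_eq_one_right hmk.symm)
    obtain ⟨N, hNn, hNb, -, hNmin⟩ := H1.exists_minimal_normal_le (N := (⊤ : Subgroup G)) inferInstance hnt
    haveI := hNn
    have hNs : Group.IsSolvable N := H1.isSolvable_of_le le_top (H1.isSolvable_of_equiv Subgroup.topEquiv.symm hs)
    obtain ⟨hNc, p, hp, hNp, -⟩ := H1.minimal_normal_solvable hNn hNb hNmin hNs
    haveI : Fact p.Prime := ⟨hp⟩
    obtain ⟨e, he⟩ := IsPGroup.iff_card.1 hNp
    have he0 : e ≠ 0 := by
      rintro rfl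
      rw [pow_zero, Subgroup.card_eq_one] at he
      exact hNb he
    have hpN : p ∣ Nat.card N := by rw [he]; exact dvd_pow_self p he0
    have hNG : Nat.card N * Nat.card (G ⧸ N) = Nat.card G := by
      rw [← Subgroup.index_eq_card]; exact N.card_mul_index
    have hlt : Nat.card (G ⧸ N) < n := by
      have h1 : 1 < Nat.card N := by
        rw [he]; exact Nat.one_lt_pow he0 hp.one_lt
      have h2 : 0 < Nat.card (G ⧸ N) := Nat.card_pos
      rw [← hGn, ← hNG]
      nlinarith
    obtain ⟨H, hH⟩ := H1.hall_exists hs hmk hcop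
    have hcount := count_eq H m hH (fun K hK => H1.hall_conj hs hmk hcop H K hH hK)
    have hsur := QuotientGroup.mk'_surjective N
    have hQs : Group.IsSolvable (G ⧸ N) := by
      haveI := hs
      infer_instance
    set Hb : Subgroup (G ⧸ N) := H.map (QuotientGroup.mk' N) with hHb
    have hnorm : (normalizer (Hb : Set (G ⧸ N))).comap (QuotientGroup.mk' N) = normalizer ((H ⊔ N : Subgroup G) : Set G) := by
      rw [Subgroup.comap_normalizer_eq_of_surjective Hb hsur, hHb, Subgroup.comap_map_eq, QuotientGroup.ker_mk']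
    have hidx : (normalizer ((H ⊔ N : Subgroup G) : Set G)).index = (normalizer (Hb : Set (G ⧸ N))).index := by
      rw [← hnorm, Subgroup.index_comap_of_surjective _ hsur]
    by_cases hpm : p ∣ m
    · have hpk : ¬ p ∣ k := fun h => Nat.not_coprime_of_dvd_of_dvd hp.one_lt hpm h hcop
      have hNk : (Nat.card N).Coprime k := by
        rw [he]; exact Nat.Coprime.pow_left _ ((Nat.Prime.coprime_iff_not_dvd hp).2 hpk)
      obtain ⟨g, hg⟩ := H1.hall_conj_le hs hmk hcop H N hH hNk
      rw [Subgroup.Normal.conj_smul_eq_self g N] at hg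
      have hHbc : Nat.card Hb * Nat.card N = m := by
        have h1 := H1.card_mul_relIndex_aux hg
        rw [hH] at h1
        rw [← h1, mul_comm]
        congr 1
        rw [hHb, ← relIndex_ker, QuotientGroup.ker_mk']
      have hcard : Nat.card (G ⧸ N) = Nat.card Hb * k := by
        have h1 : 0 < Nat.card N := Nat.card_pos
        apply Nat.eq_of_mul_eq_mul_left h1
        rw [hNG, hmk, ← hHbc]; ring
      have hcop' : (Nat.card Hb).Coprime k := Nat.Coprime.coprime_dvd_left ⟨_, hHbc.symm⟩ hcop
      obtain ⟨l, hl, hlf⟩ := ih _ hlt (G ⧸ N) rfl hQs (Nat.card Hb) k hcard hcop'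
      refine ⟨l, ?_, fun f hf => (hlf f hf).comap ⟨_, hHbc.symm⟩⟩
      rw [hl, hcount, count_eq Hb (Nat.card Hb) rfl (fun K hK => H1.hall_conj hQs hcard hcop' Hb K rfl hK), ← hidx,
        sup_eq_left.2 hg]
    · have hcHN : (Nat.card N).Coprime (Nat.card H) := by
        rw [he, hH]; exact Nat.Coprime.pow_left _ ((Nat.Prime.coprime_iff_not_dvd hp).2 hpm)
      have hHbc : Nat.card Hb = m := by
        have h1 : N ⊓ H = ⊥ := Subgroup.inf_eq_bot_of_coprime hcHN
        have h2 : N.relIndex H = Nat.card H := by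
          rw [← inf_relIndex_right, h1, relIndex_bot_left]
        rw [← hH, ← h2, hHb, ← relIndex_ker, QuotientGroup.ker_mk']
      have hNk : Nat.card N ∣ k := by
        have h1 : (Nat.card N).Coprime m := by rw [← hH]; exact hcHN
        have h2 : Nat.card N ∣ m * k := by rw [← hmk]; exact ⟨_, hNG.symm⟩
        exact h1.dvd_of_dvd_mul_left h2
      obtain ⟨k', hk'⟩ := hNk
      have hcard : Nat.card (G ⧸ N) = m * k' := by
        have h1 : 0 < Nat.card N := Nat.card_pos
        apply Nat.eq_of_mul_eq_mul_left h1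
        rw [hNG, hmk, hk']; ring
      have hcop' : m.Coprime k' := Nat.Coprime.coprime_dvd_right ⟨_, by rw [hk', mul_comm]⟩ hcop
      obtain ⟨l1, hl1, hlf1⟩ := ih _ hlt (G ⧸ N) rfl hQs m k' hcard hcop'
      have hHs : Group.IsSolvable H := H1.isSolvable_of_le le_top (H1.isSolvable_of_equiv Subgroup.topEquiv.symm hs)
      obtain ⟨l2, hl2, hlf2⟩ := chainB N hNc _ H rfl hHs (by rw [Subgroup.normalizer_eq_top]; exact le_top) hcHN.symm
      refine ⟨l1 ++ l2, ?_, ?_⟩
      · rw [List.prod_append, hl1, hl2, hcount, count_eq Hb m hHbc (fun K hK => H1.hall_conj hQs hcard hcop' Hb K hHbc hK),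
          ← hidx, ← relIndex_normalizer N H hNs hcHN, mul_comm]
        apply Subgroup.relIndex_mul_index
        rw [← hnorm, ← Subgroup.map_le_iff_le_comap]
        exact Subgroup.le_normalizer_map _
      · intro f hf
        rcases List.mem_append.1 hf with hf | hf
        · exact (hlf1 f hf).comap dvd_rfl
        · obtain ⟨h1, q, hq, h2, h3⟩ := hlf2 f hf
          refine ⟨?_, ⟨⊥, N, inferInstance, hNn, bot_lt_iff_ne_bot.2 hNb, ?_, ?_⟩, q, hq, ?_, h3⟩
          · rw [he] at h1
            obtain ⟨j, -, hj⟩ := (Nat.dvd_prime_pow hp).1 h1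
            exact ⟨p, j, hp, hj⟩
          · intro M hM _ hMN
            exact hNmin M hM hMN
          · rw [relIndex_bot_left]; exact h1
          · rw [← hH]; exact h2

end Cfsg.Agent.H25.HallNum
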