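import Cfsg.Prelude
import Cfsg.Agent.H2.Cyc
import Cfsg.Agent.H2.Hall
import Cfsg.Agent.H2.GlaubRep
import Cfsg.Agent.H23.Nilp
import Cfsg.Agent.H23.Quat
import Cfsg.Agent.H25.Primary

set_option autoImplicit false
open Cfsg

/-!
# Finite Hamiltonian groups (Dedekind, Baer)
-/

namespace Cfsg.Agent.H25

open Subgroup
open scoped commutatorElement

variable {G : Type*} [Group G]

theorem comm_pow_aux {x y c : G} (h : x * y = c * y * x) (hx : Commute c x) (hy : Commute c y) (m n : ℕ) :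
    x ^ m * y ^ n = c ^ (m * n) * y ^ n * x ^ m := by
  have h1 : ∀ n : ℕ, x * y ^ n = c ^ n * y ^ n * x := by
    intro n
    induction n with
    | zero => simp
    | succ n ih =>
      calc x * y ^ (n + 1) = (x * y ^ n) * y := by rw [pow_succ]; group
        _ = c ^ n * y ^ n * (x * y) := by rw [ih]; group
        _ = c ^ n * (y ^ n * c) * y * x := by rw [h]; group
        _ = c ^ n * (c * y ^ n) * y * x := by rw [(hy.pow_right n).eq]
        _ = c ^ (n + 1) * y ^ (n + 1) * x := by rw [pow_succ, pow_succ]; group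
  induction m with
  | zero => simp
  | succ m ih =>
    calc x ^ (m + 1) * y ^ n = x * (x ^ m * y ^ n) := by rw [pow_succ']; group
      _ = (x * c ^ (m * n)) * y ^ n * x ^ m := by rw [ih]; group
      _ = (c ^ (m * n) * x) * y ^ n * x ^ m := by rw [(hx.pow_left (m * n)).eq]
      _ = c ^ (m * n) * (x * y ^ n) * x ^ m := by group
      _ = c ^ (m * n) * (c ^ n * y ^ n * x) * x ^ m := by rw [h1]
      _ = c ^ ((m + 1) * n) * y ^ n * x ^ (m + 1) := by
        rw [add_mul, one_mul, pow_add, pow_succ']; group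

/-- a `p`-element -/
def IsPEl (p : ℕ) (x : G) : Prop := ∃ k : ℕ, orderOf x = p ^ k

theorem IsPEl.of_pow_eq_one {p : ℕ} (hp : p.Prime) {x : G} {k : ℕ} (h : x ^ p ^ k = 1) : IsPEl p x := by
  obtain ⟨j, -, hj⟩ := (Nat.dvd_prime_pow hp).1 (orderOf_dvd_of_pow_eq_one h)
  exact ⟨j, hj⟩

/-- the descent step -/
theorem ham_step [Finite G] {p : ℕ} [hp : Fact p.Prime] {x y : G} {r s : ℕ} (hrs : s ≤ r)
    (hy : orderOf y = p ^ (s + 1)) (hxy : x ^ p ^ r = y ^ p ^ s)
    (hne : ¬ Commute x y) (hcx : Commute ⁅x, y⁆ x) (hcy : Commute ⁅x, y⁆ y) (hcp : ⁅x, y⁆ ^ p = 1)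
    (hmin : ∀ y' : G, IsPEl p y' → ¬ Commute x y' → orderOf y ≤ orderOf y') :
    p = 2 ∧ r = 1 ∧ s = 1 := by
  set c := ⁅x, y⁆ with hc
  have hxyc : x * y = c * y * x := by rw [hc, commutatorElement_def]; group
  have hs : 1 ≤ s := by
    by_contra h
    have h0 : s = 0 := by omega
    apply hne
    rw [h0, pow_zero, pow_one] at hxy
    rw [← hxy]
    exact (Commute.refl x).pow_right _
  set t := x ^ p ^ (r - s) with ht
  have htx : Commute t x := (Commute.refl x).pow_left _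
  have hct : Commute c t := hcx.pow_right _
  have hty : t * y = c ^ p ^ (r - s) * y * t := by
    have := comm_pow_aux hxyc hcx hcy (p ^ (r - s)) 1
    rwa [mul_one, pow_one] at this
  have hcomm : ⁅y, t⁻¹⁆ = c ^ p ^ (r - s) := by
    rw [commutatorElement_def, inv_inv]
    have h1 : y * t⁻¹ = t⁻¹ * (t * y) * t⁻¹ := by group
    have h2 : t⁻¹ * c ^ p ^ (r - s) = c ^ p ^ (r - s) * t⁻¹ := ((hct.inv_right).pow_left _).symm.eq
    calc y * t⁻¹ * y⁻¹ * t = t⁻¹ * (t * y) * t⁻¹ * y⁻¹ * t := by rw [h1]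
      _ = (t⁻¹ * c ^ p ^ (r - s)) * y * (t * t⁻¹) * y⁻¹ * t := by rw [hty]; group
      _ = (c ^ p ^ (r - s) * t⁻¹) * y * (t * t⁻¹) * y⁻¹ * t := by rw [h2]
      _ = c ^ p ^ (r - s) := by group
  have hct' : Commute t⁻¹ ⁅y, t⁻¹⁆ := by
    rw [hcomm]; exact ((hct.inv_right).pow_left _).symm
  have hcy' : Commute y ⁅y, t⁻¹⁆ := by
    rw [hcomm]; exact (hcy.pow_left _).symm
  have hpow := H2.mul_pow_of_comm hct' hcy' (p ^ s)
  have htp : t ^ p ^ s = y ^ p ^ s := by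
    rw [ht, ← pow_mul, ← pow_add, Nat.sub_add_cancel hrs, hxy]
  rw [inv_pow, htp, inv_mul_cancel, one_mul, hcomm, ← pow_mul] at hpow
  have hne' : ¬ Commute x (t⁻¹ * y) := by
    intro h
    apply hne
    have h2 := (htx.symm).mul_right h
    rwa [mul_inv_cancel_left] at h2
  -- the exponent is prime to `p`
  have hnd : ¬ p ∣ p ^ (r - s) * (p ^ s * (p ^ s - 1) / 2) := by
    rintro ⟨k, hk⟩
    rw [hk, pow_mul, hcp, one_pow] at hpow
    have h3 := hmin _ (IsPEl.of_pow_eq_one hp.out hpow) hne'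
    have h4 := Nat.le_of_dvd (pow_pos hp.out.pos s) (orderOf_dvd_of_pow_eq_one hpow)
    rw [hy, pow_succ] at h3
    have h5 := hp.out.one_lt
    have h6 : p ^ s < p ^ s * p := by
      have := pow_pos hp.out.pos s
      nlinarith
    omega
  have hr : r = s := by
    by_contra h
    apply hnd
    exact Dvd.dvd.mul_right (dvd_pow_self p (by omega)) _
  subst hr
  rw [Nat.sub_self, pow_zero, one_mul] at hnd
  obtain ⟨k, hk⟩ : 2 ∣ p ^ r * (p ^ r - 1) := (Nat.even_mul_pred_self _).two_dvd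
  rw [hk, Nat.mul_div_cancel_left _ two_pos] at hnd
  have hp2 : p = 2 := by
    by_contra h
    apply hnd
    have h1 : p ∣ 2 * k := by
      rw [← hk]; exact Dvd.dvd.mul_right (dvd_pow_self p (by omega)) _
    rcases hp.out.dvd_mul.1 h1 with h2 | h2
    · exact absurd ((Nat.prime_dvd_prime_iff_eq hp.out Nat.prime_two).1 h2) h
    · exact h2
  subst hp2
  refine ⟨rfl, ?_, ?_⟩ <;>
  · by_contra h
    apply hnd
    obtain ⟨m, hm⟩ : ∃ m, r = m + 2 := ⟨r - 2, by omega⟩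
    subst hm
    have h1 : 2 ^ (m + 2) = 4 * 2 ^ m := by rw [pow_add]; ring
    rw [h1] at hk
    refine ⟨2 ^ m * (4 * 2 ^ m - 1), ?_⟩
    have h2 : 2 * k = 2 * (2 * (2 ^ m * (4 * 2 ^ m - 1))) := by rw [← hk]; ring
    exact Nat.eq_of_mul_eq_mul_left two_pos h2

theorem mem_zpowers_of_orderOf_eq {C : Subgroup G} [Finite G] (hC : IsCyclic C) {x y : G}
    (hx : x ∈ C) (hy : y ∈ C) (h : orderOf x = orderOf y) : y ∈ zpowers x := by
  have h1 := H2.zpowers_eq_of_orderOf_eq (G := C) (x := ⟨x, hx⟩) (y := ⟨y, hy⟩)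
    (by rw [← Subgroup.orderOf_coe, ← Subgroup.orderOf_coe]; exact h)
  have h2 : (⟨y, hy⟩ : C) ∈ zpowers (⟨x, hx⟩ : C) := by rw [h1]; exact mem_zpowers _
  obtain ⟨k, hk⟩ := h2
  exact ⟨k, congrArg Subtype.val hk⟩

/-- Noncommuting `p`-elements in a group all of whose subgroups are normal: `p = 2` and there are
quaternion generators. -/
theorem ham_exists [Finite G] (hn : ∀ H : Subgroup G, H.Normal) {p : ℕ} [hp : Fact p.Prime]
    {x₀ y₀ : G} (hx₀ : IsPEl p x₀) (hy₀ : IsPEl p y₀) (hne₀ : ¬ Commute x₀ y₀) :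
    p = 2 ∧ ∃ x y : G, orderOf x = 4 ∧ x ^ 2 = y ^ 2 ∧ ⁅x, y⁆ = x ^ 2 := by
  classical
  have hex : ∃ n, ∃ x y : G, IsPEl p x ∧ IsPEl p y ∧ ¬ Commute x y ∧ orderOf x * orderOf y = n :=
    ⟨_, x₀, y₀, hx₀, hy₀, hne₀, rfl⟩
  obtain ⟨x, y, hx, hy, hne, hxyn⟩ := Nat.find_spec hex
  have hmin : ∀ x' y' : G, IsPEl p x' → IsPEl p y' → ¬ Commute x' y' →
      orderOf x * orderOf y ≤ orderOf x' * orderOf y' := by
    intro x' y' h1 h2 h3
    rw [hxyn]
    exact Nat.find_min' hex ⟨x', y', h1, h2, h3, rfl⟩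
  -- the commutator
  have hcx : ⁅x, y⁆ ∈ zpowers x := by
    have h1 := (hn (zpowers x)).conj_mem _ (inv_mem (mem_zpowers x)) y
    have h2 := mul_mem (mem_zpowers x) h1
    have e : x * (y * x⁻¹ * y⁻¹) = ⁅x, y⁆ := by rw [commutatorElement_def]; group
    rwa [e] at h2
  have hcy : ⁅x, y⁆ ∈ zpowers y := by
    have h1 := (hn (zpowers y)).conj_mem _ (mem_zpowers y) x
    exact mul_mem h1 (inv_mem (mem_zpowers y))
  have hccx : Commute ⁅x, y⁆ x := by
    obtain ⟨k, hk⟩ := hcx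
    have : x ^ k = ⁅x, y⁆ := hk
    rw [← this]; exact (Commute.refl x).zpow_left k
  have hccy : Commute ⁅x, y⁆ y := by
    obtain ⟨k, hk⟩ := hcy
    have : y ^ k = ⁅x, y⁆ := hk
    rw [← this]; exact (Commute.refl y).zpow_left k
  have hc1 : ⁅x, y⁆ ≠ 1 := fun h => hne (commutatorElement_eq_one_iff_commute.1 h)
  have hxyc : x * y = ⁅x, y⁆ * y * x := by rw [commutatorElement_def]; group
  have hx1 : x ≠ 1 := by rintro rfl; exact hne (Commute.one_left y)
  have hy1 : y ≠ 1 := by rintro rfl; exact hne (Commute.one_right x)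
  obtain ⟨a, ha⟩ := hx
  obtain ⟨b, hb⟩ := hy
  obtain ⟨r, rfl⟩ : ∃ r, a = r + 1 := by
    rcases Nat.eq_zero_or_pos a with h | h
    · rw [h, pow_zero, orderOf_eq_one_iff] at ha; exact absurd ha hx1
    · exact ⟨a - 1, by omega⟩
  obtain ⟨s, rfl⟩ : ∃ s, b = s + 1 := by
    rcases Nat.eq_zero_or_pos b with h | h
    · rw [h, pow_zero, orderOf_eq_one_iff] at hb; exact absurd hb hy1
    · exact ⟨b - 1, by omega⟩
  have hcp : ⁅x, y⁆ ^ p = 1 := by
    have h1 : Commute (x ^ p) y := by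
      by_contra h
      have h2 : orderOf (x ^ p) = p ^ r := by
        rw [orderOf_pow' x hp.out.ne_zero, ha, Nat.gcd_eq_right (dvd_pow_self p (by omega)), pow_succ,
          Nat.mul_div_cancel _ hp.out.pos]
      have h3 := hmin (x ^ p) y ⟨r, h2⟩ ⟨_, hb⟩ h
      rw [h2, ha] at h3
      have h4 := Nat.le_of_mul_le_mul_right h3 (orderOf_pos y)
      exact absurd h4 (not_le.2 (Nat.pow_lt_pow_right hp.out.one_lt (by omega)))
    have h5 := comm_pow_aux hxyc hccx hccy p 1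
    rw [pow_one, mul_one, h1.eq, mul_assoc] at h5
    exact (right_eq_mul.1 h5)
  have hco : orderOf ⁅x, y⁆ = p := orderOf_eq_prime hcp hc1
  have hxr : orderOf (x ^ p ^ r) = p := by
    rw [orderOf_pow' x (pow_ne_zero r hp.out.ne_zero), ha,
      Nat.gcd_eq_right (pow_dvd_pow p (by omega)), pow_succ, Nat.mul_div_cancel_left _ (pow_pos hp.out.pos r)]
  have hys : orderOf (y ^ p ^ s) = p := by
    rw [orderOf_pow' y (pow_ne_zero s hp.out.ne_zero), hb,
      Nat.gcd_eq_right (pow_dvd_pow p (by omega)), pow_succ, Nat.mul_div_cancel_left _ (pow_pos hp.out.pos s)]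
  have h1 : x ^ p ^ r ∈ zpowers ⁅x, y⁆ :=
    mem_zpowers_of_orderOf_eq (C := zpowers x) inferInstance hcx (pow_mem (mem_zpowers x) _) (by rw [hco, hxr])
  have h2 : ⁅x, y⁆ ∈ zpowers (y ^ p ^ s) :=
    mem_zpowers_of_orderOf_eq (C := zpowers y) inferInstance (pow_mem (mem_zpowers y) _) hcy (by rw [hco, hys])
  have h3 : x ^ p ^ r ∈ zpowers (y ^ p ^ s) := (zpowers_le.2 h2) h1
  obtain ⟨k, hk⟩ : ∃ k : ℕ, (y ^ p ^ s) ^ k = x ^ p ^ r := by
    have := (isOfFinOrder_of_finite (y ^ p ^ s)).mem_powers_iff_mem_zpowers.2 h3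
    exact this
  -- replace `y` by `y ^ k`
  have hkp : ¬ p ∣ k := by
    rintro ⟨l, rfl⟩
    have h5 : (y ^ p ^ s) ^ p = 1 := by
      have := pow_orderOf_eq_one (y ^ p ^ s)
      rwa [hys] at this
    rw [pow_mul, h5, one_pow] at hk
    rw [← hk, orderOf_one] at hxr
    exact hp.out.one_lt.ne hxr
  have hcopk : Nat.Coprime (orderOf y) k := by
    rw [hb]
    exact Nat.Coprime.pow_left _ ((Nat.Prime.coprime_iff_not_dvd hp.out).2 hkp)
  have hyk : orderOf (y ^ k) = p ^ (s + 1) := by rw [Nat.Coprime.orderOf_pow hcopk, hb]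
  have hne' : ¬ Commute x (y ^ k) := by
    intro h
    apply hne
    obtain ⟨m, hm⟩ := exists_pow_eq_self_of_coprime hcopk.symm
    rw [← hm]
    exact h.pow_right m
  have hxy : x ^ p ^ r = (y ^ k) ^ p ^ s := by rw [← hk, ← pow_mul, ← pow_mul, mul_comm]
  have hcomk : ⁅x, y ^ k⁆ = ⁅x, y⁆ ^ k := by
    have h5 := comm_pow_aux hxyc hccx hccy 1 k
    rw [pow_one, one_mul] at h5
    rw [commutatorElement_def, h5]
    group
  have hck1 : Commute ⁅x, y ^ k⁆ x := by rw [hcomk]; exact hccx.pow_left k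
  have hck2 : Commute ⁅x, y ^ k⁆ (y ^ k) := by rw [hcomk]; exact (hccy.pow_left k).pow_right k
  have hckp : ⁅x, y ^ k⁆ ^ p = 1 := by rw [hcomk, ← pow_mul, mul_comm, pow_mul, hcp, one_pow]
  have hmin1 : ∀ y' : G, IsPEl p y' → ¬ Commute x y' → orderOf (y ^ k) ≤ orderOf y' := by
    intro y' h5 h6
    have h7 := hmin x y' ⟨_, ha⟩ h5 h6
    rw [hyk, ← hb]
    exact Nat.le_of_mul_le_mul_left h7 (orderOf_pos x)
  have hmin2 : ∀ x' : G, IsPEl p x' → ¬ Commute (y ^ k) x' → orderOf x ≤ orderOf x' := by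
    intro x' h5 h6
    have h7 := hmin x' (y ^ k) h5 ⟨_, hyk⟩ (fun h => h6 h.symm)
    rw [hyk, ← hb] at h7
    exact Nat.le_of_mul_le_mul_right h7 (orderOf_pos y)
  have hfin : p = 2 ∧ r = 1 ∧ s = 1 := by
    rcases le_total s r with h | h
    · exact ham_step h hyk hxy hne' hck1 hck2 hckp hmin1
    · have hinv : ⁅y ^ k, x⁆ = ⁅x, y ^ k⁆⁻¹ := (commutatorElement_inv x (y ^ k)).symm
      have := ham_step (x := y ^ k) (y := x) h ha hxy.symm (fun h => hne' h.symm)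
        (by rw [hinv]; exact hck2.inv_left) (by rw [hinv]; exact hck1.inv_left)
        (by rw [hinv, inv_pow, hckp, inv_one]) hmin2
      exact ⟨this.1, this.2.2, this.2.1⟩
  obtain ⟨rfl, rfl, rfl⟩ := hfin
  refine ⟨rfl, x, y ^ k, by rw [ha]; norm_num, by simpa using hxy, ?_⟩
  -- the commutator is the involution of `⟨x⟩`
  have hck0 : ⁅x, y ^ k⁆ ≠ 1 := fun h => hne' (commutatorElement_eq_one_iff_commute.1 h)
  have hcko : orderOf ⁅x, y ^ k⁆ = 2 := orderOf_eq_prime hckp hck0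
  have h5 : ⁅x, y ^ k⁆ ∈ zpowers (x ^ 2 ^ 1) :=
    mem_zpowers_of_orderOf_eq (C := zpowers x) inferInstance (pow_mem (mem_zpowers x) _)
      (by rw [hcomk]; exact pow_mem hcx k) (by rw [hcko, hxr])
  have h6 := (isOfFinOrder_of_finite (x ^ 2 ^ 1)).mem_powers_iff_mem_zpowers.2 h5
  obtain ⟨m, hm⟩ := h6
  have hm' : (x ^ 2) ^ m = ⁅x, y ^ k⁆ := by simpa using hm
  have hx4 : (x ^ 2) ^ 2 = 1 := by
    rw [← pow_mul]
    have := pow_orderOf_eq_one x
    rw [ha] at this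
    exact this
  rcases Nat.even_or_odd' m with ⟨l, rfl | rfl⟩
  · rw [pow_mul, hx4, one_pow] at hm'
    exact absurd hm'.symm hck0
  · rw [pow_succ, pow_mul, hx4, one_pow, one_mul] at hm'
    exact hm'.symm

end Cfsg.Agent.H25
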