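import Mathlib

set_option autoImplicit false

namespace Cfsg.Agent.H25.Jord

open Module

section A

variable {F V : Type*} [Field F] [AddCommGroup V] [Module F V]

/-- the part of the kernel of `N` inside `N^j D` -/
def K (N : V →ₗ[F] V) (D : Submodule F V) (j : ℕ) : Submodule F V :=
  D.map (N ^ j) ⊓ LinearMap.ker N

/-- its dimension: the number of Jordan blocks of `N` on `D` of size `> j` -/
noncomputable def dd (N : V →ₗ[F] V) (D : Submodule F V) (j : ℕ) : ℕ :=
  finrank F (K N D j)

theorem map_pow_succ (N : V →ₗ[F] V) (D : Submodule F V) (j : ℕ) :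
    D.map (N ^ (j + 1)) = (D.map (N ^ j)).map N := by
  rw [← Submodule.map_comp, pow_succ']
  rfl

theorem map_pow_succ' (N : V →ₗ[F] V) (D : Submodule F V) (j : ℕ) :
    D.map (N ^ (j + 1)) = (D.map N).map (N ^ j) := by
  rw [← Submodule.map_comp, pow_succ]
  rfl

theorem map_pow_le {N : V →ₗ[F] V} {D : Submodule F V} (hD : D.map N ≤ D) (j : ℕ) :
    D.map (N ^ j) ≤ D := by
  induction j with
  | zero => rw [pow_zero]; exact (Submodule.map_id D).le
  | succ j ih =>
    rw [map_pow_succ]
    exact (Submodule.map_mono ih).trans hD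

variable [FiniteDimensional F V]

theorem dd_anti {N : V →ₗ[F] V} {D : Submodule F V} (hD : D.map N ≤ D) (j : ℕ) :
    dd N D (j + 1) ≤ dd N D j := by
  apply Submodule.finrank_mono
  unfold K
  rw [map_pow_succ']
  exact inf_le_inf_right _ (Submodule.map_mono hD)

theorem rank_step (N : V →ₗ[F] V) (D : Submodule F V) (j : ℕ) :
    finrank F (D.map (N ^ j)) = finrank F (D.map (N ^ (j + 1))) + dd N D j := by
  set S := D.map (N ^ j) with hS
  have h1 := LinearMap.finrank_range_add_finrank_ker (N.domRestrict S)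
  have h2 : LinearMap.range (N.domRestrict S) = D.map (N ^ (j + 1)) := by
    rw [map_pow_succ, LinearMap.range_domRestrict]
  have h3 : finrank F (LinearMap.ker (N.domRestrict S)) = dd N D j := by
    have : (LinearMap.ker (N.domRestrict S)).map S.subtype = K N D j := by
      ext v
      simp only [Submodule.mem_map, LinearMap.mem_ker, LinearMap.domRestrict_apply, K,
        Submodule.mem_inf, ← hS]
      constructor
      · rintro ⟨w, hw, rfl⟩
        exact ⟨w.2, hw⟩
      · rintro ⟨h1, h2⟩
        exact ⟨⟨v, h1⟩, h2, rfl⟩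
    unfold dd
    rw [← this]
    exact (LinearEquiv.finrank_eq (Submodule.equivMapOfInjective S.subtype
      (Submodule.injective_subtype S) _))
  rw [h2, h3] at h1
  exact h1.symm

theorem sum_dd (N : V →ₗ[F] V) (D : Submodule F V) (m : ℕ) :
    finrank F D = finrank F (D.map (N ^ m)) + ∑ j ∈ Finset.range m, dd N D j := by
  induction m with
  | zero =>
    rw [pow_zero, Finset.sum_range_zero, add_zero]
    rw [show D.map (1 : V →ₗ[F] V) = D from Submodule.map_id D]
  | succ m ih =>
    rw [Finset.sum_range_succ, ih, rank_step N D m]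
    ring

theorem dd_add {N : V →ₗ[F] V} {D W : Submodule F V} (hD : D.map N ≤ D) (hW : W.map N ≤ W)
    (h : IsCompl D W) (j : ℕ) : dd N ⊤ j = dd N D j + dd N W j := by
  have h1 : K N ⊤ j = K N D j ⊔ K N W j := by
    apply le_antisymm
    · rintro v ⟨⟨u, -, hu⟩, hv⟩
      have hu' : u ∈ D ⊔ W := by rw [h.sup_eq_top]; trivial
      obtain ⟨u1, h1, u2, h2, rfl⟩ := Submodule.mem_sup.1 hu'
      have e1 : (N ^ j) u1 ∈ D := map_pow_le hD j ⟨u1, h1, rfl⟩
      have e2 : (N ^ j) u2 ∈ W := map_pow_le hW j ⟨u2, h2, rfl⟩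
      have e3 : N ((N ^ j) u1) ∈ D := hD ⟨_, e1, rfl⟩
      have e4 : N ((N ^ j) u2) ∈ W := hW ⟨_, e2, rfl⟩
      have e5 : N ((N ^ j) u1) + N ((N ^ j) u2) = 0 := by
        rw [← map_add, ← map_add, hu]
        exact hv
      have e6 : N ((N ^ j) u1) = 0 := by
        have : N ((N ^ j) u1) ∈ W := by
          rw [eq_neg_of_add_eq_zero_left e5]
          exact W.neg_mem e4
        exact (Submodule.disjoint_def.1 h.disjoint) _ e3 this
      have e7 : N ((N ^ j) u2) = 0 := by
        rw [e6, zero_add] at e5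
        exact e5
      rw [← hu, map_add]
      exact Submodule.add_mem_sup ⟨⟨u1, h1, rfl⟩, e6⟩ ⟨⟨u2, h2, rfl⟩, e7⟩
    · apply sup_le
      · exact inf_le_inf_right _ (Submodule.map_mono le_top)
      · exact inf_le_inf_right _ (Submodule.map_mono le_top)
  have h2 : K N D j ⊓ K N W j = ⊥ := by
    rw [eq_bot_iff, ← h.inf_eq_bot]
    exact inf_le_inf (inf_le_left.trans (map_pow_le hD j)) (inf_le_left.trans (map_pow_le hW j))
  unfold dd
  rw [h1]
  have := Submodule.finrank_sup_add_finrank_inf_eq (K N D j) (K N W j)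
  rw [h2, finrank_bot, add_zero] at this
  exact this

end A

section B

variable (F : Type*) [Field F] {s : ℕ} (l : Fin s → ℕ)

/-- the nilpotent shift with Jordan blocks `l i` -/
def sh : ((Σ i : Fin s, Fin (l i)) → F) →ₗ[F] ((Σ i : Fin s, Fin (l i)) → F) where
  toFun v := fun k => if h : (k.2 : ℕ) + 1 < l k.1 then v ⟨k.1, ⟨k.2 + 1, h⟩⟩ else 0
  map_add' v w := by
    funext k
    simp only [Pi.add_apply]
    split_ifs <;> simp
  map_smul' c v := by
    funext k
    simp only [Pi.smul_apply, RingHom.id_apply, smul_eq_mul]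
    split_ifs <;> simp

theorem sh_apply (v : (Σ i : Fin s, Fin (l i)) → F) (k : Σ i : Fin s, Fin (l i)) :
    sh F l v k = if h : (k.2 : ℕ) + 1 < l k.1 then v ⟨k.1, ⟨k.2 + 1, h⟩⟩ else 0 := rfl

theorem sh_pow_apply (j : ℕ) (v : (Σ i : Fin s, Fin (l i)) → F) (k : Σ i : Fin s, Fin (l i)) :
    ((sh F l) ^ j) v k = if h : (k.2 : ℕ) + j < l k.1 then v ⟨k.1, ⟨k.2 + j, h⟩⟩ else 0 := by
  induction j generalizing v k with
  | zero => simp
  | succ j ih =>
    rw [pow_succ', Module.End.mul_apply, sh_apply]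
    by_cases h : (k.2 : ℕ) + 1 < l k.1
    · rw [dif_pos h, ih]
      by_cases h2 : (k.2 : ℕ) + 1 + j < l k.1
      · rw [dif_pos h2, dif_pos (by omega)]
        congr 3
        simp only [Nat.add_assoc, Nat.add_comm 1 j]
      · rw [dif_neg h2, dif_neg (by omega)]
    · rw [dif_neg h, dif_neg (by omega)]

theorem sh_pow_eq_zero {m : ℕ} (hm : ∀ i, l i ≤ m) : (sh F l) ^ m = 0 := by
  apply LinearMap.ext
  intro v
  funext k
  rw [sh_pow_apply, dif_neg (by have := hm k.1; omega)]
  rfl

theorem dd_sh (hl : ∀ i, 0 < l i) (j : ℕ) :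
    dd (sh F l) ⊤ j = Fintype.card {i : Fin s // j < l i} := by
  classical
  set I : Set (Σ i : Fin s, Fin (l i)) := {k | (k.2 : ℕ) = 0 ∧ j < l k.1} with hI
  have hK : K (sh F l) ⊤ j = ⨅ k ∈ Iᶜ, LinearMap.ker (LinearMap.proj k : _ →ₗ[F] F) := by
    ext v
    simp only [Submodule.mem_iInf, LinearMap.mem_ker, LinearMap.proj_apply, K, Submodule.mem_inf]
    constructor
    · rintro ⟨⟨u, -, rfl⟩, hv⟩ k hk
      by_cases hk0 : (k.2 : ℕ) = 0
      · rw [sh_pow_apply, dif_neg]
        intro hh
        exact hk ⟨hk0, by omega⟩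
      · obtain ⟨i, b⟩ := k
        simp only at hk0
        have hb := b.2
        have := congrFun hv ⟨i, ⟨(b : ℕ) - 1, by omega⟩⟩
        rw [sh_apply, dif_pos (show ((⟨(b : ℕ) - 1, by omega⟩ : Fin (l i)) : ℕ) + 1 < l i by
          simp only; omega)] at this
        rw [Pi.zero_apply] at this
        convert this using 3
        apply Fin.ext
        simp only
        omega
    · intro hv
      refine ⟨⟨fun k => if h : j ≤ (k.2 : ℕ) then v ⟨k.1, ⟨(k.2 : ℕ) - j, by omega⟩⟩ else 0,
        trivial, ?_⟩, ?_⟩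
      · funext k
        rw [sh_pow_apply]
        by_cases h : (k.2 : ℕ) + j < l k.1
        · rw [dif_pos h]
          simp only
          rw [dif_pos (by omega)]
          congr 1
          apply Sigma.ext
          · rfl
          · apply heq_of_eq
            apply Fin.ext
            simp
        · rw [dif_neg h]
          refine (hv k ?_).symm
          rintro ⟨h1, h2⟩
          omega
      · funext k
        rw [sh_apply]
        by_cases h : (k.2 : ℕ) + 1 < l k.1
        · rw [dif_pos h]
          refine hv _ ?_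
          rintro ⟨h1, h2⟩
          simp at h1
        · rw [dif_neg h]
          rfl
  unfold dd
  rw [hK]
  have e := (LinearMap.iInfKerProjEquiv F (fun _ => F) (I := I) (J := Iᶜ)
    disjoint_compl_right (by simp)).finrank_eq
  rw [e, Module.finrank_fintype_fun_eq_card]
  apply Fintype.card_congr
  refine ⟨fun k => ⟨k.1.1, k.2.2⟩, fun i => ⟨⟨i.1, ⟨0, hl i.1⟩⟩, rfl, i.2⟩, ?_, ?_⟩
  · rintro ⟨⟨i, b⟩, hb, hj⟩
    simp only [Subtype.mk.injEq, Sigma.mk.injEq, heq_eq_eq, true_and]
    apply Fin.ext
    exact hb.symm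
  · rintro ⟨i, hi⟩
    rfl

end B

section C

variable {F V V' : Type*} [Field F] [AddCommGroup V] [Module F V] [AddCommGroup V'] [Module F V']

theorem conj_pow (e : V ≃ₗ[F] V') (N : V →ₗ[F] V) (j : ℕ) : (e.conj N) ^ j = e.conj (N ^ j) := by
  induction j with
  | zero => rw [pow_zero, pow_zero]; exact (LinearEquiv.conj_id e).symm
  | succ j ih => rw [pow_succ, pow_succ, ih]; exact (LinearEquiv.conj_comp e _ _).symm

theorem dd_conj (e : V ≃ₗ[F] V') (N : V →ₗ[F] V) (j : ℕ) :
    dd (e.conj N) ⊤ j = dd N ⊤ j := by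
  unfold dd
  have : K (e.conj N) ⊤ j = (K N ⊤ j).map (e : V →ₗ[F] V') := by
    have hp := conj_pow e N j
    ext v
    simp only [K, Submodule.mem_inf, Submodule.mem_map, Submodule.mem_top, true_and,
      LinearMap.mem_ker, hp, LinearEquiv.conj_apply_apply]
    constructor
    · rintro ⟨⟨u, rfl⟩, h⟩
      refine ⟨(N ^ j) (e.symm u), ⟨⟨_, rfl⟩, ?_⟩, rfl⟩
      simpa using h
    · rintro ⟨w, ⟨⟨u, rfl⟩, h⟩, rfl⟩
      refine ⟨⟨e u, by simp⟩, by simp [h]⟩
  rw [this]
  exact LinearEquiv.finrank_map_eq e _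

end C

/-- counting -/
theorem countP_step (μ : Multiset ℕ) (j : ℕ) :
    μ.countP (fun x => j < x) = μ.countP (fun x => j + 1 < x) + μ.count (j + 1) := by
  induction μ using Multiset.induction_on with
  | empty => simp
  | cons a μ ih =>
    rw [Multiset.countP_cons, Multiset.countP_cons, Multiset.count_cons, ih]
    split_ifs <;> omega

theorem exists_sub (μ : Multiset ℕ) (f g : ℕ → ℕ) (m a : ℕ)
    (hf : ∀ j, f (j + 1) ≤ f j) (hg : ∀ j, g (j + 1) ≤ g j)
    (hμ : ∀ j, μ.countP (fun x => j < x) = f j + g j) (hm : f m = 0)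
    (ha : ∑ j ∈ Finset.range m, f j = a) : ∃ ν : Multiset ℕ, ν ≤ μ ∧ ν.sum = a := by
  classical
  refine ⟨∑ j ∈ Finset.range m, Multiset.replicate (f j - f (j + 1)) (j + 1), ?_, ?_⟩
  · rw [Multiset.le_iff_count]
    intro b
    rw [Multiset.count_sum']
    simp only [Multiset.count_replicate]
    rcases Nat.eq_zero_or_pos b with rfl | hb
    · simp
    · obtain ⟨c, rfl⟩ : ∃ c, b = c + 1 := ⟨b - 1, by omega⟩
      have h1 : (∑ x ∈ Finset.range m, if x + 1 = c + 1 then f x - f (x + 1) else 0) ≤
          f c - f (c + 1) := by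
        by_cases hc : c ∈ Finset.range m
        · rw [Finset.sum_eq_single_of_mem c hc]
          · simp
          · intro x _ hx
            rw [if_neg (by omega)]
        · rw [Finset.sum_eq_zero]
          · exact Nat.zero_le _
          · intro x hx
            rw [if_neg]
            rintro h
            apply hc
            have : x = c := by omega
            rwa [← this]
      refine h1.trans ?_
      have h2 := countP_step μ c
      rw [hμ c, hμ (c + 1)] at h2
      have h3 := hf c
      have h4 := hg c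
      omega
  · have key : ∀ k, (∑ j ∈ Finset.range k, Multiset.replicate (f j - f (j + 1)) (j + 1)).sum
        + k * f k = ∑ j ∈ Finset.range k, f j := by
      intro k
      induction k with
      | zero => simp
      | succ k ih =>
        rw [Finset.sum_range_succ, Finset.sum_range_succ, Multiset.sum_add,
          Multiset.sum_replicate, ← ih, smul_eq_mul]
        have h3 := hf k
        obtain ⟨e, he⟩ := Nat.exists_eq_add_of_le h3
        rw [he, Nat.add_sub_cancel_left]
        ring
    have := key m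
    rw [hm, mul_zero, add_zero] at this
    rw [this, ha]

/-- existence of a nilpotent map with prescribed blocks -/
theorem exists_nilp (F : Type*) [Field F] (n m : ℕ) (μ : Multiset ℕ)
    (hμ : ∀ b ∈ μ, 0 < b ∧ b ≤ m) (hs : μ.sum = n) :
    ∃ N : (Fin n → F) →ₗ[F] (Fin n → F), N ^ m = 0 ∧
      ∀ j, dd N ⊤ j = μ.countP (fun x => j < x) := by
  classical
  obtain ⟨L, rfl⟩ := Quot.exists_rep μ
  set l : Fin L.length → ℕ := L.get with hl
  have hmem : ∀ i, 0 < l i ∧ l i ≤ m := fun i => hμ _ (by
    simp only [Multiset.quot_mk_to_coe'', Multiset.mem_coe, hl]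
    exact List.get_mem L i)
  have hcard : Fintype.card (Σ i : Fin L.length, Fin (l i)) = n := by
    rw [Fintype.card_sigma, ← hs]
    simp only [Fintype.card_fin, Multiset.quot_mk_to_coe'', Multiset.sum_coe, hl]
    rw [← List.sum_ofFn, List.ofFn_get]
  let e : (Σ i : Fin L.length, Fin (l i)) ≃ Fin n := Fintype.equivFinOfCardEq hcard
  let E : ((Σ i : Fin L.length, Fin (l i)) → F) ≃ₗ[F] (Fin n → F) :=
    LinearEquiv.funCongrLeft F F e.symm
  refine ⟨E.conj (sh F l), ?_, ?_⟩
  · rw [conj_pow, sh_pow_eq_zero F l (fun i => (hmem i).2), map_zero]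
  · intro j
    rw [dd_conj, dd_sh F l (fun i => (hmem i).1)]
    simp only [Multiset.quot_mk_to_coe'', Multiset.coe_countP]
    rw [Fintype.card_subtype]
    have h1 : L = List.ofFn l := by rw [hl, List.ofFn_get]
    conv_rhs => rw [h1]
    rw [List.countP_eq_length_filter]
    have := Multiset.countP_eq_card_filter (fun x => j < x) (Finset.univ.val.map l)
    rw [← List.countP_eq_length_filter, ← Multiset.coe_countP]
    have h2 : (List.ofFn l : Multiset ℕ) = Finset.univ.val.map l := by
      simp [Fin.univ_def, List.ofFn_eq_map]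
    rw [h2, Multiset.countP_map]
    rfl

end Cfsg.Agent.H25.Jord
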