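import Mathlib

set_option autoImplicit false
set_option linter.unusedSectionVars false

namespace Cfsg.Agent.H25.KrullSchmidt

/-- directly indecomposable -/
def Ind (A : Type*) [Group A] : Prop :=
  Nontrivial A ∧ ∀ H K : Subgroup A, H.Normal → K.Normal → H ⊓ K = ⊥ → H ⊔ K = ⊤ → H = ⊥ ∨ K = ⊥

/-- normal endomorphisms -/
def NE {A : Type*} [Group A] (φ : A →* A) : Prop := ∀ g x, φ (g * x * g⁻¹) = g * φ x * g⁻¹

section one

variable {A : Type*} [Group A] [Finite A]

theorem exists_idem (φ : A →* A) : ∃ n : ℕ, 0 < n ∧ ∀ x, (φ^[n]) ((φ^[n]) x) = (φ^[n]) x := by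
  have : ∃ a b : ℕ, a < b ∧ φ^[a] = φ^[b] := by
    obtain ⟨a, b, hab, h⟩ := Finite.exists_ne_map_eq_of_infinite (fun n : ℕ => (φ^[n] : A → A))
    rcases lt_or_gt_of_ne hab with h1 | h1
    · exact ⟨a, b, h1, h⟩
    · exact ⟨b, a, h1, h.symm⟩
  obtain ⟨a, b, hab, h⟩ := this
  obtain ⟨d, rfl⟩ := Nat.exists_eq_add_of_lt hab
  -- period d+1 from a on
  have h1 : ∀ m, a ≤ m → ∀ k : ℕ, φ^[m] = φ^[m + k * (d + 1)] := by
    intro m hm k
    induction k with
    | zero => simp
    | succ k ih =>
      rw [ih]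
      obtain ⟨c, rfl⟩ := Nat.exists_eq_add_of_le hm
      rw [show a + c + k * (d + 1) = (c + k * (d + 1)) + a by ring, Function.iterate_add, h,
        ← Function.iterate_add, show (c + k * (d + 1)) + (a + d + 1) = a + c + (k + 1) * (d + 1) by ring]
  refine ⟨(a + 1) * (d + 1), by positivity, ?_⟩
  intro x
  have h2 := h1 ((a + 1) * (d + 1)) (by nlinarith [Nat.zero_le d]) (a + 1)
  rw [← Function.iterate_add_apply]
  exact (congrFun h2 x).symm

theorem iter_mul (φ : A →* A) (n : ℕ) (x y : A) : φ^[n] (x * y) = φ^[n] x * φ^[n] y := by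
  induction n generalizing x y with
  | zero => rfl
  | succ n ih => rw [Function.iterate_succ_apply, map_mul, ih]; rfl

theorem iter_ne (φ : A →* A) (hφ : NE φ) (n : ℕ) (g x : A) : φ^[n] (g * x * g⁻¹) = g * φ^[n] x * g⁻¹ := by
  induction n generalizing g x with
  | zero => rfl
  | succ n ih => rw [Function.iterate_succ_apply, hφ, ih]; rfl

/-- Fitting's lemma -/
theorem fitting (hA : Ind A) (φ : A →* A) (hφ : NE φ) :
    Function.Injective φ ∨ ∃ n : ℕ, ∀ x, φ^[n] x = 1 := by
  obtain ⟨n, hn, hidem⟩ := exists_idem φ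
  set ε : A →* A := MonoidHom.mk' (φ^[n]) (iter_mul φ n) with hε
  have hεn : NE ε := iter_ne φ hφ n
  have hid : ∀ x, ε (ε x) = ε x := hidem
  have h1 : ε.ker ⊓ ε.range = ⊥ := by
    rw [eq_bot_iff]
    rintro x ⟨hx1, y, rfl⟩
    have hx2 : ε (ε y) = 1 := hx1
    rw [hid] at hx2
    rw [hx2]
    exact Subgroup.one_mem _
  have h2 : ε.ker ⊔ ε.range = ⊤ := by
    rw [eq_top_iff]
    intro x _
    have : x = (x * (ε x)⁻¹) * ε x := by group
    rw [this]
    apply Subgroup.mul_mem_sup
    · rw [MonoidHom.mem_ker, map_mul, map_inv, hid, mul_inv_cancel]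
    · exact ⟨x, rfl⟩
  have h3 : ε.range.Normal := ⟨by
    rintro _ ⟨x, rfl⟩ g
    exact ⟨g * x * g⁻¹, hεn g x⟩⟩
  rcases hA.2 ε.ker ε.range inferInstance h3 h1 h2 with h | h
  · left
    rw [MonoidHom.ker_eq_bot_iff] at h
    have h4 : Function.Injective (φ^[n]) := h
    obtain ⟨m, rfl⟩ := Nat.exists_eq_succ_of_ne_zero hn.ne'
    rw [Function.iterate_succ] at h4
    exact h4.of_comp
  · right
    refine ⟨n, fun x => ?_⟩
    have : ε x ∈ ε.range := ⟨x, rfl⟩
    rw [h, Subgroup.mem_bot] at this
    exact this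

theorem two_bij (hA : Ind A) (θ Φ ψ : A →* A) (hθ : NE θ) (hψ : NE ψ)
    (hb : Function.Bijective θ) (h : ∀ x, θ x = Φ x * ψ x) :
    Function.Bijective Φ ∨ Function.Bijective ψ := by
  set e := MulEquiv.ofBijective θ hb with he
  have heθ : ∀ x, θ (e.symm x) = x := fun x => e.apply_symm_apply x
  have hes : ∀ g x, e.symm (g * x * g⁻¹) = g * e.symm x * g⁻¹ := by
    intro g x
    apply hb.1
    rw [heθ, hθ, heθ]
  set χ : A →* A := ψ.comp e.symm.toMonoidHom with hχ
  have hχn : NE χ := by
    intro g x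
    show ψ (e.symm (g * x * g⁻¹)) = g * ψ (e.symm x) * g⁻¹
    rw [hes, hψ]
  rcases fitting hA χ hχn with h1 | ⟨n, h1⟩
  · right
    apply (Finite.injective_iff_bijective).1
    intro a b hab
    have h2 : χ (θ a) = χ (θ b) := by
      show ψ (e.symm (e a)) = ψ (e.symm (e b))
      rw [e.symm_apply_apply, e.symm_apply_apply, hab]
    exact hb.1 (h1 h2)
  · left
    apply (Finite.injective_iff_bijective).1
    rw [injective_iff_map_eq_one]
    intro a ha
    have h2 : χ (θ a) = θ a := by
      show ψ (e.symm (e a)) = θ a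
      rw [e.symm_apply_apply, h a, ha, one_mul]
    have h3 : ∀ k, χ^[k] (θ a) = θ a := fun k => Function.iterate_fixed h2 k
    have h4 := h1 (θ a)
    rw [h3] at h4
    apply hb.1
    rw [h4, map_one]

end one

section exch

variable {I J : Type*} [DecidableEq I] [DecidableEq J] {A : I → Type*} {B : J → Type*}
  [∀ i, Group (A i)] [∀ j, Group (B j)]

/-- projection to a set of coordinates -/
def restr (S : Finset J) : ((j : J) → B j) →* ((j : J) → B j) where
  toFun := fun x j => if j ∈ S then x j else 1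
  map_one' := by funext j; simp
  map_mul' := by
    intro x y
    funext j
    by_cases h : j ∈ S <;> simp [h]

theorem restr_apply (S : Finset J) (x : (j : J) → B j) (j : J) : restr S x j = if j ∈ S then x j else 1 := rfl

/-- compression of the projection -/
def comp (e : ((i : I) → A i) ≃* ((j : J) → B j)) (i0 : I) (S : Finset J) : A i0 →* A i0 :=
  (Pi.evalMonoidHom A i0).comp (e.symm.toMonoidHom.comp ((restr S).comp
    (e.toMonoidHom.comp (MonoidHom.mulSingle A i0))))

theorem comp_apply (e : ((i : I) → A i) ≃* ((j : J) → B j)) (i0 : I) (S : Finset J) (x : A i0) :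
    comp e i0 S x = e.symm (restr S (e (Pi.mulSingle i0 x))) i0 := rfl

theorem comp_ne (e : ((i : I) → A i) ≃* ((j : J) → B j)) (i0 : I) (S : Finset J) : NE (comp e i0 S) := by
  intro g x
  rw [comp_apply, comp_apply, Pi.mulSingle_mul, Pi.mulSingle_mul, map_mul e, map_mul e, Pi.mulSingle_inv, map_inv e]
  have : restr S (e (Pi.mulSingle i0 g) * e (Pi.mulSingle i0 x) * (e (Pi.mulSingle i0 g))⁻¹) =
      e (Pi.mulSingle i0 g) * restr S (e (Pi.mulSingle i0 x)) * (e (Pi.mulSingle i0 g))⁻¹ := by
    funext j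
    rw [Pi.mul_apply, Pi.mul_apply, restr_apply, restr_apply, Pi.mul_apply, Pi.mul_apply]
    by_cases h : j ∈ S
    · rw [if_pos h, if_pos h]
    · rw [if_neg h, if_neg h, mul_one, Pi.inv_apply, mul_inv_cancel]
  rw [this, map_mul, map_mul, map_inv, e.symm_apply_apply, Pi.mul_apply, Pi.mul_apply, Pi.inv_apply,
    Pi.mulSingle_eq_same]

theorem exists_bij (e : ((i : I) → A i) ≃* ((j : J) → B j)) (i0 : I) [Finite (A i0)] (hA : Ind (A i0))
    (S : Finset J) (hS : Function.Bijective (comp e i0 S)) : ∃ j ∈ S, Function.Bijective (comp e i0 {j}) := by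
  induction S using Finset.induction_on with
  | empty =>
    exfalso
    haveI := hA.1
    obtain ⟨a, ha⟩ := exists_ne (1 : A i0)
    apply ha
    apply hS.1
    rw [comp_apply, comp_apply]
    have : ∀ y : (j : J) → B j, restr ∅ y = 1 := by
      intro y
      funext j
      rw [restr_apply, if_neg (Finset.notMem_empty j)]; rfl
    rw [this, this]
  | insert j S hj ih =>
    rcases two_bij hA (comp e i0 (insert j S)) (comp e i0 {j}) (comp e i0 S) (comp_ne e i0 _) (comp_ne e i0 _) hS (by
      intro x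
      rw [comp_apply, comp_apply, comp_apply, ← Pi.mul_apply, ← map_mul]
      refine congrFun (congrArg e.symm ?_) i0
      funext k
      rw [Pi.mul_apply, restr_apply, restr_apply, restr_apply]
      by_cases hk : k = j
      · subst hk
        rw [if_pos (Finset.mem_insert_self _ _), if_pos (Finset.mem_singleton_self _), if_neg hj, mul_one]
      · rw [if_neg (show k ∉ ({j} : Finset J) by simpa using hk), one_mul]
        by_cases hk2 : k ∈ S
        · rw [if_pos (Finset.mem_insert_of_mem hk2), if_pos hk2]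
        · rw [if_neg hk2, if_neg (by rw [Finset.mem_insert]; tauto)]) with h | h
    · exact ⟨j, Finset.mem_insert_self _ _, h⟩
    · obtain ⟨k, hk, hk2⟩ := ih h
      exact ⟨k, Finset.mem_insert_of_mem hk, hk2⟩

theorem exists_j [Fintype J] (e : ((i : I) → A i) ≃* ((j : J) → B j)) (i0 : I) [Finite (A i0)] (hA : Ind (A i0))
    [∀ j, Finite (B j)] (hB : ∀ j, Ind (B j)) :
    ∃ j, Function.Bijective ((Pi.evalMonoidHom B j).comp (e.toMonoidHom.comp (MonoidHom.mulSingle A i0))) := by
  obtain ⟨j, -, hj⟩ := exists_bij e i0 hA Finset.univ (by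
    have : ∀ x, comp e i0 Finset.univ x = x := by
      intro x
      rw [comp_apply]
      have : restr Finset.univ (e (Pi.mulSingle i0 x)) = e (Pi.mulSingle i0 x) := by
        funext k
        rw [restr_apply, if_pos (Finset.mem_univ k)]
      rw [this, e.symm_apply_apply, Pi.mulSingle_eq_same]
    have h2 : (comp e i0 Finset.univ : A i0 → A i0) = id := funext this
    rw [h2]
    exact Function.bijective_id)
  refine ⟨j, ?_⟩
  set u : A i0 →* B j := (Pi.evalMonoidHom B j).comp (e.toMonoidHom.comp (MonoidHom.mulSingle A i0)) with hu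
  set v : B j →* A i0 := (Pi.evalMonoidHom A i0).comp (e.symm.toMonoidHom.comp (MonoidHom.mulSingle B j)) with hv
  have hu' : ∀ x, u x = e (Pi.mulSingle i0 x) j := fun x => rfl
  have hv' : ∀ x, v x = e.symm (Pi.mulSingle j x) i0 := fun x => rfl
  have hvu : ∀ x, comp e i0 {j} x = v (u x) := by
    intro x
    rw [comp_apply, hv', hu']
    refine congrFun (congrArg e.symm ?_) i0
    funext k
    rw [restr_apply]
    by_cases hk : k = j
    · subst hk
      rw [if_pos (Finset.mem_singleton_self _), Pi.mulSingle_eq_same]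
    · rw [if_neg (by simpa using hk), Pi.mulSingle_eq_of_ne hk]
  have huinj : Function.Injective u := by
    intro a b hab
    apply hj.1
    rw [hvu, hvu, hab]
  have h1 : u.range ⊓ v.ker = ⊥ := by
    rw [eq_bot_iff]
    rintro _ ⟨⟨x, rfl⟩, hx2⟩
    have hx3 : v (u x) = 1 := hx2
    rw [← hvu] at hx3
    have : x = 1 := hj.1 (by rw [hx3, map_one])
    rw [this, map_one]
    exact Subgroup.mem_bot.2 rfl
  have h2 : u.range ⊔ v.ker = ⊤ := by
    rw [eq_top_iff]
    intro b _
    obtain ⟨a, ha⟩ := hj.2 (v b)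
    rw [hvu] at ha
    have : b = u a * ((u a)⁻¹ * b) := by group
    rw [this]
    apply Subgroup.mul_mem_sup
    · exact ⟨a, rfl⟩
    · rw [MonoidHom.mem_ker, map_mul, map_inv, ha, inv_mul_cancel]
  have h3 : u.range.Normal := ⟨by
    rintro _ ⟨a, rfl⟩ b
    set g := e.symm (Pi.mulSingle j b) with hg
    refine ⟨g i0 * a * (g i0)⁻¹, ?_⟩
    have h4 : Pi.mulSingle i0 (g i0 * a * (g i0)⁻¹) = g * Pi.mulSingle i0 a * g⁻¹ := by
      funext i
      by_cases hi : i = i0
      · subst hi
        rw [Pi.mulSingle_eq_same, Pi.mul_apply, Pi.mul_apply, Pi.inv_apply, Pi.mulSingle_eq_same]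
      · rw [Pi.mulSingle_eq_of_ne hi, Pi.mul_apply, Pi.mul_apply, Pi.inv_apply, Pi.mulSingle_eq_of_ne hi,
          mul_one, mul_inv_cancel]
    rw [hu', hu', h4, map_mul, map_mul, map_inv, hg, e.apply_symm_apply, Pi.mul_apply, Pi.mul_apply,
      Pi.inv_apply, Pi.mulSingle_eq_same]⟩
  refine ⟨huinj, ?_⟩
  rcases (hB j).2 u.range v.ker h3 inferInstance h1 h2 with h | h
  · exfalso
    haveI := hA.1
    obtain ⟨a, ha⟩ := exists_ne (1 : A i0)
    have : u a ∈ u.range := ⟨a, rfl⟩
    rw [h, Subgroup.mem_bot] at this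
    exact ha (huinj (by rw [this, map_one]))
  · rw [h, sup_bot_eq] at h2
    exact MonoidHom.range_eq_top.1 h2

theorem card_split [Fintype I] (i0 : I) :
    Nat.card ((i : I) → A i) = Nat.card (A i0) * Nat.card ((i : {i // i ≠ i0}) → A i.1) := by
  rw [← Nat.card_prod]
  apply Nat.card_congr
  exact
  { toFun := fun x => (x i0, fun i => x i.1)
    invFun := fun y i => if h : i = i0 then (h ▸ y.1) else y.2 ⟨i, h⟩
    left_inv := by
      intro x
      funext i
      by_cases h : i = i0
      · subst h; simp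
      · simp [h]
    right_inv := by
      intro y
      ext i
      · simp
      · simp [i.2] }

theorem reduce [Fintype I] [Fintype J] [∀ i, Finite (A i)] [∀ j, Finite (B j)]
    (e : ((i : I) → A i) ≃* ((j : J) → B j)) (i0 : I) (j0 : J)
    (hb : Function.Bijective ((Pi.evalMonoidHom B j0).comp (e.toMonoidHom.comp (MonoidHom.mulSingle A i0)))) :
    Nonempty (((i : {i // i ≠ i0}) → A i.1) ≃* ((j : {j // j ≠ j0}) → B j.1)) := by
  set ex : ((j : {j // j ≠ j0}) → B j.1) →* ((j : J) → B j) :=
    { toFun := fun y j => if h : j = j0 then 1 else y ⟨j, h⟩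
      map_one' := by funext j; by_cases h : j = j0 <;> simp [h]
      map_mul' := by
        intro x y
        funext j
        by_cases h : j = j0 <;> simp [h] } with hex
  set rs : ((i : I) → A i) →* ((i : {i // i ≠ i0}) → A i.1) :=
    { toFun := fun x i => x i.1
      map_one' := rfl
      map_mul' := fun _ _ => rfl } with hrs
  set θ := rs.comp (e.symm.toMonoidHom.comp ex) with hθ
  have hθ' : ∀ y, θ y = rs (e.symm (ex y)) := fun y => rfl
  have hinj : Function.Injective θ := by
    rw [injective_iff_map_eq_one]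
    intro y hy
    rw [hθ'] at hy
    have h1 : e.symm (ex y) = Pi.mulSingle i0 ((e.symm (ex y)) i0) := by
      funext i
      by_cases hi : i = i0
      · subst hi; rw [Pi.mulSingle_eq_same]
      · rw [Pi.mulSingle_eq_of_ne hi]
        exact congrFun hy ⟨i, hi⟩
    have h2 : ex y = e (Pi.mulSingle i0 ((e.symm (ex y)) i0)) := by
      rw [← h1, e.apply_symm_apply]
    have h3 : (ex y) j0 = 1 := by
      exact dif_pos rfl
    have h4 : (e.symm (ex y)) i0 = 1 := by
      apply hb.1
      show e (Pi.mulSingle i0 ((e.symm (ex y)) i0)) j0 = e (Pi.mulSingle i0 1) j0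
      rw [← h2, h3, Pi.mulSingle_one, map_one, Pi.one_apply]
    rw [h4, Pi.mulSingle_one, map_one] at h2
    funext j
    have h5 := congrFun h2 j.1
    have h6 : ex y j.1 = y j := by
      exact dif_neg j.2
    rw [h6] at h5
    exact h5
  have hcard : Nat.card ((j : {j // j ≠ j0}) → B j.1) = Nat.card ((i : {i // i ≠ i0}) → A i.1) := by
    have h1 := card_split (A := A) i0
    have h2 := card_split (A := B) j0
    have h3 := Nat.card_congr e.toEquiv
    have h4 := Nat.card_congr (Equiv.ofBijective _ hb)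
    rw [h1, h2, h4] at h3
    exact (Nat.eq_of_mul_eq_mul_left Nat.card_pos h3).symm
  have hbij : Function.Bijective θ := (Nat.bijective_iff_injective_and_card _).2 ⟨hinj, hcard⟩
  exact ⟨(MulEquiv.ofBijective θ hbij).symm⟩

end exch

theorem main : ∀ (N : ℕ) {I J : Type} [Fintype I] [Fintype J] {A : I → Type*} {B : J → Type*}
    [∀ i, Group (A i)] [∀ j, Group (B j)] [∀ i, Finite (A i)] [∀ j, Finite (B j)]
    (_ : ∀ i, Ind (A i)) (_ : ∀ j, Ind (B j)) (_ : ((i : I) → A i) ≃* ((j : J) → B j)),
    Fintype.card I = N → ∃ σ : I ≃ J, ∀ i, Nonempty (A i ≃* B (σ i)) := by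
  classical
  intro N
  induction N with
  | zero =>
    intro I J _ _ A B _ _ _ _ hA hB e hI
    haveI : IsEmpty I := Fintype.card_eq_zero_iff.1 hI
    haveI : IsEmpty J := by
      by_contra hJ
      rw [not_isEmpty_iff] at hJ
      obtain ⟨j⟩ := hJ
      haveI := (hB j).1
      obtain ⟨b, hb⟩ := exists_ne (1 : B j)
      apply hb
      have h1 : (Pi.mulSingle j b : (j : J) → B j) = 1 := by
        apply e.symm.injective
        exact Subsingleton.elim _ _
      have h2 := congrFun h1 j
      rw [Pi.mulSingle_eq_same] at h2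
      exact h2
    exact ⟨Equiv.equivOfIsEmpty I J, fun i => isEmptyElim i⟩
  | succ N ih =>
    intro I J _ _ A B _ _ _ _ hA hB e hI
    obtain ⟨i0⟩ : Nonempty I := Fintype.card_pos_iff.1 (by omega)
    obtain ⟨j0, hb⟩ := exists_j e i0 (hA i0) hB
    obtain ⟨e'⟩ := reduce e i0 j0 hb
    obtain ⟨σ', hσ'⟩ := ih (I := {i // i ≠ i0}) (J := {j // j ≠ j0}) (A := fun i => A i.1) (B := fun j => B j.1)
      (fun i => hA i.1) (fun j => hB j.1) e' (by
        rw [Fintype.card_subtype_compl, Fintype.card_subtype_eq]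
        omega)
    refine ⟨(Equiv.optionSubtypeNe i0).symm.trans ((Equiv.optionCongr σ').trans (Equiv.optionSubtypeNe j0)), ?_⟩
    intro i
    obtain ⟨o, rfl⟩ := (Equiv.optionSubtypeNe i0).surjective i
    rw [Equiv.trans_apply, Equiv.symm_apply_apply]
    cases o with
    | none => exact ⟨MulEquiv.ofBijective _ hb⟩
    | some i => exact hσ' i

end Cfsg.Agent.H25.KrullSchmidt
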