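import Mathlib

set_option autoImplicit false

namespace Cfsg.Agent.H25

/-- If `c² = a^(2j+1)` over the integers then `a = t²`, `c = t^(2j+1)`. -/
theorem exists_sqrt_of_odd_pow {a c : ℤ} {j : ℕ} (h : c ^ 2 = a ^ (2 * j + 1)) :
    ∃ t : ℤ, a = t ^ 2 ∧ c = t ^ (2 * j + 1) := by
  by_cases ha : a = 0
  · subst ha
    rw [zero_pow (by omega)] at h
    have hc : c = 0 := by
      have := pow_eq_zero_iff (two_ne_zero) |>.1 h
      exact this
    exact ⟨0, by simp, by rw [hc, zero_pow (by omega)]⟩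
  have h1 : (a ^ j) ^ 2 ∣ c ^ 2 := by
    rw [h, ← pow_mul, mul_comm j 2]
    exact pow_dvd_pow a (by omega)
  rw [Int.pow_dvd_pow_iff two_ne_zero] at h1
  obtain ⟨u, hu⟩ := h1
  have hne : a ^ j ≠ 0 := pow_ne_zero _ ha
  have h2 : u ^ 2 = a := by
    have h3 : (a ^ j) ^ 2 * u ^ 2 = (a ^ j) ^ 2 * a := by
      rw [← mul_pow, ← hu, h]; ring
    exact mul_left_cancel₀ (pow_ne_zero 2 hne) h3
  refine ⟨u, h2.symm, ?_⟩
  rw [hu, ← h2]; ring

theorem design_arith {n k l c d : ℤ} {j : ℕ} (hn : 2 ≤ n) (hk1 : 1 ≤ k) (hkn : k ≤ n)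
    (hcop : IsCoprime k n) (h1 : k ^ 2 = (k - l) + l * n) (h2 : c ^ 2 = (k - l) ^ (2 * j + 1))
    (h3 : k ^ (2 * j + 1) = c + d * n) : k = 1 ∨ k = n - 1 := by
  obtain ⟨t, ht, hc⟩ := exists_sqrt_of_odd_pow h2
  have hkn' : k ≠ n := by
    rintro rfl
    have : IsUnit k := isCoprime_self.1 hcop
    rcases Int.isUnit_iff.1 this with h | h <;> omega
  -- `k ≡ t mod n`
  have hmod : n ∣ k - t := by
    have h4 : n ∣ k ^ 2 - t ^ 2 := ⟨l, by rw [h1, ← ht]; ring⟩
    have h5 : n ∣ (k ^ 2) ^ j - (t ^ 2) ^ j := h4.trans (sub_dvd_pow_sub_pow _ _ _)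
    have h6 : n ∣ k ^ (2 * j + 1) - t ^ (2 * j + 1) := ⟨d, by rw [h3, hc]; ring⟩
    have h7 : n ∣ (k - t) * k ^ (2 * j) := by
      have e : (k - t) * k ^ (2 * j) = (k ^ (2 * j + 1) - t ^ (2 * j + 1)) - t * ((k ^ 2) ^ j - (t ^ 2) ^ j) := by
        ring
      rw [e]
      exact dvd_sub h6 (dvd_mul_of_dvd_right h5 t)
    exact IsCoprime.dvd_of_dvd_mul_right (IsCoprime.pow_right hcop.symm) h7
  have h8 : t ^ 2 * (n - 1) = k * (n - k) := by
    rw [← ht]; nlinarith
  have htn : |t| < n := by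
    rw [← sq_lt_sq₀ (abs_nonneg t) (by omega), sq_abs]
    by_contra hcon
    push Not at hcon
    nlinarith [mul_nonneg (sub_nonneg.2 hcon) (by omega : (0 : ℤ) ≤ n - 1)]
  rw [abs_lt] at htn
  obtain ⟨z, hz⟩ := hmod
  have hz0 : 0 ≤ z := by
    by_contra hcon
    push Not at hcon
    nlinarith
  have hz1 : z < 2 := by
    by_contra hcon
    push Not at hcon
    nlinarith
  interval_cases z
  · left
    have htk : t = k := by omega
    rw [htk] at h8
    have h9 : k * (k * (n - 1)) = k * (n - k) := by rw [← h8]; ring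
    have h10 := mul_left_cancel₀ (by omega : k ≠ 0) h9
    nlinarith
  · right
    have htk : t = k - n := by omega
    rw [htk] at h8
    have h9 : (n - k) * ((n - k) * (n - 1)) = (n - k) * k := by
      have : (k - n) ^ 2 * (n - 1) = (n - k) * ((n - k) * (n - 1)) := by ring
      rw [← this, h8]; ring
    have h10 := mul_left_cancel₀ (by omega : n - k ≠ 0) h9
    have h11 : n * (n - 1 - k) = 0 := by nlinarith
    rcases mul_eq_zero.1 h11 with h12 | h12 <;> omega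

end Cfsg.Agent.H25
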