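import Mathlib
import Cfsg.Agent.H25.OddDesign

set_option autoImplicit false

namespace Cfsg.Agent.H25

open Matrix

section

variable {Ω : Type*} [Fintype Ω] [DecidableEq Ω] {G : Type*} [Group G] [MulAction G Ω]

/-- all ones matrix -/
def Jm (Ω : Type*) : Matrix Ω Ω ℤ := Matrix.of fun _ _ => 1

omit [DecidableEq Ω] in
theorem Jm_mul_Jm : Jm Ω * Jm Ω = (Fintype.card Ω : ℤ) • Jm Ω := by
  ext i j
  simp [Jm, Matrix.mul_apply]

omit [DecidableEq Ω] in
theorem mul_Jm {A : Matrix Ω Ω ℤ} {k : ℤ} (h : ∀ x, ∑ y, A x y = k) : A * Jm Ω = k • Jm Ω := by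
  ext i j
  simp [Jm, Matrix.mul_apply, h i]

omit [DecidableEq Ω] in
theorem Jm_mul {A : Matrix Ω Ω ℤ} {k : ℤ} (h : ∀ y, ∑ x, A x y = k) : Jm Ω * A = k • Jm Ω := by
  ext i j
  simp [Jm, Matrix.mul_apply, h j]

theorem entry_diag (c d : ℤ) (x : Ω) : (c • (1 : Matrix Ω Ω ℤ) + d • Jm Ω) x x = c + d := by
  rw [Matrix.add_apply, Matrix.smul_apply, Matrix.smul_apply, Matrix.one_apply_eq]
  simp [Jm]

theorem entry_off (c d : ℤ) {x y : Ω} (h : x ≠ y) : (c • (1 : Matrix Ω Ω ℤ) + d • Jm Ω) x y = d := by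
  rw [Matrix.add_apply, Matrix.smul_apply, Matrix.smul_apply, Matrix.one_apply_ne h]
  simp [Jm]

/-- A matrix invariant under a 2-transitive group is `c I + d J`. -/
theorem invariant_matrix (h2 : ∀ {a b c d : Ω} (_ : a ≠ b) (_ : c ≠ d), ∃ g : G, g • a = c ∧ g • b = d)
    (htr : ∀ a b : Ω, ∃ g : G, g • a = b)
    (hΩ : Nontrivial Ω) (M : Matrix Ω Ω ℤ) (hM : ∀ (g : G) (x y : Ω), M (g • x) (g • y) = M x y) :
    ∃ c d : ℤ, M = c • (1 : Matrix Ω Ω ℤ) + d • Jm Ω := by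
  obtain ⟨a, b, hab⟩ := hΩ
  refine ⟨M a a - M a b, M a b, ?_⟩
  ext x y
  by_cases hxy : x = y
  · subst hxy
    obtain ⟨g, hg⟩ := htr a x
    have := hM g a a
    rw [hg] at this
    rw [entry_diag, this]
    ring
  · obtain ⟨g, hg1, hg2⟩ := h2 hab hxy
    have := hM g a b
    rw [hg1, hg2] at this
    rw [entry_off _ _ hxy, this]

theorem odd_design (h2 : ∀ {a b c d : Ω} (_ : a ≠ b) (_ : c ≠ d), ∃ g : G, g • a = c ∧ g • b = d)
    (htr : ∀ a b : Ω, ∃ g : G, g • a = b)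
    (hn : 2 ≤ Fintype.card Ω) (α : MulAut G) {j : ℕ} (hα : α ^ (2 * j + 1) = 1)
    (A : Matrix Ω Ω ℤ) (hA01 : ∀ x y, A x y * A x y = A x y)
    (hA : ∀ (g : G) (x y : Ω), A (α g • x) (g • y) = A x y) (k : ℤ) (hcol : ∀ y, ∑ x, A x y = k)
    (hk1 : 1 ≤ k) (hkn : k ≤ Fintype.card Ω) (hcop : IsCoprime k (Fintype.card Ω : ℤ)) :
    k = 1 ∨ k = (Fintype.card Ω : ℤ) - 1 := by
  haveI hΩ : Nontrivial Ω := Fintype.one_lt_card_iff_nontrivial.1 hn
  obtain ⟨a0, b0, hab⟩ := hΩ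
  -- rows
  have hrow : ∀ x, ∑ y, A x y = k := by
    have hconst : ∀ x x', ∑ y, A x y = ∑ y, A x' y := by
      intro x x'
      obtain ⟨g, hg⟩ := htr x x'
      have h3 : ∀ y, A x y = A x' (α.symm g • y) := by
        intro y
        rw [← hA (α.symm g) x y, MulEquiv.apply_symm_apply, hg]
      rw [Finset.sum_congr rfl (fun y _ => h3 y)]
      exact Equiv.sum_comp (MulAction.toPerm (α.symm g) : Equiv.Perm Ω) (fun y => A x' y)
    intro x
    have h3 : ∑ x', ∑ y, A x' y = (Fintype.card Ω : ℤ) * ∑ y, A x y := by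
      rw [Finset.sum_congr rfl (fun x' _ => hconst x' x), Finset.sum_const, Finset.card_univ,
        nsmul_eq_mul]
    have h4 : ∑ x', ∑ y, A x' y = (Fintype.card Ω : ℤ) * k := by
      have h5 : ∑ x', ∑ y, A x' y = ∑ y, ∑ x', A x' y := Finset.sum_comm
      rw [h5, Finset.sum_congr rfl (fun y _ => hcol y), Finset.sum_const,
        Finset.card_univ, nsmul_eq_mul]
    have h5 : (Fintype.card Ω : ℤ) ≠ 0 := by
      have : 0 < Fintype.card Ω := by omega
      exact_mod_cast this.ne'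
    exact mul_left_cancel₀ h5 (h3.symm.trans h4)
  have hAJ : A * Jm Ω = k • Jm Ω := mul_Jm hrow
  have hJA : Jm Ω * A = k • Jm Ω := Jm_mul hcol
  have hATJ : Aᵀ * Jm Ω = k • Jm Ω := mul_Jm (fun x => hcol x)
  have hJAT : Jm Ω * Aᵀ = k • Jm Ω := Jm_mul (fun x => hrow x)
  -- `A Aᵀ`
  obtain ⟨a, l, hal⟩ : ∃ c d : ℤ, A * Aᵀ = c • (1 : Matrix Ω Ω ℤ) + d • Jm Ω := by
    apply invariant_matrix (G := G) h2 htr ⟨a0, b0, hab⟩
    intro g x y
    rw [Matrix.mul_apply, Matrix.mul_apply]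
    have h3 : ∀ z, A x z * Aᵀ z y = A (g • x) (α.symm g • z) * Aᵀ (α.symm g • z) (g • y) := by
      intro z
      rw [Matrix.transpose_apply, Matrix.transpose_apply]
      have e1 := hA (α.symm g) x z
      have e2 := hA (α.symm g) y z
      rw [MulEquiv.apply_symm_apply] at e1 e2
      rw [e1, e2]
    rw [Finset.sum_congr rfl (fun z _ => h3 z)]
    exact (Equiv.sum_comp (MulAction.toPerm (α.symm g) : Equiv.Perm Ω)
      (fun z => A (g • x) z * Aᵀ z (g • y))).symm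
  have hk_al : k = a + l := by
    have h3 : (A * Aᵀ) a0 a0 = a + l := by rw [hal, entry_diag]
    rw [Matrix.mul_apply] at h3
    simp only [Matrix.transpose_apply] at h3
    rw [Finset.sum_congr rfl (fun z _ => hA01 a0 z), hrow] at h3
    exact h3
  have hk2 : k ^ 2 = a + l * Fintype.card Ω := by
    have h3 : A * Aᵀ * Jm Ω = (k * k) • Jm Ω := by
      rw [Matrix.mul_assoc, hATJ, Matrix.mul_smul, hAJ, smul_smul]
    rw [hal, Matrix.add_mul, Matrix.smul_mul, Matrix.smul_mul, Matrix.one_mul, Jm_mul_Jm, smul_smul,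
      ← add_smul] at h3
    have h4 := congrArg (fun M : Matrix Ω Ω ℤ => M a0 a0) h3
    simp [Jm] at h4
    rw [sq]
    exact h4.symm
  -- powers
  have hAinv : ∀ (i : ℕ) (g : G) (x y : Ω), (A ^ i) ((α ^ i) g • x) (g • y) = (A ^ i) x y := by
    intro i
    induction i with
    | zero =>
      intro g x y
      simp only [pow_zero, MulAut.one_apply]
      by_cases hxy : x = y
      · subst hxy; simp
      · rw [Matrix.one_apply_ne hxy, Matrix.one_apply_ne (fun h => hxy (MulAction.injective g h))]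
    | succ i ih =>
      intro g x y
      rw [pow_succ' A, Matrix.mul_apply, Matrix.mul_apply]
      have h3 : ∀ z, A x z * (A ^ i) z y =
          A ((α ^ (i + 1)) g • x) ((α ^ i) g • z) * (A ^ i) ((α ^ i) g • z) (g • y) := by
        intro z
        rw [ih, pow_succ' α, MulAut.mul_apply, hA]
      rw [Finset.sum_congr rfl (fun z _ => h3 z)]
      exact (Equiv.sum_comp (MulAction.toPerm ((α ^ i) g) : Equiv.Perm Ω)
        (fun z => A ((α ^ (i + 1)) g • x) z * (A ^ i) z (g • y))).symm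
  obtain ⟨c, d, hcd⟩ : ∃ c d : ℤ, A ^ (2 * j + 1) = c • (1 : Matrix Ω Ω ℤ) + d • Jm Ω := by
    apply invariant_matrix (G := G) h2 htr ⟨a0, b0, hab⟩
    intro g x y
    have := hAinv (2 * j + 1) g x y
    rwa [hα, MulAut.one_apply] at this
  have hpowJ : ∀ i : ℕ, A ^ i * Jm Ω = (k ^ i) • Jm Ω := by
    intro i
    induction i with
    | zero => simp
    | succ i ih =>
      rw [pow_succ, Matrix.mul_assoc, hAJ, Matrix.mul_smul, ih, smul_smul]
      ring_nf
  have hkm : k ^ (2 * j + 1) = c + d * Fintype.card Ω := by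
    have h3 := hpowJ (2 * j + 1)
    rw [hcd, Matrix.add_mul, Matrix.smul_mul, Matrix.smul_mul, Matrix.one_mul, Jm_mul_Jm, smul_smul,
      ← add_smul] at h3
    have h4 := congrArg (fun M : Matrix Ω Ω ℤ => M a0 a0) h3
    simp [Jm] at h4
    exact h4.symm
  -- `A^i (Aᵀ)^i`
  have hprod : ∀ i : ℕ, ∃ e : ℤ, A ^ i * Aᵀ ^ i = (a ^ i) • (1 : Matrix Ω Ω ℤ) + e • Jm Ω := by
    intro i
    induction i with
    | zero => exact ⟨0, by simp⟩
    | succ i ih =>
      obtain ⟨e, he⟩ := ih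
      refine ⟨l * (k ^ i * k ^ i) + a * e, ?_⟩
      have hJpow : ∀ i : ℕ, Jm Ω * Aᵀ ^ i = (k ^ i) • Jm Ω := by
        intro i
        induction i with
        | zero => simp
        | succ i ih =>
          rw [pow_succ', ← Matrix.mul_assoc, hJAT, Matrix.smul_mul, ih, smul_smul]
          ring_nf
      calc A ^ (i + 1) * Aᵀ ^ (i + 1) = A ^ i * (A * Aᵀ) * Aᵀ ^ i := by
            rw [pow_succ, pow_succ']; simp only [Matrix.mul_assoc]
        _ = a • (A ^ i * Aᵀ ^ i) + l • (A ^ i * Jm Ω * Aᵀ ^ i) := by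
            rw [hal]
            simp only [Matrix.mul_add, Matrix.add_mul, Matrix.mul_smul, Matrix.smul_mul, Matrix.mul_one]
        _ = _ := by
            rw [he, hpowJ, Matrix.smul_mul, hJpow, smul_add, smul_smul, smul_smul, smul_smul, smul_smul,
              add_smul, pow_succ' a]
            module
  obtain ⟨e, he⟩ := hprod (2 * j + 1)
  have hJT : (Jm Ω)ᵀ = Jm Ω := by ext; rfl
  have hc2 : c ^ 2 = a ^ (2 * j + 1) := by
    have h3 : Aᵀ ^ (2 * j + 1) = c • (1 : Matrix Ω Ω ℤ) + d • Jm Ω := by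
      rw [← Matrix.transpose_pow, hcd, Matrix.transpose_add, Matrix.transpose_smul,
        Matrix.transpose_smul, Matrix.transpose_one, hJT]
    rw [hcd, h3] at he
    have h4 : (c • (1 : Matrix Ω Ω ℤ) + d • Jm Ω) * (c • (1 : Matrix Ω Ω ℤ) + d • Jm Ω) =
        (c ^ 2) • (1 : Matrix Ω Ω ℤ) + (2 * c * d + d ^ 2 * Fintype.card Ω) • Jm Ω := by
      simp only [Matrix.add_mul, Matrix.mul_add, Matrix.smul_mul, Matrix.mul_smul, Matrix.one_mul,
        Matrix.mul_one, Jm_mul_Jm, smul_smul]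
      module
    rw [h4] at he
    have e1 : (_ : Matrix Ω Ω ℤ) a0 a0 = (_ : Matrix Ω Ω ℤ) a0 a0 := congrFun (congrFun he a0) a0
    have e2 : (_ : Matrix Ω Ω ℤ) a0 b0 = (_ : Matrix Ω Ω ℤ) a0 b0 := congrFun (congrFun he a0) b0
    rw [entry_diag, entry_diag] at e1
    rw [entry_off _ _ hab, entry_off _ _ hab] at e2
    linarith
  have hcopn : IsCoprime k (Fintype.card Ω : ℤ) := hcop
  exact design_arith (n := Fintype.card Ω) (k := k) (l := l) (c := c) (d := d) (j := j)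
    (by exact_mod_cast hn) hk1 hkn hcopn (by rw [hk2, hk_al]; ring) (by rw [hc2, hk_al]; ring_nf) hkm

end

end Cfsg.Agent.H25
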