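import Cfsg.Agent.H24.BurnsidePrime2
import Cfsg.Prelude.Def_KGroupFacts

/-!
# Simple groups with a subgroup of prime index: the outer automorphism group is solvable
-/

set_option autoImplicit false
set_option linter.style.haveILetI false
set_option linter.unusedVariables false

namespace Cfsg.Agent.H25.PrimeIdx

open MulAction

section inc
variable {G X : Type*} [Group G] [MulAction G X] [Fintype X] [DecidableEq X]

open Classical in
/-- incidence matrix -/
noncomputable def inc (O : Set (X × X)) : X → X → ℚ := fun a b => if (a, b) ∈ O then 1 else 0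

omit [Fintype X] [DecidableEq X] in
theorem inc_apply (O : Set (X × X)) (a b : X) [Decidable ((a, b) ∈ O)] : inc O a b = if (a, b) ∈ O then 1 else 0 := by
  unfold inc
  congr

def OInv (α : G → G) (O : Set (X × X)) : Prop := ∀ (g : G) (a b : X), (g • a, α g • b) ∈ O ↔ (a, b) ∈ O

omit [Fintype X] [DecidableEq X] in
theorem inc_inv {α : G → G} {O : Set (X × X)} (h : OInv α O) (g : G) (a b : X) :
    inc O (g • a) (α g • b) = inc O a b := by
  classical
  rw [inc_apply, inc_apply]
  simp only [h g a b]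

theorem inc_isUnit {α : G → G} (hα : Function.Surjective α) {O : Set (X × X)} (h : OInv α O)
    (h2 : ∀ a a' b b' : X, a ≠ a' → b ≠ b' → ∃ g : G, g • a = b ∧ g • a' = b')
    (h1 : ∀ a b : X, ∃ g : G, g • a = b) {a₀ b₀ a₁ b₁ : X} (hO : (a₀, b₀) ∈ O) (hO' : (a₁, b₁) ∉ O) :
    IsUnit (Matrix.of (inc O)) := by
  classical
  set A := inc O with hA
  have hAinv : ∀ (g : G) (a b : X), A (g • a) (α g • b) = A a b := inc_inv h
  have hA01 : ∀ a b, A a b = if (a, b) ∈ O then 1 else 0 := fun a b => inc_apply O a b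
  have hA0 : ∀ a b, 0 ≤ A a b := by intro a b; rw [hA01]; split_ifs <;> norm_num
  have hA1 : ∀ a b, A a b ≤ 1 := by intro a b; rw [hA01]; split_ifs <;> norm_num
  have hAA : ∀ a b, A a b * A a b = A a b := by intro a b; rw [hA01]; split_ifs <;> norm_num
  set k : ℚ := ∑ b, A a₀ b with hk
  have hrow : ∀ a, ∑ b, A a b = k := by
    intro a
    obtain ⟨g, rfl⟩ := h1 a₀ a
    rw [← Equiv.sum_comp (MulAction.toPerm (α g)) (fun b => A (g • a₀) b)]
    apply Finset.sum_congr rfl
    intro b _
    exact hAinv g a₀ b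
  set k' : ℚ := ∑ a, A a b₀ with hk'
  have hcol : ∀ b, ∑ a, A a b = k' := by
    intro b
    obtain ⟨g', rfl⟩ := h1 b₀ b
    obtain ⟨g, rfl⟩ := hα g'
    rw [← Equiv.sum_comp (MulAction.toPerm g) (fun a => A a (α g • b₀))]
    apply Finset.sum_congr rfl
    intro a _
    exact hAinv g a b₀
  set n : ℚ := (Fintype.card X : ℚ) with hn
  have hn0 : n ≠ 0 := by
    rw [hn]
    haveI : Nonempty X := ⟨a₀⟩
    exact_mod_cast Fintype.card_ne_zero
  have hkk : k = k' := by
    have e1 : ∑ a, ∑ b, A a b = n * k := by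
      rw [Finset.sum_congr rfl (fun a _ => hrow a), Finset.sum_const, nsmul_eq_mul, Finset.card_univ]
    have e2 : ∑ a, ∑ b, A a b = n * k' := by
      rw [Finset.sum_comm, Finset.sum_congr rfl (fun b _ => hcol b), Finset.sum_const, nsmul_eq_mul, Finset.card_univ]
    rw [e1] at e2
    exact mul_left_cancel₀ hn0 e2
  have hk0 : k ≠ 0 := by
    have e1 : A a₀ b₀ ≤ k := Finset.single_le_sum (f := fun b => A a₀ b) (fun b _ => hA0 a₀ b) (Finset.mem_univ b₀)
    have e2 : A a₀ b₀ = 1 := by rw [hA01]; simp [hO]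
    rw [e2] at e1
    linarith
  have hkn : k ≠ n := by
    intro he
    have e1 : ∑ b, (1 - A a₁ b) = 0 := by
      rw [Finset.sum_sub_distrib, hrow, he, Finset.sum_const, nsmul_eq_mul, Finset.card_univ, mul_one, hn, sub_self]
    have e2 : (1 - A a₁ b₁) ≤ ∑ b, (1 - A a₁ b) :=
      Finset.single_le_sum (f := fun b => 1 - A a₁ b) (fun b _ => by have := hA1 a₁ b; linarith) (Finset.mem_univ b₁)
    have e3 : A a₁ b₁ = 0 := by rw [hA01]; simp [hO']
    rw [e1, e3] at e2
    linarith
  set m : X → X → ℚ := fun a a' => ∑ b, A a b * A a' b with hm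
  have hmdiag : ∀ a, m a a = k := by
    intro a
    rw [hm]
    simp only [hAA]
    exact hrow a
  have hminv : ∀ (g : G) (a a' : X), m (g • a) (g • a') = m a a' := by
    intro g a a'
    simp only [hm]
    rw [← Equiv.sum_comp (MulAction.toPerm (α g)) (fun b => A (g • a) b * A (g • a') b)]
    apply Finset.sum_congr rfl
    intro b _
    show A (g • a) (α g • b) * A (g • a') (α g • b) = _
    rw [hAinv, hAinv]
  obtain ⟨l, hl⟩ : ∃ l, ∀ a a', a ≠ a' → m a a' = l := by
    by_cases hex : ∃ a a' : X, a ≠ a'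
    · obtain ⟨a, a', haa'⟩ := hex
      refine ⟨m a a', fun b b' hbb' => ?_⟩
      obtain ⟨g, hg1, hg2⟩ := h2 a a' b b' haa' hbb'
      rw [← hg1, ← hg2, hminv]
    · push Not at hex
      exact ⟨0, fun a a' hne => absurd (hex a a') hne⟩
  have hmsum : ∀ (v : X → ℚ) (a' : X), ∑ a, v a * m a a' = (k - l) * v a' + l * ∑ a, v a := by
    intro v a'
    rw [← Finset.add_sum_erase _ _ (Finset.mem_univ a'), hmdiag]
    have e1 : ∑ a ∈ Finset.univ.erase a', v a * m a a' = l * ∑ a ∈ Finset.univ.erase a', v a := by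
      rw [Finset.mul_sum]
      apply Finset.sum_congr rfl
      intro a ha
      rw [hl a a' (Finset.ne_of_mem_erase ha)]; ring
    rw [e1, ← Finset.add_sum_erase Finset.univ v (Finset.mem_univ a')]
    ring
  have hmm : ∀ a', ∑ a, m a a' = k * k := by
    intro a'
    simp only [hm]
    rw [Finset.sum_comm]
    have e1 : ∀ b, ∑ a, A a b * A a' b = k * A a' b := by
      intro b
      rw [← Finset.sum_mul, hcol, hkk]
    rw [Finset.sum_congr rfl (fun b _ => e1 b), ← Finset.mul_sum, hrow]
  have hkl : k * k = (k - l) + l * n := by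
    have e1 := hmsum (fun _ => 1) a₀
    simp only [one_mul, mul_one] at e1
    rw [hmm, Finset.sum_const, nsmul_eq_mul, Finset.card_univ, mul_one] at e1
    exact e1
  have hkl' : k - l ≠ 0 := by
    intro he
    have e1 : l = k := by linarith
    rw [he, e1, zero_add] at hkl
    exact hkn (mul_left_cancel₀ hk0 hkl)
  rw [← Matrix.vecMul_injective_iff_isUnit]
  have hzero : ∀ v : X → ℚ, Matrix.vecMul v (Matrix.of A) = 0 → v = 0 := by
    intro v hv
    have e1 : ∀ a', ∑ a, v a * m a a' = 0 := by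
      intro a'
      have e2 : ∑ a, v a * m a a' = ∑ b, (∑ a, v a * A a b) * A a' b := by
        simp only [hm, Finset.mul_sum, Finset.sum_mul]
        rw [Finset.sum_comm]
        apply Finset.sum_congr rfl; intro b _
        apply Finset.sum_congr rfl; intro a _
        ring
      rw [e2]
      apply Finset.sum_eq_zero
      intro b _
      have e3 : ∑ a, v a * A a b = 0 := by
        have := congrFun hv b
        simpa [Matrix.vecMul, dotProduct] using this
      rw [e3, zero_mul]
    have e2 : ∀ a', (k - l) * v a' + l * ∑ a, v a = 0 := fun a' => by rw [← hmsum]; exact e1 a'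
    have e3 : (k * k) * ∑ a, v a = 0 := by
      have e4 : ∑ a', ((k - l) * v a' + l * ∑ a, v a) = 0 := Finset.sum_eq_zero (fun a' _ => e2 a')
      rw [Finset.sum_add_distrib, ← Finset.mul_sum, Finset.sum_const, nsmul_eq_mul, Finset.card_univ] at e4
      rw [hkl]
      linear_combination e4
    have e4 : ∑ a, v a = 0 := by
      rcases mul_eq_zero.1 e3 with h | h
      · exact absurd (mul_self_eq_zero.1 h) hk0
      · exact h
    funext a'
    have e5 := e2 a'
    rw [e4, mul_zero, add_zero] at e5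
    rcases mul_eq_zero.1 e5 with h | h
    · exact absurd h hkl'
    · exact h
  intro v w hvw
  have := hzero (v - w) (by rw [Matrix.sub_vecMul]; exact sub_eq_zero.2 hvw)
  exact sub_eq_zero.1 this

/-- matrices commuting with a regular abelian group commute -/
theorem comm_of_regular {P : Subgroup G} (hPc : ∀ u ∈ P, ∀ w ∈ P, u * w = w * u)
    (hreg : ∀ a : X, Function.Bijective (fun u : P => (u : G) • a)) {M N : X → X → ℚ}
    (hM : ∀ u ∈ P, ∀ a b, M (u • a) (u • b) = M a b) (hN : ∀ u ∈ P, ∀ a b, N (u • a) (u • b) = N a b) :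
    (Matrix.of M * Matrix.of N : Matrix X X ℚ) = Matrix.of N * Matrix.of M := by
  classical
  ext a b
  obtain ⟨⟨w, hw⟩, hwa⟩ := (hreg a).2 b
  have hwa' : w • a = b := hwa
  rw [Matrix.mul_apply, Matrix.mul_apply]
  simp only [Matrix.of_apply]
  let ea : P ≃ X := Equiv.ofBijective _ (hreg a)
  let eb : P ≃ X := Equiv.ofBijective _ (hreg b)
  haveI : Fintype P := Fintype.ofEquiv X ea.symm
  rw [← Equiv.sum_comp ea (fun x => M a x * N x b), ← Equiv.sum_comp ((Equiv.inv P).trans eb) (fun x => N a x * M x b)]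
  apply Finset.sum_congr rfl
  rintro ⟨s, hs⟩ _
  show M a (s • a) * N (s • a) b = N a (s⁻¹ • b) * M (s⁻¹ • b) b
  have e1 : N (s • a) b = N a (s⁻¹ • b) := by
    rw [← hN s hs a (s⁻¹ • b), smul_inv_smul]
  have e2 : M (s⁻¹ • b) b = M a (s • a) := by
    rw [← hM s hs (s⁻¹ • b) b, smul_inv_smul, ← hwa', ← hM w hw a (s • a), ← mul_smul, ← mul_smul, hPc s hs w hw]
  rw [e1, e2, mul_comm]

theorem cent_comm [FaithfulSMul G X] {P : Subgroup G} (hPc : ∀ u ∈ P, ∀ w ∈ P, u * w = w * u)
    (hreg : ∀ a : X, Function.Bijective (fun u : P => (u : G) • a))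
    (h2 : ∀ a a' b b' : X, a ≠ a' → b ≠ b' → ∃ g : G, g • a = b ∧ g • a' = b')
    (h1 : ∀ a b : X, ∃ g : G, g • a = b)
    (hnt : ∀ α : MulAut G, ∃ O : Set (X × X), OInv (G := G) α O ∧ (∃ a b : X, (a, b) ∈ O) ∧ ∃ a b : X, (a, b) ∉ O)
    {c d : MulAut G} (hc : ∀ u ∈ P, c u = u) (hd : ∀ u ∈ P, d u = u) : c * d = d * c := by
  obtain ⟨O, hO, ⟨a0, b0, hab0⟩, a1, b1, hab1⟩ := hnt c
  obtain ⟨O', hO', ⟨a0', b0', hab0'⟩, a1', b1', hab1'⟩ := hnt d
  have hA := inc_isUnit (α := c) c.surjective hO h2 h1 hab0 hab1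
  have hB := inc_isUnit (α := d) d.surjective hO' h2 h1 hab0' hab1'
  have hAi := inc_inv (α := c) hO
  have hBi := inc_inv (α := d) hO'
  set A := inc O with hAdef
  set B := inc O' with hBdef
  have hcomm := comm_of_regular hPc hreg (M := A) (N := B)
    (fun u hu a b => by have := hAi u a b; rwa [hc u hu] at this)
    (fun u hu a b => by have := hBi u a b; rwa [hd u hu] at this)
  obtain ⟨K, hK⟩ : ∃ K : Matrix X X ℚ, K = Matrix.of A * Matrix.of B := ⟨_, rfl⟩
  have hKu : IsUnit K := by rw [hK]; exact hA.mul hB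
  have hK1 : ∀ (g : G) (a b : X), K (g • a) (d (c g) • b) = K a b := by
    intro g a b
    rw [hK, Matrix.mul_apply, Matrix.mul_apply]
    simp only [Matrix.of_apply]
    rw [← Equiv.sum_comp (MulAction.toPerm (c g)) (fun x => A (g • a) x * B x (d (c g) • b))]
    apply Finset.sum_congr rfl
    intro x _
    show A (g • a) (c g • x) * B (c g • x) (d (c g) • b) = _
    rw [hAi, hBi]
  have hK2 : ∀ (g : G) (a b : X), K (g • a) (c (d g) • b) = K a b := by
    intro g a b
    rw [hK, hcomm, Matrix.mul_apply, Matrix.mul_apply]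
    simp only [Matrix.of_apply]
    rw [← Equiv.sum_comp (MulAction.toPerm (d g)) (fun x => B (g • a) x * A x (c (d g) • b))]
    apply Finset.sum_congr rfl
    intro x _
    show B (g • a) (d g • x) * A (d g • x) (c (d g) • b) = _
    rw [hAi, hBi]
  apply MulEquiv.ext
  intro g
  show c (d g) = d (c g)
  apply FaithfulSMul.eq_of_smul_eq_smul (α := X)
  intro b
  by_contra hne
  have hdet : K.det = 0 := by
    apply Matrix.det_zero_of_column_eq hne
    intro x
    have e1 := hK1 g (g⁻¹ • x) b
    have e2 := hK2 g (g⁻¹ • x) b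
    rw [smul_inv_smul] at e1 e2
    rw [e1, e2]
  rw [Matrix.isUnit_iff_isUnit_det, hdet] at hKu
  exact not_isUnit_zero hKu

end inc

/-- type synonym for the twisted product action -/
def Tw (X : Type*) := X × X

/-- the pair as an element of the synonym -/
def tw {X : Type*} (a b : X) : Tw X := ((a, b) : X × X)

@[reducible] def actTw {G X : Type*} [Group G] [MulAction G X] (α : MulAut G) : MulAction G (Tw X) where
  smul := fun g x => ((g • x.1, α g • x.2) : X × X)
  one_smul := by
    rintro ⟨a, b⟩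
    show (((1 : G) • a, α 1 • b) : X × X) = (a, b)
    rw [map_one, one_smul, one_smul]
  mul_smul := by
    rintro g g' ⟨a, b⟩
    show (((g * g') • a, α (g * g') • b) : X × X) = (g • g' • a, α g • α g' • b)
    rw [map_mul, mul_smul, mul_smul]

theorem exists_O {G X : Type*} [Group G] [Finite G] [MulAction G X] [Finite X] (α : MulAut G) (a₀ : X)
    (hX : ¬ (Nat.card X) ^ 2 ∣ Nat.card G) :
    ∃ O : Set (X × X), OInv (G := G) α O ∧ (∃ a b, (a, b) ∈ O) ∧ ∃ a b, (a, b) ∉ O := by
  letI := actTw (G := G) (X := X) α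
  have hsm : ∀ (g : G) (a b : X), g • tw a b = tw (g • a) (α g • b) := fun g a b => rfl
  set x0 : Tw X := tw a₀ a₀ with hx0
  refine ⟨(MulAction.orbit G x0 : Set (Tw X)), ?_, ⟨a₀, a₀, MulAction.mem_orbit_self x0⟩, ?_⟩
  · intro g a b
    show tw (g • a) (α g • b) ∈ MulAction.orbit G x0 ↔ tw a b ∈ MulAction.orbit G x0
    rw [← hsm]
    constructor
    · intro h
      have := MulAction.mem_orbit_of_mem_orbit g⁻¹ h
      rwa [inv_smul_smul] at this
    · intro h
      exact MulAction.mem_orbit_of_mem_orbit g h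
  · by_contra hcon
    push Not at hcon
    apply hX
    have h1 : MulAction.orbit G x0 = Set.univ := by
      ext ⟨a, b⟩
      exact ⟨fun _ => trivial, fun _ => hcon a b⟩
    have h2 := MulAction.index_stabilizer G x0
    have h3 : Nat.card (Tw X) = Nat.card X * Nat.card X := Nat.card_prod X X
    rw [h1, Set.ncard_univ, h3] at h2
    rw [pow_two, ← h2]
    exact Subgroup.index_dvd_card _

open Subgroup in
open scoped Pointwise in
theorem main {G : Type*} [Group G] [Finite G] [IsSimpleGroup G] (H : Subgroup G) (hH : H.index.Prime) :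
    Group.IsSolvable (Cfsg.Out G) := by
  classical
  have hquot : Group.IsSolvable (MulAut G) → Group.IsSolvable (Cfsg.Out G) := by
    intro h
    haveI := h
    exact Group.isSolvable_of_surjective (QuotientGroup.mk'_surjective (Cfsg.Inn G))
  by_cases hs : Group.IsSolvable G
  · apply hquot
    have hcomm := IsSimpleGroup.comm_iff_isSolvable.2 hs
    letI : CommGroup G := { (inferInstance : Group G) with mul_comm := hcomm }
    haveI hcyc : IsCyclic G := IsSimpleGroup.isCyclic
    apply Group.isSolvable_of_comm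
    intro a b
    apply (IsCyclic.mulAutMulEquiv G).injective
    rw [map_mul, map_mul, mul_comm]
  haveI := Fintype.ofFinite (G ⧸ H)
  set p := H.index with hp
  haveI : Fact p.Prime := ⟨hH⟩
  have hcX : Nat.card (G ⧸ H) = p := by rw [← Subgroup.index_eq_card]
  haveI hfaith : FaithfulSMul G (G ⧸ H) := by
    have h1 : H.normalCore = ⊥ := by
      rcases (inferInstance : H.normalCore.Normal).eq_bot_or_eq_top with h | h
      · exact h
      · exfalso
        have h2 : H = ⊤ := eq_top_iff.2 (h ▸ H.normalCore_le)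
        rw [hp, h2, Subgroup.index_top] at hH
        exact Nat.not_prime_one hH
    rw [Subgroup.normalCore_eq_ker] at h1
    refine ⟨fun {g g'} h => ?_⟩
    apply (MonoidHom.ker_eq_bot_iff _).1 h1
    exact Equiv.ext h
  have h2t : IsMultiplyPretransitive G (G ⧸ H) 2 := by
    rcases H24.burnside_prime_degree (G := G) (X := G ⧸ H) (by rw [hcX]; exact hH) with h | h
    · exact absurd h hs
    · exact h
  have hpG : p ∣ Nat.card G := Subgroup.index_dvd_card H
  have hp2 : ¬ p ^ 2 ∣ Nat.card G := by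
    intro h
    have h1 : Nat.card G ∣ Nat.card (Equiv.Perm (G ⧸ H)) :=
      Subgroup.card_dvd_of_injective (MulAction.toPermHom G (G ⧸ H)) MulAction.toPerm_injective
    rw [Nat.card_perm, hcX] at h1
    have h2 := h.trans h1
    rw [pow_two, ← Nat.mul_factorial_pred hH.ne_zero] at h2
    have h3 := Nat.dvd_of_mul_dvd_mul_left hH.pos h2
    rw [hH.dvd_factorial] at h3
    have := hH.pos
    omega
  obtain ⟨P⟩ : Nonempty (Sylow p G) := inferInstance
  have hPcard : Nat.card (P : Subgroup G) = p := by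
    obtain ⟨k, hk⟩ := IsPGroup.iff_card.1 P.isPGroup'
    have h1 : p ∣ Nat.card (P : Subgroup G) := P.dvd_card_of_dvd_card hpG
    have h2 : Nat.card (P : Subgroup G) ∣ Nat.card G := Subgroup.card_subgroup_dvd_card _
    rw [hk] at h1 h2 ⊢
    have h3 : k ≠ 0 := by
      rintro rfl
      rw [pow_zero] at h1
      exact hH.one_lt.ne' (Nat.dvd_one.1 h1)
    have h4 : k < 2 := by
      by_contra hcon
      exact hp2 ((pow_dvd_pow p (by omega)).trans h2)
    have : k = 1 := by omega
    rw [this, pow_one]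
  haveI hPcyc : IsCyclic (P : Subgroup G) := isCyclic_of_prime_card hPcard
  have hPc : ∀ u ∈ (P : Subgroup G), ∀ w ∈ (P : Subgroup G), u * w = w * u := by
    intro u hu w hw
    haveI : IsMulCommutative (P : Subgroup G) := inferInstance
    exact congrArg Subtype.val ((inferInstance : IsMulCommutative (P : Subgroup G)).is_comm.comm ⟨u, hu⟩ ⟨w, hw⟩)
  have hreg : ∀ a : G ⧸ H, Function.Bijective (fun u : (P : Subgroup G) => (u : G) • a) := by
    intro a
    rw [Nat.bijective_iff_injective_and_card]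
    refine ⟨?_, by rw [hPcard, hcX]⟩
    intro u v huv
    have huv' : (u : G) • a = (v : G) • a := huv
    by_contra hne
    have h1 : (v⁻¹ * u : (P : Subgroup G)) ≠ 1 := by
      intro h
      apply hne
      rw [inv_mul_eq_one] at h
      exact h.symm
    have h2 : Subgroup.zpowers (v⁻¹ * u : (P : Subgroup G)) = ⊤ := zpowers_eq_top_of_prime_card hPcard h1
    have h3 : (P : Subgroup G) ≤ MulAction.stabilizer G a := by
      intro x hx
      have h4 : (⟨x, hx⟩ : (P : Subgroup G)) ∈ Subgroup.zpowers (v⁻¹ * u : (P : Subgroup G)) := by rw [h2]; exact Subgroup.mem_top _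
      obtain ⟨j, hj⟩ := h4
      have h5 : x = ((v : G)⁻¹ * u) ^ j := (congrArg Subtype.val hj).symm
      rw [h5]
      apply Subgroup.zpow_mem
      rw [MulAction.mem_stabilizer_iff, mul_smul, huv', inv_smul_smul]
    have h4 : p ∣ Nat.card (MulAction.stabilizer G a) := by
      rw [← hPcard]; exact Subgroup.card_dvd_of_le h3
    have h5 : (MulAction.stabilizer G a).index = p := by
      rw [MulAction.index_stabilizer_of_transitive, hcX]
    apply hp2
    rw [← Subgroup.card_mul_index (MulAction.stabilizer G a), h5, pow_two]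
    exact Nat.mul_dvd_mul h4 dvd_rfl
  have h2' : ∀ a a' b b' : G ⧸ H, a ≠ a' → b ≠ b' → ∃ g : G, g • a = b ∧ g • a' = b' := by
    intro a a' b b' h h'
    exact MulAction.is_two_pretransitive_iff.1 h2t h h'
  have h1' : ∀ a b : G ⧸ H, ∃ g : G, g • a = b := fun a b => MulAction.exists_smul_eq G a b
  have hnt : ∀ α : MulAut G, ∃ O : Set ((G ⧸ H) × (G ⧸ H)), OInv (G := G) α O ∧ (∃ a b, (a, b) ∈ O) ∧ ∃ a b, (a, b) ∉ O := by
    intro α
    exact exists_O α (((1 : G) : G ⧸ H)) (by rw [hcX]; exact hp2)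
  set NA : Subgroup (MulAut G) := MulAction.stabilizer (MulAut G) P with hNA
  have hNAmem : ∀ α ∈ NA, ∀ u ∈ (P : Subgroup G), α u ∈ (P : Subgroup G) := by
    intro α hα u hu
    have h1 : α • P = P := hα
    have h2 : ((α • P : Sylow p G) : Subgroup G) = (P : Subgroup G) := by rw [h1]
    rw [← h2]
    exact ⟨u, hu, rfl⟩
  have hsolv : Group.IsSolvable NA := by
    have hcommP : ∀ α ∈ NA, ∀ β ∈ NA, ∀ u ∈ (P : Subgroup G), α (β u) = β (α u) := by
      intro α hα β hβ u hu
      obtain ⟨⟨w, hw⟩, hgen⟩ := hPcyc.exists_generator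
      have hpw : ∀ x ∈ (P : Subgroup G), ∃ i : ℤ, x = w ^ i := by
        intro x hx
        obtain ⟨i, hi⟩ := hgen ⟨x, hx⟩
        exact ⟨i, (congrArg Subtype.val hi).symm⟩
      obtain ⟨i, hi⟩ := hpw _ (hNAmem α hα w hw)
      obtain ⟨j, hj⟩ := hpw _ (hNAmem β hβ w hw)
      obtain ⟨k, rfl⟩ := hpw u hu
      have e1 : β (w ^ k) = w ^ (j * k) := by rw [map_zpow, hj, zpow_mul]
      have e2 : α (w ^ k) = w ^ (i * k) := by rw [map_zpow, hi, zpow_mul]
      rw [e1, e2, map_zpow, map_zpow, hi, hj, ← zpow_mul, ← zpow_mul]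
      congr 1; ring
    rw [Group.isSolvable_def]
    refine ⟨2, ?_⟩
    have hD1 : ∀ x ∈ derivedSeries NA 1, ∀ u ∈ (P : Subgroup G), (x : MulAut G) u = u := by
      let C : Subgroup NA :=
        { carrier := {x | ∀ u ∈ (P : Subgroup G), (x : MulAut G) u = u}
          one_mem' := fun u _ => rfl
          mul_mem' := by
            intro x y hx hy u hu
            show (x : MulAut G) ((y : MulAut G) u) = u
            rw [hy u hu, hx u hu]
          inv_mem' := by
            intro x hx u hu
            show ((x : MulAut G)⁻¹) u = u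
            have h1 := hx u hu
            conv_lhs => rw [← h1]
            exact MulAut.inv_apply_self G (x : MulAut G) u }
      have hle : derivedSeries NA 1 ≤ C := by
        rw [derivedSeries_one, _root_.commutator_def, Subgroup.commutator_le]
        intro x _ y _ u hu
        show ((x : MulAut G) * y * (x : MulAut G)⁻¹ * (y : MulAut G)⁻¹) u = u
        have h1 : ∀ z : MulAut G, z ∈ NA → z⁻¹ ∈ NA := fun z hz => inv_mem hz
        have h2 : ((x : MulAut G)⁻¹) (((y : MulAut G)⁻¹) u) ∈ (P : Subgroup G) :=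
          hNAmem _ (h1 _ x.2) _ (hNAmem _ (h1 _ y.2) _ hu)
        show (x : MulAut G) ((y : MulAut G) (((x : MulAut G)⁻¹) (((y : MulAut G)⁻¹) u))) = u
        rw [hcommP _ x.2 _ y.2 _ h2, MulAut.apply_inv_self, MulAut.apply_inv_self]
      intro x hx
      exact hle hx
    rw [derivedSeries_succ, eq_bot_iff, Subgroup.commutator_le]
    intro x hx y hy
    rw [Subgroup.mem_bot, commutatorElement_eq_one_iff_mul_comm]
    apply Subtype.ext
    exact cent_comm (X := G ⧸ H) hPc hreg h2' h1' hnt (hD1 x hx) (hD1 y hy)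
  haveI := hsolv
  apply Group.isSolvable_of_surjective (f := (QuotientGroup.mk' (Cfsg.Inn G)).comp NA.subtype)
  intro q
  obtain ⟨α, rfl⟩ := QuotientGroup.mk'_surjective _ q
  obtain ⟨g, hg⟩ := MulAction.exists_smul_eq G (α • P) P
  refine ⟨⟨MulAut.conj g * α, ?_⟩, ?_⟩
  · show (MulAut.conj g * α) • P = P
    rw [mul_smul]; exact hg
  · show QuotientGroup.mk' (Cfsg.Inn G) (MulAut.conj g * α) = QuotientGroup.mk' (Cfsg.Inn G) α
    rw [map_mul]
    have : QuotientGroup.mk' (Cfsg.Inn G) (MulAut.conj g) = 1 := (QuotientGroup.eq_one_iff _).2 ⟨g, rfl⟩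
    rw [this, one_mul]

end Cfsg.Agent.H25.PrimeIdx
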