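import Mathlib

/-!
# The principal ideal theorem (Artin-Tate determinant argument)
-/

set_option autoImplicit false
set_option linter.unusedSectionVars false

namespace Cfsg.Agent.H25.PIT

open Subgroup

section abstract

variable {Q : Type*} [CommGroup Q] [Finite Q]

/-- augmentation -/
noncomputable def aug (Q : Type*) [CommGroup Q] : MonoidAlgebra ℤ Q →+* ℤ :=
  (MonoidAlgebra.lift ℤ ℤ Q (1 : Q →* ℤ)).toRingHom

theorem aug_single (q : Q) (n : ℤ) : aug Q (MonoidAlgebra.single q n) = n := by
  unfold aug
  show MonoidAlgebra.lift ℤ ℤ Q (1 : Q →* ℤ) (MonoidAlgebra.single q n) = n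
  rw [MonoidAlgebra.lift_single]
  simp

/-- the element `D` with `D * (q - 1) = 0` for all `q` is a multiple of the norm -/
theorem eq_smul_norm [Fintype Q] (D : MonoidAlgebra ℤ Q) (h : ∀ q : Q, D * (MonoidAlgebra.single q 1) = D) :
    D = ∑ q : Q, MonoidAlgebra.single q (D.coeff 1) := by
  classical
  ext q
  have h1 := congrArg (fun f : MonoidAlgebra ℤ Q => f.coeff q) (h q)
  simp only [MonoidAlgebra.coeff_mul_single_apply, mul_inv_cancel, mul_one] at h1
  rw [← h1]
  rw [MonoidAlgebra.coeff_sum]
  simp [Finsupp.finsetSum_apply, MonoidAlgebra.coeff_single, Finsupp.single_apply]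

variable {G : Type*} [Group G] [Finite G] (π : G →* Q)
  {M : Type*} [AddCommGroup M] (ρ : MonoidAlgebra ℤ Q →+* AddMonoid.End M) (d : G → M)

/-- relations -/
def rels [Fintype G] : AddSubgroup (G → ℤ) where
  carrier := {l | ∃ μ : G → MonoidAlgebra ℤ Q, (∀ g, aug Q (μ g) = l g) ∧ ∑ g, ρ (μ g) (d g) = 0 ∧
    ∑ g, μ g * (MonoidAlgebra.single (π g) 1 - 1) = 0}
  zero_mem' := ⟨0, by simp, by simp, by simp⟩
  add_mem' := by
    rintro a b ⟨μ, h1, h2, h3⟩ ⟨ν, h4, h5, h6⟩
    refine ⟨μ + ν, ?_, ?_, ?_⟩
    · intro g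
      rw [Pi.add_apply, map_add, h1, h4, Pi.add_apply]
    · have : ∀ g, ρ ((μ + ν) g) (d g) = ρ (μ g) (d g) + ρ (ν g) (d g) := by
        intro g
        rw [Pi.add_apply, map_add]
        rfl
      simp only [this]
      rw [Finset.sum_add_distrib, h2, h5, add_zero]
    · simp only [Pi.add_apply, add_mul]
      rw [Finset.sum_add_distrib, h3, h6, add_zero]
  neg_mem' := by
    rintro a ⟨μ, h1, h2, h3⟩
    refine ⟨-μ, ?_, ?_, ?_⟩
    · intro g
      rw [Pi.neg_apply, map_neg, h1, Pi.neg_apply]
    · have : ∀ g, ρ ((-μ) g) (d g) = -ρ (μ g) (d g) := by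
        intro g
        rw [Pi.neg_apply, map_neg]
        rfl
      simp only [this]
      rw [Finset.sum_neg_distrib, h2, neg_zero]
    · simp only [Pi.neg_apply, neg_mul]
      rw [Finset.sum_neg_distrib, h3, neg_zero]

theorem basic_rel [Fintype G] [DecidableEq G]
    (hd : ∀ x y : G, d (x * y) = d x + ρ (MonoidAlgebra.single (π x) 1) (d y)) (x y : G) :
    (Pi.single (x * y) 1 - Pi.single x 1 - Pi.single y 1 : G → ℤ) ∈ rels π ρ d := by
  refine ⟨Pi.single (x * y) 1 - Pi.single x 1 - Pi.single y (MonoidAlgebra.single (π x) 1), ?_, ?_, ?_⟩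
  · intro g
    simp only [Pi.sub_apply, map_sub]
    congr 1
    · congr 1
      · by_cases h : g = x * y
        · subst h; simp
        · simp [Pi.single_eq_of_ne h]
      · by_cases h : g = x
        · subst h; simp
        · simp [Pi.single_eq_of_ne h]
    · by_cases h : g = y
      · subst h; simp [aug_single]
      · simp [Pi.single_eq_of_ne h]
  · have key : ∀ (z : G) (r : MonoidAlgebra ℤ Q), ∑ g, ρ ((Pi.single z r : G → MonoidAlgebra ℤ Q) g) (d g) = ρ r (d z) := by
      intro z r
      rw [Finset.sum_eq_single z]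
      · rw [Pi.single_eq_same]
      · intro g _ hg
        rw [Pi.single_eq_of_ne hg, map_zero]
        rfl
      · intro h
        exact absurd (Finset.mem_univ z) h
    have : ∀ g, ρ ((Pi.single (x * y) 1 - Pi.single x 1 - Pi.single y (MonoidAlgebra.single (π x) 1) : G → MonoidAlgebra ℤ Q) g) (d g) =
        ρ ((Pi.single (x * y) 1 : G → MonoidAlgebra ℤ Q) g) (d g) - ρ ((Pi.single x 1 : G → MonoidAlgebra ℤ Q) g) (d g)
          - ρ ((Pi.single y (MonoidAlgebra.single (π x) 1) : G → MonoidAlgebra ℤ Q) g) (d g) := by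
      intro g
      rw [Pi.sub_apply, Pi.sub_apply, map_sub, map_sub]
      rfl
    simp only [this]
    rw [Finset.sum_sub_distrib, Finset.sum_sub_distrib, key, key, key, map_one]
    show d (x * y) - d x - _ = 0
    rw [hd]
    abel
  · have key : ∀ (z : G) (r : MonoidAlgebra ℤ Q), ∑ g, ((Pi.single z r : G → MonoidAlgebra ℤ Q) g) * (MonoidAlgebra.single (π g) 1 - 1) =
        r * (MonoidAlgebra.single (π z) 1 - 1) := by
      intro z r
      rw [Finset.sum_eq_single z]
      · rw [Pi.single_eq_same]
      · intro g _ hg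
        rw [Pi.single_eq_of_ne hg, zero_mul]
      · intro h
        exact absurd (Finset.mem_univ z) h
    simp only [Pi.sub_apply, sub_mul]
    rw [Finset.sum_sub_distrib, Finset.sum_sub_distrib, key, key, key, map_mul, one_mul, one_mul, mul_sub,
      MonoidAlgebra.single_mul_single, one_mul, mul_one]
    abel

/-- the lattice -/
noncomputable def latt [Fintype G] (G' : Type*) [CommGroup G'] (π : G →* G') : (G → ℤ) →+ Additive G' where
  toFun l := ∑ g, l g • Additive.ofMul (π g)
  map_zero' := by simp
  map_add' a b := by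
    simp only [Pi.add_apply, add_smul]
    rw [Finset.sum_add_distrib]

theorem latt_ker_le [Fintype G]
    (hd : ∀ x y : G, d (x * y) = d x + ρ (MonoidAlgebra.single (π x) 1) (d y)) :
    (latt (Abelianization G) Abelianization.of).ker ≤ rels π ρ d := by
  classical
  intro l hl
  rw [AddMonoidHom.mem_ker] at hl
  let φ : G →* Multiplicative ((G → ℤ) ⧸ rels π ρ d) :=
    MonoidHom.mk' (fun g => Multiplicative.ofAdd ((Pi.single g 1 : G → ℤ) : (G → ℤ) ⧸ rels π ρ d)) (by
      intro x y
      rw [← ofAdd_add]
      congr 1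
      rw [← QuotientAddGroup.mk_add, QuotientAddGroup.eq]
      have := basic_rel π ρ d hd x y
      have h2 := (rels π ρ d).neg_mem this
      convert h2 using 1
      abel)
  let ψ : Abelianization G →* Multiplicative ((G → ℤ) ⧸ rels π ρ d) := Abelianization.lift φ
  have h1 : ∀ l : G → ℤ, (l : (G → ℤ) ⧸ rels π ρ d) =
      MonoidHom.toAdditiveLeft ψ (latt (Abelianization G) Abelianization.of l) := by
    intro l
    have e : l = ∑ g, l g • (Pi.single g 1 : G → ℤ) := by
      ext h
      simp [Finset.sum_apply, Pi.single_apply]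
    conv_lhs => rw [e]
    have h3 : ((∑ g, l g • (Pi.single g 1 : G → ℤ) : G → ℤ) : (G → ℤ) ⧸ rels π ρ d) =
        ∑ g, l g • ((Pi.single g 1 : G → ℤ) : (G → ℤ) ⧸ rels π ρ d) := by
      have h4 := map_sum (QuotientAddGroup.mk' (rels π ρ d)) (fun g => l g • (Pi.single g 1 : G → ℤ)) Finset.univ
      simp only [map_zsmul] at h4
      exact h4
    rw [h3]
    show _ = MonoidHom.toAdditiveLeft ψ (∑ g, l g • Additive.ofMul (Abelianization.of g))
    rw [map_sum]
    simp only [map_zsmul]
    rfl
  have h2 := h1 l
  rw [hl, map_zero] at h2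
  exact (QuotientAddGroup.eq_zero_iff l).1 h2

end abstract

section main

variable {G : Type*} [Group G] [Finite G]
  {M : Type*} [AddCommGroup M] (ρ : MonoidAlgebra ℤ (Abelianization G) →+* AddMonoid.End M) (d : G → M)

theorem norm_zero [Fintype (Abelianization G)]
    (hd : ∀ x y : G, d (x * y) = d x + ρ (MonoidAlgebra.single (Abelianization.of x) 1) (d y)) (x : G) :
    ρ (∑ q : Abelianization G, MonoidAlgebra.single q 1) (d x) = 0 := by
  classical
  haveI := Fintype.ofFinite G
  set L := (latt (Abelianization G) (Abelianization.of (G := G))).ker with hL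
  have hsurj : Function.Surjective (latt (Abelianization G) (Abelianization.of (G := G))) := by
    intro q
    obtain ⟨g, hg⟩ := QuotientGroup.mk_surjective (s := commutator G) q.toMul
    refine ⟨Pi.single g 1, ?_⟩
    show ∑ h, (Pi.single g 1 : G → ℤ) h • Additive.ofMul (Abelianization.of h) = q
    rw [Finset.sum_eq_single g]
    · rw [Pi.single_eq_same, one_smul]
      show Additive.ofMul (Abelianization.of g) = q
      rw [← ofMul_toMul q, ← hg]
      rfl
    · intro h _ hh
      rw [Pi.single_eq_of_ne hh, zero_smul]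
    · intro h
      exact absurd (Finset.mem_univ g) h
  have hindex : L.index = Nat.card (Abelianization G) := by
    have h1 := AddSubgroup.index_ker (latt (Abelianization G) (Abelianization.of (G := G)))
    rw [AddMonoidHom.range_eq_top.2 hsurj, AddSubgroup.card_top] at h1
    rw [hL, h1]
    rfl
  have hne : L.index ≠ 0 := by rw [hindex]; exact Nat.card_pos.ne'
  obtain ⟨e⟩ := Int.addSubgroup_index_ne_zero_iff.1 hne
  let bN : Module.Basis G ℤ L := Module.Basis.ofEquivFun e.toIntLinearEquiv
  have hdet := AddSubgroup.index_eq_natAbs_det (Pi.basisFun ℤ G) L bN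
  have hrel : ∀ i : G, ((bN i : L) : G → ℤ) ∈ rels (Abelianization.of (G := G)) ρ d := fun i =>
    latt_ker_le (Abelianization.of (G := G)) ρ d hd (bN i).2
  choose μ hμ1 hμ2 hμ3 using hrel
  let A : Matrix G G (MonoidAlgebra ℤ (Abelianization G)) := Matrix.of fun i g => μ i g
  have hadj : ∀ g h : G, ∑ i, A.adjugate g i * A i h = if g = h then A.det else 0 := by
    intro g h
    have h1 := congrFun (congrFun (Matrix.adjugate_mul A) g) h
    rw [Matrix.mul_apply] at h1
    rw [h1, Matrix.smul_apply, Matrix.one_apply]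
    split_ifs <;> simp
  -- det kills d
  have hkill : ∀ g : G, ρ A.det (d g) = 0 := by
    intro g
    have h1 : ∑ i, ρ (A.adjugate g i) (∑ h, ρ (μ i h) (d h)) = 0 := by
      apply Finset.sum_eq_zero
      intro i _
      rw [hμ2, map_zero]
    have h2 : ∑ i, ρ (A.adjugate g i) (∑ h, ρ (μ i h) (d h)) = ∑ h, ρ (∑ i, A.adjugate g i * A i h) (d h) := by
      simp only [map_sum]
      rw [Finset.sum_comm]
      apply Finset.sum_congr rfl
      intro h _
      refine Eq.trans ?_ (AddMonoidHom.finsetSum_apply _ _ _).symm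
      apply Finset.sum_congr rfl
      intro i _
      rw [map_mul]
      rfl
    rw [h2] at h1
    rw [← h1]
    rw [Finset.sum_eq_single g]
    · rw [hadj, if_pos rfl]
    · intro h _ hh
      rw [hadj, if_neg (Ne.symm hh), map_zero]
      rfl
    · intro h
      exact absurd (Finset.mem_univ g) h
  have hkill2 : ∀ q : Abelianization G, A.det * (MonoidAlgebra.single q 1) = A.det := by
    intro q
    obtain ⟨g, rfl⟩ := QuotientGroup.mk_surjective (s := commutator G) q
    have h1 : ∑ i, A.adjugate g i * (∑ h, μ i h * (MonoidAlgebra.single (Abelianization.of h) 1 - 1)) = 0 := by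
      apply Finset.sum_eq_zero
      intro i _
      rw [hμ3, mul_zero]
    have h2 : ∑ i, A.adjugate g i * (∑ h, μ i h * (MonoidAlgebra.single (Abelianization.of h) 1 - 1)) =
        ∑ h, (∑ i, A.adjugate g i * A i h) * (MonoidAlgebra.single (Abelianization.of h) 1 - 1) := by
      simp only [Finset.mul_sum, Finset.sum_mul]
      rw [Finset.sum_comm]
      apply Finset.sum_congr rfl
      intro h _
      apply Finset.sum_congr rfl
      intro i _
      rw [mul_assoc]
      rfl
    rw [h2] at h1
    rw [Finset.sum_eq_single g] at h1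
    · rw [hadj, if_pos rfl, mul_sub, mul_one, sub_eq_zero] at h1
      exact h1
    · intro h _ hh
      rw [hadj, if_neg (Ne.symm hh), zero_mul]
    · intro h
      exact absurd (Finset.mem_univ g) h
  have hD := eq_smul_norm A.det hkill2
  -- augmentation of det
  have haug : aug (Abelianization G) A.det = ((Pi.basisFun ℤ G).det (fun i => ((bN i : L) : G → ℤ))) := by
    rw [RingHom.map_det, Module.Basis.det_apply, ← Matrix.det_transpose]
    congr 1
    ext g i
    rw [Matrix.transpose_apply, Module.Basis.toMatrix_apply]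
    simp only [RingHom.mapMatrix_apply, Matrix.map_apply, Pi.basisFun_repr]
    exact hμ1 i g
  have haug2 : aug (Abelianization G) A.det = Nat.card (Abelianization G) * A.det.coeff 1 := by
    conv_lhs => rw [hD]
    rw [map_sum]
    simp only [aug_single]
    rw [Finset.sum_const, Finset.card_univ, ← Nat.card_eq_fintype_card, nsmul_eq_mul]
  have hc : (A.det.coeff 1).natAbs = 1 := by
    have h1 : (Nat.card (Abelianization G) * A.det.coeff 1 : ℤ).natAbs = Nat.card (Abelianization G) := by
      rw [← haug2, haug, ← hdet, hindex]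
    rw [Int.natAbs_mul, Int.natAbs_natCast] at h1
    exact Nat.eq_of_mul_eq_mul_left (Nat.card_pos (α := Abelianization G)) (by rw [h1, mul_one])
  have hfin := hkill x
  rw [hD] at hfin
  rcases Int.natAbs_eq (A.det.coeff 1) with h | h
  · rw [h, hc] at hfin
    exact hfin
  · rw [h, hc] at hfin
    have h3 : (∑ q : Abelianization G, MonoidAlgebra.single q (-((1 : ℕ) : ℤ))) =
        - ∑ q : Abelianization G, MonoidAlgebra.single q (1 : ℤ) := by
      rw [← Finset.sum_neg_distrib]
      apply Finset.sum_congr rfl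
      intro q _
      rw [Nat.cast_one, ← MonoidAlgebra.single_neg]
    rw [h3, map_neg] at hfin
    have h4 : -(ρ (∑ q : Abelianization G, MonoidAlgebra.single q (1 : ℤ)) (d x)) = 0 := hfin
    exact neg_eq_zero.1 h4

end main

end Cfsg.Agent.H25.PIT
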