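import Cfsg.Prelude
import Cfsg.Agent.H25.FrobKernel
import Cfsg.Agent.H27.Invert

set_option autoImplicit false
open Cfsg

/-!
# Quaternion group of order 8 acting with `-1` on an abelian group of odd order
-/

namespace Cfsg.Agent.H25

theorem two_squares_mod (p : ℕ) [Fact p.Prime] : ∃ a b : ℤ, (p : ℤ) ∣ a ^ 2 + b ^ 2 + 1 := by
  obtain ⟨a, b, hab⟩ := ZMod.sq_add_sq p (-1)
  refine ⟨(a.val : ℤ), (b.val : ℤ), ?_⟩
  rw [← ZMod.intCast_zmod_eq_zero_iff_dvd]
  push_cast
  rw [ZMod.natCast_zmod_val, ZMod.natCast_zmod_val, hab]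
  ring

section

variable {M : Type*} [AddCommGroup M] [Finite M]

theorem quat_card_square_prime (I J : M →+ M) (hI : ∀ x, I (I x) = -x) (hJ : ∀ x, J (J x) = -x)
    (hIJ : ∀ x, I (J x) = - J (I x)) (p : ℕ) [Fact p.Prime] (hp2 : p ≠ 2)
    (hpM : ∀ x : M, p • x = 0) : IsSquare (Nat.card M) := by
  obtain ⟨a, b, hab⟩ := two_squares_mod p
  have hpM' : ∀ (z : ℤ) (x : M), (p : ℤ) ∣ z → z • x = 0 := by
    rintro z x ⟨k, rfl⟩
    rw [mul_comm, mul_smul, natCast_zsmul, hpM, smul_zero]
  let s : M →+ M := a • I + b • J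
  have hs : ∀ x, s x = a • I x + b • J x := fun x => rfl
  have hss : ∀ x, s (s x) = x := by
    intro x
    rw [hs (s x), hs x, map_add, map_add, map_zsmul, map_zsmul, map_zsmul, map_zsmul, hI, hJ, hIJ]
    have h1 : a • (a • -x + b • -J (I x)) + b • (a • J (I x) + b • -x) = -((a ^ 2 + b ^ 2 + 1) • x) + x := by
      simp only [smul_add, smul_neg, ← mul_smul, add_smul, one_smul, sq, mul_comm b a]
      abel
    rw [h1, hpM' _ _ hab, neg_zero, zero_add]
  let K : M →+ M := I.comp J
  have hK : ∀ x, K x = I (J x) := fun x => rfl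
  have hKs : ∀ x, K (s x) = - s (K x) := by
    intro x
    have e1 : I (J (I x)) = J x := by rw [hIJ, hI, map_neg, neg_neg]
    have e2 : J (I (J x)) = I x := by rw [hIJ, map_neg, hJ, neg_neg]
    rw [hs, hs, hK, hK, map_add, map_add, map_zsmul, map_zsmul, map_zsmul, map_zsmul, e1, hJ x,
      hI (J x), e2, map_neg]
    simp only [smul_neg, neg_add_rev, neg_neg]
    abel
  have hKK : ∀ x, K (K x) = - x := by
    intro x
    rw [hK, hK, ← neg_neg (J (I (J x))), ← hIJ, map_neg, hI, hJ, neg_neg]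
  let f : M →+ M := AddMonoidHom.id M - s
  let g : M →+ M := AddMonoidHom.id M + s
  have hf : ∀ x, f x = x - s x := fun x => rfl
  have hg : ∀ x, g x = x + s x := fun x => rfl
  have h1 : Nat.card f.ker = Nat.card g.ker := by
    apply Nat.card_congr
    refine ⟨fun x => ⟨K x.1, ?_⟩, fun x => ⟨-K x.1, ?_⟩, fun x => ?_, fun x => ?_⟩
    · have : f x.1 = 0 := x.2
      rw [AddMonoidHom.mem_ker, hg]
      have h2 : K (s x.1) = K x.1 := by
        congr 1
        rw [hf] at this
        exact (sub_eq_zero.1 this).symm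
      rw [hKs] at h2
      have h3 : s (K x.1) = - K x.1 := neg_eq_iff_eq_neg.1 h2
      rw [h3, add_neg_cancel]
    · have : g x.1 = 0 := x.2
      rw [AddMonoidHom.mem_ker, hf]
      have h2 : s x.1 = - x.1 := by
        rw [hg] at this
        exact eq_neg_of_add_eq_zero_right this
      have h3 := hKs x.1
      rw [h2, map_neg] at h3
      have h4 : s (K x.1) = K x.1 := (neg_injective h3).symm
      rw [map_neg, h4, sub_self]
    · apply Subtype.ext
      show -K (K x.1) = x.1
      rw [hKK, neg_neg]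
    · apply Subtype.ext
      show K (-K x.1) = x.1
      rw [map_neg, hKK, neg_neg]
  have h2 : f.range = g.ker := by
    ext y
    constructor
    · rintro ⟨x, rfl⟩
      rw [AddMonoidHom.mem_ker, hg, hf, map_sub, hss]
      abel
    · intro hy
      rw [AddMonoidHom.mem_ker, hg] at hy
      have h3 : s y = -y := eq_neg_of_add_eq_zero_right hy
      have hodd : Odd p := (Fact.out : p.Prime).odd_of_ne_two hp2
      obtain ⟨k, hk⟩ := hodd
      refine ⟨(-(k : ℤ)) • y, ?_⟩
      rw [hf, map_zsmul, h3]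
      have h4 : (p : ℤ) • y = 0 := hpM' _ _ dvd_rfl
      rw [hk] at h4
      have h5 : (-(k : ℤ)) • y - (-(k : ℤ)) • -y = y - ((2 * k + 1 : ℕ) : ℤ) • y := by
        push_cast
        simp only [smul_neg, add_smul, one_smul, neg_smul, mul_smul, two_smul]
        abel
      rw [h5, h4, sub_zero]
  have h3 : Nat.card M = Nat.card f.ker * Nat.card f.range := by
    rw [← AddSubgroup.card_mul_index f.ker, AddSubgroup.index_ker]
  rw [h3, h2, h1]
  exact ⟨_, rfl⟩

end

theorem quat_card_square_aux.{u} (n : ℕ) : ∀ {M : Type u} [AddCommGroup M] [Finite M]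
    (I J : M →+ M) (_ : ∀ x, I (I x) = -x) (_ : ∀ x, J (J x) = -x)
    (_ : ∀ x, I (J x) = - J (I x)) (_ : Odd (Nat.card M)), Nat.card M = n → IsSquare (Nat.card M) := by
  induction n using Nat.strong_induction_on with
  | _ n ih =>
    intro M _ _ I J hI hJ hIJ hodd hn
    rcases eq_or_ne n 1 with h1 | h1
    · rw [hn, h1]; exact ⟨1, rfl⟩
    obtain ⟨p, hp, hpn⟩ := Nat.exists_prime_and_dvd h1
    haveI : Fact p.Prime := ⟨hp⟩
    have hp2 : p ≠ 2 := by
      rintro rfl
      rw [hn] at hodd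
      exact (Nat.not_even_iff_odd.2 hodd) (even_iff_two_dvd.2 hpn)
    let m : M →+ M := nsmulAddMonoidHom p
    have hm : ∀ x, m x = p • x := fun x => rfl
    have hc : Nat.card M = Nat.card m.ker * Nat.card m.range := by
      rw [← AddSubgroup.card_mul_index m.ker, AddSubgroup.index_ker]
    have hker : ∃ x : M, x ≠ 0 ∧ p • x = 0 := by
      obtain ⟨x, hx⟩ := exists_prime_addOrderOf_dvd_card' (G := M) p (by rw [hn]; exact hpn)
      refine ⟨x, ?_, ?_⟩
      · rintro rfl
        rw [addOrderOf_zero] at hx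
        exact hp.one_lt.ne hx
      · rw [← hx, addOrderOf_nsmul_eq_zero]
    by_cases hall : ∀ x : M, p • x = 0
    · exact quat_card_square_prime I J hI hJ hIJ p hp2 hall
    push Not at hall
    obtain ⟨y, hy⟩ := hall
    obtain ⟨x, hx, hpx⟩ := hker
    have hmpos : 0 < Nat.card M := Nat.card_pos
    have hk1 : 1 < Nat.card m.ker := by
      rw [Finite.one_lt_card_iff_nontrivial]
      exact ⟨⟨x, hpx⟩, ⟨0, by simp⟩, fun h => hx (congrArg Subtype.val h)⟩
    have hr1 : 1 < Nat.card m.range := by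
      rw [Finite.one_lt_card_iff_nontrivial]
      exact ⟨⟨p • y, ⟨y, rfl⟩⟩, ⟨0, by simp⟩, fun h => hy (congrArg Subtype.val h)⟩
    have hk : IsSquare (Nat.card m.ker) := by
      have hIk : ∀ x : m.ker, I x ∈ m.ker := by
        intro x
        rw [AddMonoidHom.mem_ker, hm, ← map_nsmul]
        have : p • (x : M) = 0 := x.2
        rw [this, map_zero]
      have hJk : ∀ x : m.ker, J x ∈ m.ker := by
        intro x
        rw [AddMonoidHom.mem_ker, hm, ← map_nsmul]
        have : p • (x : M) = 0 := x.2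
        rw [this, map_zero]
      refine ih (Nat.card m.ker) ?_ ((I.comp m.ker.subtype).codRestrict m.ker hIk)
        ((J.comp m.ker.subtype).codRestrict m.ker hJk) (fun x => Subtype.ext (hI x))
        (fun x => Subtype.ext (hJ x)) (fun x => Subtype.ext (hIJ x)) ?_ rfl
      · rw [← hn, hc]
        exact lt_mul_of_one_lt_right (by omega) hr1
      · exact hodd.of_dvd_nat (hc ▸ Dvd.intro _ rfl)
    have hr : IsSquare (Nat.card m.range) := by
      have hIk : ∀ x : m.range, I x ∈ m.range := by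
        rintro ⟨_, ⟨z, rfl⟩⟩
        exact ⟨I z, by rw [hm, ← map_nsmul]; rfl⟩
      have hJk : ∀ x : m.range, J x ∈ m.range := by
        rintro ⟨_, ⟨z, rfl⟩⟩
        exact ⟨J z, by rw [hm, ← map_nsmul]; rfl⟩
      refine ih (Nat.card m.range) ?_ ((I.comp m.range.subtype).codRestrict m.range hIk)
        ((J.comp m.range.subtype).codRestrict m.range hJk) (fun x => Subtype.ext (hI x))
        (fun x => Subtype.ext (hJ x)) (fun x => Subtype.ext (hIJ x)) ?_ rfl
      · rw [← hn, hc]
        exact lt_mul_of_one_lt_left (by omega) hk1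
      · exact hodd.of_dvd_nat (hc ▸ Dvd.intro_left _ rfl)
    rw [hc]
    exact hk.mul hr

/-- The multiplicative version. -/
theorem quat_card_square {N : Type*} [CommGroup N] [Finite N] (I J : N →* N)
    (hI : ∀ x, I (I x) = x⁻¹) (hJ : ∀ x, J (J x) = x⁻¹) (hIJ : ∀ x, I (J x) = (J (I x))⁻¹)
    (hodd : Odd (Nat.card N)) : IsSquare (Nat.card N) := by
  have h := quat_card_square_aux _ (M := Additive N) (MonoidHom.toAdditive I)
    (MonoidHom.toAdditive J) (fun x => hI x) (fun x => hJ x) (fun x => hIJ x)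
    (by rw [Nat.card_congr Additive.toMul]; exact hodd) rfl
  rwa [Nat.card_congr Additive.toMul] at h

/-- A Frobenius group whose complement contains a quaternion group of order 8 has kernel of order
an odd square. -/
theorem frob_quat_square {L : Type*} [Group L] [Finite L] (H : Subgroup L)
    (hH : IsFrobeniusComplement H) {i j z : L} (hi : i ∈ H) (hj : j ∈ H) (hz : z ≠ 1)
    (hz2 : z * z = 1) (hi2 : i * i = z) (hj2 : j * j = z) (hij : i * j = z * (j * i)) :
    Odd (Nat.card (frobeniusKernel H)) ∧ IsSquare (Nat.card (frobeniusKernel H)) := by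
  obtain ⟨N, hN, hNn, hc⟩ := frobenius_kernel hH
  have hzH : z ∈ H := hi2 ▸ H.mul_mem hi hi
  have hfpf : ∀ x ∈ N, z * x * z⁻¹ = x → x = 1 := by
    intro x hx hzx
    have h1 : x⁻¹ * z * x = z := by
      have : z * x = x * z := by
        rw [mul_inv_eq_iff_eq_mul] at hzx; exact hzx
      rw [mul_assoc, this, inv_mul_cancel_left]
    have h2 : x ∈ H := by
      have := H1.frob_mem_of_conj hH (g := x⁻¹) hzH hz (by rw [inv_inv, h1]; exact hzH)
      exact inv_mem_iff.1 this
    have h3 : x ∈ N ⊓ H := ⟨hx, h2⟩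
    rw [hc.isCompl.inf_eq_bot] at h3
    exact h3
  have hNc : ∀ g : L, ∀ x ∈ N, g * x * g⁻¹ ∈ N := fun g x hx => hNn.conj_mem x hx g
  have hinv : ∀ x ∈ N, z * x * z⁻¹ = x⁻¹ := H27.invert_of_fpf hz2 (hNc z) hfpf
  have hcomm : ∀ x ∈ N, ∀ y ∈ N, x * y = y * x := H27.comm_of_invert hinv
  have hcard : Nat.card (frobeniusKernel H) = Nat.card N := by
    rw [← hN]; rfl
  have hodd : Odd (Nat.card N) := by
    have h1 : 2 ∣ Nat.card H := by
      have h2 : orderOf (⟨z, hzH⟩ : H) = 2 := by
        rw [Subgroup.orderOf_mk]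
        exact orderOf_eq_prime (by rw [sq, hz2]) hz
      rw [← h2]
      exact orderOf_dvd_natCard _
    have h3 := H1.frob_coprime hH
    rw [← H1.frob_card_kernel hH, hcard] at h3
    rw [← Nat.not_even_iff_odd, even_iff_two_dvd]
    intro h4
    exact Nat.not_coprime_of_dvd_of_dvd (by norm_num) h1 h4 h3
  letI : CommGroup N := { mul_comm := fun x y => Subtype.ext (hcomm x.1 x.2 y.1 y.2) }
  let c : L → (N →* N) := fun g =>
    { toFun := fun x => ⟨g * x * g⁻¹, hNc g x x.2⟩
      map_one' := Subtype.ext (by simp)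
      map_mul' := fun x y => Subtype.ext (by simp) }
  rw [hcard]
  refine ⟨hodd, ?_⟩
  have hcc : ∀ g h x, ((c g (c h x) : N) : L) = (g * h) * x * (g * h)⁻¹ := by
    intro g h x
    show g * (h * x * h⁻¹) * g⁻¹ = _
    group
  have hci : ∀ x : N, ((c z x : N) : L) = (x : L)⁻¹ := fun x => hinv x x.2
  refine quat_card_square (c i) (c j) ?_ ?_ ?_ hodd
  · intro x
    apply Subtype.ext
    rw [hcc, hi2]
    exact hinv x x.2
  · intro x
    apply Subtype.ext
    rw [hcc, hj2]
    exact hinv x x.2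
  · intro x
    apply Subtype.ext
    rw [hcc, hij]
    have h5 : ((c z (c j (c i x)) : N) : L) = ((c j (c i x) : N) : L)⁻¹ := hci _
    rw [Subgroup.coe_inv, ← h5, hcc z j]
    show (z * (j * i)) * x * (z * (j * i))⁻¹ = (z * j) * (i * x * i⁻¹) * (z * j)⁻¹
    group

end Cfsg.Agent.H25
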