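import Mathlib

set_option autoImplicit false

namespace Cfsg.Agent.H25.SemiInv

variable {F V : Type*} [Field F] [AddCommGroup V] [Module F V] {s : ℕ}

/-- partial sums -/
def G (U : Fin s → Submodule F V) (D : Submodule F V) (k : ℕ) : Submodule F V :=
  D ⊔ ⨆ j : {j : Fin s // (j : ℕ) < k}, U j.1

theorem le_G (U : Fin s → Submodule F V) (D : Submodule F V) (k : ℕ) : D ≤ G U D k := le_sup_left

theorem U_le_G (U : Fin s → Submodule F V) (D : Submodule F V) (k : ℕ) (j : Fin s)
    (hj : (j : ℕ) < k) : U j ≤ G U D k := by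
  have h1 : U j ≤ ⨆ j : {j : Fin s // (j : ℕ) < k}, U j.1 :=
    le_iSup (fun j : {j : Fin s // (j : ℕ) < k} => U j.1) ⟨j, hj⟩
  exact h1.trans le_sup_right

theorem G_le (U : Fin s → Submodule F V) (D : Submodule F V) (k : ℕ) {X : Submodule F V}
    (h1 : D ≤ X) (h2 : ∀ j : Fin s, (j : ℕ) < k → U j ≤ X) : G U D k ≤ X :=
  sup_le h1 (iSup_le fun j => h2 j.1 j.2)

theorem G_zero (U : Fin s → Submodule F V) (D : Submodule F V) : G U D 0 = D :=
  le_antisymm (G_le U D 0 le_rfl fun _ hj => absurd hj (Nat.not_lt_zero _)) (le_G U D 0)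

theorem G_mono (U : Fin s → Submodule F V) (D : Submodule F V) (k : ℕ) :
    G U D k ≤ G U D (k + 1) :=
  G_le U D k (le_G U D _) fun j hj => U_le_G U D _ j (Nat.lt_succ_of_lt hj)

theorem G_succ (U : Fin s → Submodule F V) (D : Submodule F V) (k : ℕ) (hk : k < s) :
    G U D (k + 1) = G U D k ⊔ U ⟨k, hk⟩ := by
  apply le_antisymm
  · refine G_le U D (k + 1) ((le_G U D k).trans le_sup_left) fun j hj => ?_
    rcases Nat.lt_succ_iff_lt_or_eq.1 hj with h1 | h1
    · exact (U_le_G U D k j h1).trans le_sup_left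
    · have : j = ⟨k, hk⟩ := Fin.ext h1
      rw [this]
      exact le_sup_right
  · exact sup_le (G_mono U D k) (U_le_G U D (k + 1) ⟨k, hk⟩ (Nat.lt_succ_self k))

theorem G_inv {f : V →ₗ[F] V} (U : Fin s → Submodule F V) (D : Submodule F V)
    (hD : D.map f ≤ D) (hU : ∀ j, (U j).map f ≤ U j) (k : ℕ) : (G U D k).map f ≤ G U D k := by
  rw [Submodule.map_le_iff_le_comap]
  refine G_le U D k ?_ fun j hj => ?_
  · rw [← Submodule.map_le_iff_le_comap]
    exact hD.trans (le_G U D k)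
  · rw [← Submodule.map_le_iff_le_comap]
    exact (hU j).trans (U_le_G U D k j hj)

end Cfsg.Agent.H25.SemiInv
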