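import Mathlib

/-!
An isometry of small displacement stabilises no totally isotropic decomposition.
-/

set_option autoImplicit false

namespace Cfsg.Agent.H25.SpElem

variable {F V : Type*} [Field F] [Finite F] [AddCommGroup V] [Module F V] [FiniteDimensional F V]

/-- arithmetic: the least i with r ∣ q^i + 1 is half the order of q -/
theorem arith {q r d : ℕ} [Fact r.Prime] (hr2 : r ≠ 2) (hq : 1 ≤ q) (h : ∃ i, 1 ≤ i ∧ i ≤ d ∧ r ∣ q ^ i + 1) :
    ∃ i, 1 ≤ i ∧ i ≤ d ∧ r ∣ q ^ i + 1 ∧ ∀ k, 1 ≤ k → r ∣ q ^ k - 1 → 2 * i ≤ k := by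
  classical
  obtain ⟨i1, hi1, hi1d, hi1r⟩ := h
  have hex : ∃ i, 1 ≤ i ∧ r ∣ q ^ i + 1 := ⟨i1, hi1, hi1r⟩
  set i := Nat.find hex with hi
  obtain ⟨hi0, hir⟩ := Nat.find_spec hex
  have hmin : ∀ j, 1 ≤ j → r ∣ q ^ j + 1 → i ≤ j := fun j hj hjr => Nat.find_min' hex ⟨hj, hjr⟩
  refine ⟨i, hi0, (hmin i1 hi1 hi1r).trans hi1d, hir, ?_⟩
  intro k hk hkr
  by_contra hlt
  push Not at hlt
  have hneg : ∀ j, r ∣ q ^ j + 1 ↔ (q : ZMod r) ^ j = -1 := by
    intro j
    rw [← ZMod.natCast_eq_zero_iff]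
    push_cast
    exact ⟨fun h => eq_neg_of_add_eq_zero_left h, fun h => by rw [h]; ring⟩
  have hone : (q : ZMod r) ^ k = 1 := by
    have h1 : ((q ^ k - 1 : ℕ) : ZMod r) = 0 := (ZMod.natCast_eq_zero_iff _ _).mpr hkr
    rw [Nat.cast_sub (Nat.one_le_pow _ _ hq)] at h1
    push_cast at h1
    exact sub_eq_zero.mp h1
  have h2ne : (-1 : ZMod r) ≠ 1 := by
    haveI : Fact (2 < r) := ⟨by
      have := (Fact.out : r.Prime).two_le
      omega⟩
    exact ZMod.neg_one_ne_one
  set e := orderOf (q : ZMod r) with he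
  have hek : e ∣ k := orderOf_dvd_of_pow_eq_one hone
  have he0 : 0 < e := Nat.pos_of_dvd_of_pos hek hk
  have heki : e < 2 * i := lt_of_le_of_lt (Nat.le_of_dvd hk hek) hlt
  have hqi : (q : ZMod r) ^ i = -1 := (hneg i).mp hir
  have h2i : e ∣ 2 * i := by
    apply orderOf_dvd_of_pow_eq_one
    rw [mul_comm, pow_mul, hqi]; ring
  have hni : ¬ e ∣ i := by
    intro hd
    rw [orderOf_dvd_iff_pow_eq_one, hqi] at hd
    exact h2ne hd
  have heven : 2 ∣ e := by
    by_contra hodd
    have hc : Nat.Coprime e 2 := (Nat.coprime_comm.mp ((Nat.Prime.coprime_iff_not_dvd Nat.prime_two).mpr hodd))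
    exact hni (hc.dvd_of_dvd_mul_left h2i)
  obtain ⟨e', he'⟩ := heven
  have he'1 : 1 ≤ e' := by omega
  have hsq : ((q : ZMod r) ^ e') * ((q : ZMod r) ^ e') = 1 := by
    rw [← pow_add, ← two_mul, ← he']
    exact pow_orderOf_eq_one _
  have hne1 : (q : ZMod r) ^ e' ≠ 1 := by
    intro h1
    have := orderOf_dvd_of_pow_eq_one h1
    rw [← he] at this
    have := Nat.le_of_dvd (by omega) this
    omega
  have hm1 : (q : ZMod r) ^ e' = -1 := by
    rcases mul_self_eq_one_iff.mp hsq with h | h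
    · exact absurd h hne1
    · exact h
  have := hmin e' he'1 ((hneg e').mpr hm1)
  omega

/-- an r-th root of unity fixes a vector of `ker (T-1) ∩ range (T-1)` trivially -/
theorem disj (T : V →ₗ[F] V) {r : ℕ} (hT : T ^ r = 1) (hrF : (r : F) ≠ 0) {u : V}
    (hu : T (T u - u) = T u - u) : T u = u := by
  have key : ∀ j : ℕ, (T ^ j) u = u + (j : F) • (T u - u) := by
    intro j
    induction j with
    | zero => simp
    | succ j ih =>
      rw [pow_succ', Module.End.mul_apply, ih, map_add, map_smul, hu]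
      push_cast
      rw [add_smul, one_smul]
      abel
  have h := key r
  rw [hT, Module.End.one_apply] at h
  have h1 : (r : F) • (T u - u) = 0 := by
    have := h.symm
    rwa [add_eq_left] at this
  rcases smul_eq_zero.mp h1 with h2 | h2
  · exact absurd h2 hrF
  · exact sub_eq_zero.mp h2

theorem step {q r m : ℕ} [Fact r.Prime] (hq : Nat.card F = q) (T : V →ₗ[F] V) (hT : T ^ r = 1) (hrF : (r : F) ≠ 0)
    (B : V →ₗ[F] V →ₗ[F] F) (hB : ∀ v, (∀ w, B v w = 0) → v = 0) (hTB : ∀ v w, B (T v) (T w) = B v w)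
    (hm : Module.finrank F (LinearMap.range (T - 1)) ≤ m) (hk : ∀ k, 1 ≤ k → r ∣ q ^ k - 1 → m ≤ k)
    (U : Submodule F V) (hU : ∀ u ∈ U, T u ∈ U) (hUU : ∀ u ∈ U, ∀ v ∈ U, B u v = 0) : ∀ u ∈ U, T u = u := by
  classical
  haveI : Finite V := Module.finite_of_finite F
  haveI : Fintype F := Fintype.ofFinite F
  by_contra hcon
  push Not at hcon
  obtain ⟨u, hu, hTu⟩ := hcon
  set DU : Submodule F V := U.map (T - 1) with hDU
  have huD : T u - u ∈ DU := ⟨u, hu, rfl⟩
  have hDUne : DU ≠ ⊥ := by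
    intro h
    rw [h, Submodule.mem_bot] at huD
    exact hTu (sub_eq_zero.mp huD)
  have hinv : ∀ v ∈ DU, T v ∈ DU := by
    rintro _ ⟨w, hw, rfl⟩
    exact ⟨T w, hU w hw, by simp⟩
  have hk1 : 1 ≤ Module.finrank F DU := by
    rw [Nat.one_le_iff_ne_zero]
    intro h
    exact hDUne (Submodule.finrank_eq_zero.mp h)
  -- no non-zero fixed vector
  have hfix : ∀ v ∈ DU, T v = v → v = 0 := by
    rintro _ ⟨w, hw, rfl⟩ hv
    have := disj T hT hrF (u := w) hv
    show T w - w = 0
    rw [this, sub_self]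
  -- counting
  have hcount : r ∣ q ^ Module.finrank F DU - 1 := by
    let f : Function.End DU := fun v => ⟨T v, hinv v v.2⟩
    have hfj : ∀ j : ℕ, ∀ v : DU, (((f ^ j : Function.End DU) v : DU) : V) = (T ^ j) v := by
      intro j
      induction j with
      | zero => intro v; rfl
      | succ j ih =>
        intro v
        rw [pow_succ', pow_succ', Module.End.mul_apply, ← ih v]
        rfl
    have hf : f ^ (r ^ 1) = 1 := by
      funext v
      apply Subtype.ext
      rw [hfj, pow_one, hT]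
      rfl
    haveI : Fintype DU := Fintype.ofFinite _
    have h1 := Equiv.Perm.card_fixedPoints_modEq (α := DU) (f := f) (p := r) (n := 1) hf
    have h2 : Fintype.card f.fixedPoints = 1 := by
      rw [Fintype.card_eq_one_iff]
      refine ⟨⟨0, ?_⟩, ?_⟩
      · apply Subtype.ext
        show T (0 : V) = 0
        exact map_zero T
      · rintro ⟨v, hv⟩
        apply Subtype.ext
        apply Subtype.ext
        exact hfix v v.2 (congrArg Subtype.val hv)
    rw [h2] at h1
    have h3 : Fintype.card DU = q ^ Module.finrank F DU := by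
      rw [Module.card_eq_pow_finrank (K := F) (V := DU), ← hq, Nat.card_eq_fintype_card]
    rw [h3] at h1
    exact (Nat.modEq_iff_dvd' (Nat.one_le_pow _ _ (by rw [← hq]; exact Nat.card_pos))).mp h1.symm
  have hmk := hk _ hk1 hcount
  have hDle : DU ≤ LinearMap.range (T - 1) := by
    rintro _ ⟨w, -, rfl⟩
    exact ⟨w, rfl⟩
  have hDeq : DU = LinearMap.range (T - 1) := Submodule.eq_of_le_of_finrank_le hDle (by omega)
  have hDUU : DU ≤ U := by
    rintro _ ⟨w, hw, rfl⟩
    exact U.sub_mem (hU w hw) hw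
  -- complement
  have hsup : LinearMap.ker (T - 1) ⊔ LinearMap.range (T - 1) = ⊤ := by
    apply Submodule.eq_top_of_disjoint
    · rw [add_comm]
      exact (LinearMap.finrank_range_add_finrank_ker (T - 1)).ge
    · rw [Submodule.disjoint_def]
      intro v hv1 hv2
      have h1 : T v = v := by
        have : T v - v = 0 := hv1
        exact sub_eq_zero.mp this
      exact hfix v (hDeq ▸ hv2) h1
  apply hTu
  rw [← sub_eq_zero]
  apply hB
  intro w
  have hw : w ∈ LinearMap.ker (T - 1) ⊔ LinearMap.range (T - 1) := by rw [hsup]; trivial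
  obtain ⟨c, hc, d, hd, rfl⟩ := Submodule.mem_sup.mp hw
  have hc' : T c = c := by
    have : T c - c = 0 := hc
    exact sub_eq_zero.mp this
  rw [map_add, hUU _ (hDUU huD) d (hDUU (hDeq ▸ hd)), add_zero, map_sub, LinearMap.sub_apply]
  have := hTB u c
  rw [hc'] at this
  rw [this, sub_self]

end Cfsg.Agent.H25.SpElem
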