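import Mathlib
import Cfsg.Agent.H12.SwapTI
import Cfsg.Agent.H5.SpOrder
import Cfsg.Agent.S0778
import Cfsg.Agent.S0245

/-!
Counting pairs of complementary totally isotropic subspaces of a symplectic space.
-/

set_option autoImplicit false

namespace Cfsg.Agent.H25.SpPairs

open Cfsg Cfsg.Agent.H12 Cfsg.Agent.H5

variable {F : Type*} [Field F] {d : ℕ}

/-- the linear map of a symplectic matrix -/
abbrev T (g : ↥(Matrix.symplecticGroup (Fin d) F)) : (Fin d ⊕ Fin d → F) →ₗ[F] (Fin d ⊕ Fin d → F) :=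
  Matrix.toLin' (g : Matrix (Fin d ⊕ Fin d) (Fin d ⊕ Fin d) F)

theorem T_mul (g h : ↥(Matrix.symplecticGroup (Fin d) F)) : T (g * h) = (T g).comp (T h) := by
  show Matrix.toLin' ((g : Matrix (Fin d ⊕ Fin d) (Fin d ⊕ Fin d) F) * (h : Matrix (Fin d ⊕ Fin d) (Fin d ⊕ Fin d) F)) = _
  rw [Matrix.toLin'_mul]

theorem T_one : T (1 : ↥(Matrix.symplecticGroup (Fin d) F)) = LinearMap.id := by
  show Matrix.toLin' (1 : Matrix (Fin d ⊕ Fin d) (Fin d ⊕ Fin d) F) = _
  rw [Matrix.toLin'_one]

theorem T_inv (g : ↥(Matrix.symplecticGroup (Fin d) F)) (v : Fin d ⊕ Fin d → F) : T g (T g⁻¹ v) = v := by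
  rw [← LinearMap.comp_apply, ← T_mul, mul_inv_cancel, T_one]; rfl

theorem T_inv' (g : ↥(Matrix.symplecticGroup (Fin d) F)) (v : Fin d ⊕ Fin d → F) : T g⁻¹ (T g v) = v := by
  rw [← LinearMap.comp_apply, ← T_mul, inv_mul_cancel, T_one]; rfl

theorem T_inj (g : ↥(Matrix.symplecticGroup (Fin d) F)) : Function.Injective (T g) := by
  intro v w h
  rw [← T_inv' g v, h, T_inv']

theorem T_form (g : ↥(Matrix.symplecticGroup (Fin d) F)) (v w : Fin d ⊕ Fin d → F) :
    sympB d F (T g v) (T g w) = sympB d F v w := mem_Sp_iff.mp g.2 v w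

theorem refl : ReflForm (RingEquiv.refl F) (-1 : F) (sympForm d F) where
  inv a := rfl
  eps := by ring
  seps := rfl
  add_left x y v := by rw [← sympB_apply, ← sympB_apply, ← sympB_apply, map_add, LinearMap.add_apply]
  smul_left c x v := by rw [← sympB_apply, ← sympB_apply, map_smul, LinearMap.smul_apply, smul_eq_mul]
  herm v w := by
    rw [H5.sympForm_eq, H5.sympForm_eq]
    rw [RingEquiv.refl_apply, Finset.mul_sum]
    apply Finset.sum_congr rfl
    intro i _
    ring
  nondeg v hv := by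
    by_contra hcon
    push Not at hcon
    apply hv
    apply (sympB_nondegenerate (F := F) (m := d)).1 v
    intro w
    rw [sympB_apply]
    have := hcon w
    rw [H5.sympForm_eq] at this ⊢
    rw [← neg_eq_zero, ← this, ← Finset.sum_neg_distrib]
    apply Finset.sum_congr rfl
    intro i _
    ring

def U0 (d : ℕ) (F : Type*) [Field F] : Submodule F (Fin d ⊕ Fin d → F) where
  carrier := {v | ∀ i : Fin d, v (Sum.inr i) = 0}
  add_mem' {a b} ha hb i := by rw [Pi.add_apply, ha i, hb i, add_zero]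
  zero_mem' i := rfl
  smul_mem' c a ha i := by rw [Pi.smul_apply, ha i, smul_zero]

def W0 (d : ℕ) (F : Type*) [Field F] : Submodule F (Fin d ⊕ Fin d → F) where
  carrier := {v | ∀ i : Fin d, v (Sum.inl i) = 0}
  add_mem' {a b} ha hb i := by rw [Pi.add_apply, ha i, hb i, add_zero]
  zero_mem' i := rfl
  smul_mem' c a ha i := by rw [Pi.smul_apply, ha i, smul_zero]

theorem U0W0 : IsCompl (U0 d F) (W0 d F) := by
  constructor
  · rw [Submodule.disjoint_def]
    intro v h1 h2
    funext s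
    rcases s with i | i
    · exact h2 i
    · exact h1 i
  · rw [codisjoint_iff, eq_top_iff]
    intro v _
    rw [Submodule.mem_sup]
    refine ⟨Sum.elim (fun i => v (Sum.inl i)) (fun _ => 0), fun i => rfl, Sum.elim (fun _ => 0) (fun i => v (Sum.inr i)), fun i => rfl, ?_⟩
    funext s
    rcases s with i | i
    · show v (Sum.inl i) + 0 = _
      rw [add_zero]
    · show 0 + v (Sum.inr i) = _
      rw [zero_add]

theorem U0_ti : ∀ u ∈ U0 d F, ∀ v ∈ U0 d F, sympForm d F u v = 0 := by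
  intro u hu v hv
  rw [H5.sympForm_eq]
  apply Finset.sum_eq_zero
  intro i _
  rw [hu i, hv i, zero_mul, mul_zero, sub_zero]

theorem W0_ti : ∀ u ∈ W0 d F, ∀ v ∈ W0 d F, sympForm d F u v = 0 := by
  intro u hu v hv
  rw [H5.sympForm_eq]
  apply Finset.sum_eq_zero
  intro i _
  rw [hu i, hv i, zero_mul, mul_zero, sub_zero]

theorem s12 (i j : Fin d) : sympForm d F (Pi.single (Sum.inl i) 1) (Pi.single (Sum.inr j) 1) = -(if i = j then 1 else 0) := by
  rw [H5.sympForm_eq, Finset.sum_eq_single i]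
  · simp [Pi.single_apply]
  · intro k _ hk
    simp [Pi.single_apply, hk]
  · simp

theorem s21 (i j : Fin d) : sympForm d F (Pi.single (Sum.inr i) 1) (Pi.single (Sum.inl j) 1) = if i = j then 1 else 0 := by
  rw [H5.sympForm_eq, Finset.sum_eq_single i]
  · simp [Pi.single_apply]
  · intro k _ hk
    simp [Pi.single_apply, hk]
  · simp

theorem half_le {U W : Submodule F (Fin d ⊕ Fin d → F)} (hc : IsCompl U W) (hU : ∀ u ∈ U, ∀ v ∈ U, sympForm d F u v = 0)
    (hW : ∀ u ∈ W, ∀ v ∈ W, sympForm d F u v = 0) : d ≤ Module.finrank F U := by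
  obtain ⟨e, b, -, -, -, -, hrep⟩ := (refl (F := F) (d := d)).exists_dual_bases hU hW hc.sup_eq_top hc.inf_eq_bot
  have hspan : Submodule.span F (Set.range (Sum.elim e b)) = ⊤ := by
    rw [eq_top_iff]
    intro x _
    rw [hrep x]
    apply Submodule.sum_mem
    intro i _
    apply Submodule.add_mem
    · exact Submodule.smul_mem _ _ (Submodule.subset_span ⟨Sum.inl i, rfl⟩)
    · exact Submodule.smul_mem _ _ (Submodule.subset_span ⟨Sum.inr i, rfl⟩)
  have := finrank_le_of_span_eq_top hspan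
  rw [Module.finrank_fintype_fun_eq_card, Fintype.card_sum, Fintype.card_sum, Fintype.card_fin, Fintype.card_fin] at this
  omega

theorem exists_g {U W : Submodule F (Fin d ⊕ Fin d → F)} (hc : IsCompl U W) (hU : ∀ u ∈ U, ∀ v ∈ U, sympForm d F u v = 0)
    (hW : ∀ u ∈ W, ∀ v ∈ W, sympForm d F u v = 0) :
    ∃ g : ↥(Matrix.symplecticGroup (Fin d) F), (U0 d F).map (T g) = U ∧ (W0 d F).map (T g) = W := by
  classical
  have h1 := half_le hc hU hW
  have h2 := half_le hc.symm hW hU
  have h3 := Submodule.finrank_add_eq_of_isCompl hc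
  rw [Module.finrank_fintype_fun_eq_card, Fintype.card_sum, Fintype.card_fin] at h3
  have hn : d = Module.finrank F U := by omega
  obtain ⟨e, b, heU, hbW, heb, hbe, -⟩ := (refl (F := F) (d := d)).exists_dual_bases hU hW hc.sup_eq_top hc.inf_eq_bot
  let s : Fin d ≃ Fin (Module.finrank F U) := finCongr hn
  let M : Matrix (Fin d ⊕ Fin d) (Fin d ⊕ Fin d) F := Matrix.of fun a c => Sum.elim (fun i => e (s i)) (fun i => - b (s i)) c a
  have hM1 : ∀ i, M.mulVec (Pi.single (Sum.inl i) 1) = e (s i) := by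
    intro i
    rw [Matrix.mulVec_single_one]; rfl
  have hM2 : ∀ i, M.mulVec (Pi.single (Sum.inr i) 1) = - b (s i) := by
    intro i
    rw [Matrix.mulVec_single_one]; rfl
  have hMv : ∀ v : Fin d ⊕ Fin d → F, M.mulVec v = ∑ i, v (Sum.inl i) • e (s i) + ∑ i, v (Sum.inr i) • (- b (s i)) := by
    intro v
    funext a
    simp only [Matrix.mulVec, dotProduct, Fintype.sum_sum_type, Pi.add_apply, Finset.sum_apply, Pi.smul_apply, smul_eq_mul]
    congr 1
    · apply Finset.sum_congr rfl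
      intro i _
      show e (s i) a * _ = _
      ring
    · apply Finset.sum_congr rfl
      intro i _
      show (- b (s i)) a * _ = _
      ring
  have hfn : ∀ x y : Fin d ⊕ Fin d → F, sympForm d F (-x) y = - sympForm d F x y := by
    intro x y
    rw [← sympB_apply, ← sympB_apply, map_neg, LinearMap.neg_apply]
  have hfn' : ∀ x y : Fin d ⊕ Fin d → F, sympForm d F x (-y) = - sympForm d F x y := by
    intro x y
    rw [← sympB_apply, ← sympB_apply, map_neg]
  have hMem : M ∈ Matrix.symplecticGroup (Fin d) F := by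
    rw [mem_Sp_iff_cols]
    intro c c'
    rw [sympB_apply, sympB_apply]
    rcases c with i | i <;> rcases c' with j | j
    · rw [hM1, hM1, hU _ (heU _) _ (heU _), H5.sympForm_eq]
      simp
    · rw [hM1, hM2, hfn', heb, s12]
      by_cases hij : i = j
      · subst hij
        simp
      · have h1 : ¬ s i = s j := fun h => hij (s.injective h)
        rw [if_neg h1, if_neg hij]
    · rw [hM2, hM1, hfn, hbe, s21]
      by_cases hij : i = j
      · subst hij
        simp
      · have h1 : ¬ s i = s j := fun h => hij (s.injective h)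
        rw [if_neg h1, if_neg hij, neg_zero]
    · rw [hM2, hM2, hfn, hfn', hW _ (hbW _) _ (hbW _), H5.sympForm_eq]
      simp
  let g : ↥(Matrix.symplecticGroup (Fin d) F) := ⟨M, hMem⟩
  have hTg : ∀ v, T g v = M.mulVec v := fun v => rfl
  have hgU : ∀ v ∈ U0 d F, T g v ∈ U := by
    intro v hv
    rw [hTg, hMv]
    have : ∑ i, v (Sum.inr i) • (- b (s i)) = 0 := by
      apply Finset.sum_eq_zero
      intro i _
      rw [hv i, zero_smul]
    rw [this, add_zero]
    exact Submodule.sum_mem _ fun i _ => Submodule.smul_mem _ _ (heU _)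
  have hgW : ∀ v ∈ W0 d F, T g v ∈ W := by
    intro v hv
    rw [hTg, hMv]
    have : ∑ i, v (Sum.inl i) • (e (s i)) = 0 := by
      apply Finset.sum_eq_zero
      intro i _
      rw [hv i, zero_smul]
    rw [this, zero_add]
    exact Submodule.sum_mem _ fun i _ => Submodule.smul_mem _ _ (Submodule.neg_mem _ (hbW _))
  have hdecomp : ∀ x, ∃ v ∈ U0 d F, ∃ w ∈ W0 d F, x = T g v + T g w := by
    intro x
    have : T g⁻¹ x ∈ U0 d F ⊔ W0 d F := by rw [U0W0.sup_eq_top]; trivial
    obtain ⟨v, hv, w, hw, hvw⟩ := Submodule.mem_sup.mp this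
    refine ⟨v, hv, w, hw, ?_⟩
    rw [← map_add, hvw, T_inv]
  refine ⟨g, le_antisymm ?_ ?_, le_antisymm ?_ ?_⟩
  · rintro _ ⟨v, hv, rfl⟩
    exact hgU v hv
  · intro x hx
    obtain ⟨v, hv, w, hw, hxe⟩ := hdecomp x
    have h0 : T g w = 0 := by
      have hd := Submodule.disjoint_def.mp hc.disjoint
      apply hd _ _ (hgW w hw)
      have : T g w = x - T g v := by rw [hxe]; abel
      rw [this]
      exact Submodule.sub_mem _ hx (hgU v hv)
    exact ⟨v, hv, by rw [hxe, h0, add_zero]⟩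
  · rintro _ ⟨v, hv, rfl⟩
    exact hgW v hv
  · intro x hx
    obtain ⟨v, hv, w, hw, hxe⟩ := hdecomp x
    have h0 : T g v = 0 := by
      have hd := Submodule.disjoint_def.mp hc.disjoint
      apply hd _ (hgU v hv)
      have : T g v = x - T g w := by rw [hxe]; abel
      rw [this]
      exact Submodule.sub_mem _ hx (hgW w hw)
    exact ⟨w, hw, by rw [hxe, h0, zero_add]⟩


/-- the stabiliser of the standard pair -/
def St (d : ℕ) (F : Type*) [Field F] : Subgroup ↥(Matrix.symplecticGroup (Fin d) F) :=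
  Cfsg.stabilizing (Cfsg.spToMat d F) {v : Fin d ⊕ Fin d → F | ∀ i : Fin d, v (Sum.inr i) = 0} ⊓
    Cfsg.stabilizing (Cfsg.spToMat d F) {v : Fin d ⊕ Fin d → F | ∀ i : Fin d, v (Sum.inl i) = 0}

theorem map_eq_iff (k : ↥(Matrix.symplecticGroup (Fin d) F)) (S : Submodule F (Fin d ⊕ Fin d → F)) :
    (∀ v, v ∈ (S : Set (Fin d ⊕ Fin d → F)) ↔ T k v ∈ (S : Set (Fin d ⊕ Fin d → F))) ↔ S.map (T k) = S := by
  constructor
  · intro h
    apply le_antisymm
    · rintro _ ⟨v, hv, rfl⟩
      exact (h v).mp hv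
    · intro v hv
      refine ⟨T k⁻¹ v, (h _).mpr ?_, T_inv k v⟩
      rw [T_inv]; exact hv
  · intro h v
    constructor
    · intro hv
      rw [← h]
      exact ⟨v, hv, rfl⟩
    · intro hv
      rw [← h] at hv
      obtain ⟨w, hw, hwv⟩ := hv
      rwa [← T_inj k hwv]

theorem mem_St (k : ↥(Matrix.symplecticGroup (Fin d) F)) : k ∈ St d F ↔ (U0 d F).map (T k) = U0 d F ∧ (W0 d F).map (T k) = W0 d F := by
  rw [← map_eq_iff, ← map_eq_iff]
  exact Iff.rfl

theorem map_map' (g h : ↥(Matrix.symplecticGroup (Fin d) F)) (S : Submodule F (Fin d ⊕ Fin d → F)) :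
    S.map (T (g * h)) = (S.map (T h)).map (T g) := by
  rw [T_mul, Submodule.map_comp]

abbrev X (d : ℕ) (F : Type*) [Field F] : Type _ :=
  {P : Submodule F (Fin d ⊕ Fin d → F) × Submodule F (Fin d ⊕ Fin d → F) // IsCompl P.1 P.2 ∧ (∀ u ∈ P.1, ∀ v ∈ P.1, Cfsg.sympForm d F u v = 0) ∧ (∀ u ∈ P.2, ∀ v ∈ P.2, Cfsg.sympForm d F u v = 0)}

theorem img_ti (g : ↥(Matrix.symplecticGroup (Fin d) F)) {S : Submodule F (Fin d ⊕ Fin d → F)} (hS : ∀ u ∈ S, ∀ v ∈ S, Cfsg.sympForm d F u v = 0) :
    ∀ u ∈ S.map (T g), ∀ v ∈ S.map (T g), Cfsg.sympForm d F u v = 0 := by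
  rintro _ ⟨u, hu, rfl⟩ _ ⟨v, hv, rfl⟩
  rw [← sympB_apply, T_form, sympB_apply]
  exact hS u hu v hv

theorem img_compl (g : ↥(Matrix.symplecticGroup (Fin d) F)) {S R : Submodule F (Fin d ⊕ Fin d → F)} (h : IsCompl S R) :
    IsCompl (S.map (T g)) (R.map (T g)) := by
  constructor
  · exact (Submodule.disjoint_map (T_inj g) h.disjoint)
  · rw [codisjoint_iff, ← Submodule.map_sup, h.sup_eq_top, eq_top_iff]
    intro v _
    exact ⟨T g⁻¹ v, trivial, T_inv g v⟩

def act (g : ↥(Matrix.symplecticGroup (Fin d) F)) : X d F :=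
  ⟨((U0 d F).map (T g), (W0 d F).map (T g)), img_compl g U0W0, img_ti g U0_ti, img_ti g W0_ti⟩

theorem card_X [Finite F] : Nat.card (X d F) * Nat.card (GL (Fin d) F) = Nat.card ↥(Matrix.symplecticGroup (Fin d) F) := by
  classical
  haveI : Fintype F := Fintype.ofFinite F
  haveI : Finite (Submodule F (Fin d ⊕ Fin d → F)) := inferInstance
  haveI : Finite (X d F) := inferInstance
  haveI : Fintype (X d F) := Fintype.ofFinite _
  rw [← Nat.card_congr (Equiv.sigmaFiberEquiv (act (d := d) (F := F))), Nat.card_sigma]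
  have h1 : ∀ x : X d F, Nat.card {g // act (d := d) (F := F) g = x} = Nat.card (GL (Fin d) F) := by
    intro x
    obtain ⟨h, hh1, hh2⟩ := exists_g x.2.1 x.2.2.1 x.2.2.2
    obtain ⟨e⟩ := Cfsg.Agent.S0778.result (F := F) d
    rw [← Nat.card_congr e.toEquiv]
    have hmem : ∀ g, act (d := d) (F := F) g = x ↔ h⁻¹ * g ∈ St d F := by
      intro g
      rw [mem_St, map_map', map_map']
      constructor
      · intro hg
        have e1 : (U0 d F).map (T g) = x.1.1 := congrArg (fun y : X d F => y.1.1) hg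
        have e2 : (W0 d F).map (T g) = x.1.2 := congrArg (fun y : X d F => y.1.2) hg
        rw [e1, e2, ← hh1, ← hh2, ← map_map', ← map_map', inv_mul_cancel, T_one, Submodule.map_id, Submodule.map_id]
        exact ⟨rfl, rfl⟩
      · rintro ⟨e1, e2⟩
        apply Subtype.ext
        apply Prod.ext
        · show (U0 d F).map (T g) = x.1.1
          rw [← hh1]
          conv_rhs => rw [← e1]
          rw [← map_map', ← map_map', mul_inv_cancel, one_mul]
        · show (W0 d F).map (T g) = x.1.2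
          rw [← hh2]
          conv_rhs => rw [← e2]
          rw [← map_map', ← map_map', mul_inv_cancel, one_mul]
    exact Nat.card_congr
      { toFun := fun g => ⟨h⁻¹ * g.1, (hmem g.1).mp g.2⟩
        invFun := fun k => ⟨h * k.1, (hmem _).mpr (by rw [inv_mul_cancel_left]; exact k.2)⟩
        left_inv := fun g => Subtype.ext (mul_inv_cancel_left h g.1)
        right_inv := fun k => Subtype.ext (inv_mul_cancel_left h k.1) }
  simp only [h1]
  rw [Finset.sum_const, Finset.card_univ, smul_eq_mul, Nat.card_eq_fintype_card]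

/-- the count -/
theorem count_eq {q : ℕ} [Finite F] (hq : Nat.card F = q) :
    Nat.card (X d F) * q ^ (∑ i ∈ Finset.range d, i) = q ^ (d ^ 2) * ∏ i ∈ Finset.range d, (q ^ (i + 1) + 1) := by
  classical
  haveI : Fintype F := Fintype.ofFinite F
  have hF : Fintype.card F = q := by rw [← hq, Nat.card_eq_fintype_card]
  have hq1 : 1 < q := by rw [← hF]; exact Fintype.one_lt_card
  have h1 := card_X (F := F) (d := d)
  rw [Cfsg.Agent.S0245.result hF d, Matrix.card_GL_field, hF] at h1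
  -- both products
  have h2 : ∏ i : Fin d, (q ^ d - q ^ (i : ℕ)) = q ^ (∑ i ∈ Finset.range d, i) * ∏ i ∈ Finset.range d, (q ^ (i + 1) - 1) := by
    rw [Fin.prod_univ_eq_prod_range (fun i => q ^ d - q ^ i) d, ← Finset.prod_pow_eq_pow_sum]
    rw [← Finset.prod_range_reflect (fun i => q ^ (i + 1) - 1) d, ← Finset.prod_mul_distrib]
    apply Finset.prod_congr rfl
    intro i hi
    rw [Finset.mem_range] at hi
    rw [Nat.mul_sub, mul_one, ← pow_add]
    congr 2
    omega
  have h3 : ∏ i ∈ Finset.range d, (q ^ (2 * (i + 1)) - 1) = (∏ i ∈ Finset.range d, (q ^ (i + 1) - 1)) * ∏ i ∈ Finset.range d, (q ^ (i + 1) + 1) := by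
    rw [← Finset.prod_mul_distrib]
    apply Finset.prod_congr rfl
    intro i _
    have := Nat.sq_sub_sq (q ^ (i + 1)) 1
    rw [one_pow, ← pow_mul, mul_comm (i + 1) 2] at this
    rw [this, mul_comm]
  rw [h2, h3] at h1
  have hpos : 0 < ∏ i ∈ Finset.range d, (q ^ (i + 1) - 1) := by
    apply Finset.prod_pos
    intro i _
    have : 1 < q ^ (i + 1) := Nat.one_lt_pow (by omega) hq1
    omega
  apply Nat.eq_of_mul_eq_mul_right hpos
  rw [mul_assoc, h1]
  ring

theorem dvd_of_dvd {r q : ℕ} [Finite F] (hr : r.Prime) (hq : Nat.card F = q) (hrq : ¬ r ∣ q) (h : r ∣ Nat.card (X d F)) :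
    ∃ i, 1 ≤ i ∧ i ≤ d ∧ r ∣ q ^ i + 1 := by
  have h5 : r ∣ q ^ (d ^ 2) * ∏ i ∈ Finset.range d, (q ^ (i + 1) + 1) := by
    rw [← count_eq hq]
    exact Dvd.dvd.mul_right h _
  rcases (Nat.Prime.dvd_mul hr).mp h5 with h6 | h6
  · exact absurd (hr.dvd_of_dvd_pow h6) hrq
  · obtain ⟨i, hi, hir⟩ := (Prime.dvd_finsetProd_iff hr.prime _).mp h6
    rw [Finset.mem_range] at hi
    exact ⟨i + 1, by omega, by omega, hir⟩

theorem two_dvd {q : ℕ} [Finite F] (hq : Nat.card F = q) (hodd : Odd q) (hd : 1 ≤ d) : 2 ∣ Nat.card (X d F) := by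
  have h1 : 2 ∣ Nat.card (X d F) * q ^ (∑ i ∈ Finset.range d, i) := by
    rw [count_eq hq]
    apply Dvd.dvd.mul_left
    have h2 : 2 ∣ q ^ (0 + 1) + 1 := by
      rw [zero_add, pow_one]
      exact (Odd.add_odd hodd odd_one).two_dvd
    exact h2.trans (Finset.dvd_prod_of_mem (fun i => q ^ (i + 1) + 1) (Finset.mem_range.mpr (by omega : 0 < d)))
  rcases (Nat.Prime.dvd_mul Nat.prime_two).mp h1 with h | h
  · exact h
  · have := Nat.prime_two.dvd_of_dvd_pow h
    exact absurd this hodd.not_two_dvd_nat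

end Cfsg.Agent.H25.SpPairs
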