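import Mathlib
import Cfsg.Agent.H25.SpElem
import Cfsg.Agent.H25.SpPairs
import Cfsg.Agent.H16.PGr6

/-!
Elements of order r of Sp_{2d}(q) with small displacement.
-/

set_option autoImplicit false

namespace Cfsg.Agent.H25.SpElem2

open Cfsg Cfsg.Agent.H5

variable {F : Type*} [Field F] {d : ℕ}

theorem ss_row_inl {l l' : Type*} [Fintype l] [DecidableEq l] [Fintype l'] [DecidableEq l'] (M : Matrix (l ⊕ l) (l ⊕ l) F)
    (v : (l ⊕ l') ⊕ (l ⊕ l') → F) (j : l') :
    (Cfsg.Agent.H16.PGr.ss M (1 : Matrix (l' ⊕ l') (l' ⊕ l') F)).mulVec v (Sum.inl (Sum.inr j)) = v (Sum.inl (Sum.inr j)) := by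
  simp only [Cfsg.Agent.H16.PGr.ss, Matrix.mulVec, dotProduct, Fintype.sum_sum_type, Matrix.fromBlocks_apply₁₁, Matrix.fromBlocks_apply₁₂,
    Matrix.fromBlocks_apply₂₁, Matrix.fromBlocks_apply₂₂, Matrix.zero_apply, zero_mul, Finset.sum_const_zero, zero_add, add_zero,
    Matrix.toBlocks₁₁, Matrix.toBlocks₁₂, Matrix.of_apply, Matrix.one_apply, Sum.inl.injEq, reduceCtorEq, if_false, ite_mul, one_mul,
    Finset.sum_ite_eq, Finset.mem_univ, if_true]

theorem ss_row_inr {l l' : Type*} [Fintype l] [DecidableEq l] [Fintype l'] [DecidableEq l'] (M : Matrix (l ⊕ l) (l ⊕ l) F)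
    (v : (l ⊕ l') ⊕ (l ⊕ l') → F) (j : l') :
    (Cfsg.Agent.H16.PGr.ss M (1 : Matrix (l' ⊕ l') (l' ⊕ l') F)).mulVec v (Sum.inr (Sum.inr j)) = v (Sum.inr (Sum.inr j)) := by
  simp only [Cfsg.Agent.H16.PGr.ss, Matrix.mulVec, dotProduct, Fintype.sum_sum_type, Matrix.fromBlocks_apply₁₁, Matrix.fromBlocks_apply₁₂,
    Matrix.fromBlocks_apply₂₁, Matrix.fromBlocks_apply₂₂, Matrix.zero_apply, zero_mul, Finset.sum_const_zero, zero_add, add_zero,
    Matrix.toBlocks₂₁, Matrix.toBlocks₂₂, Matrix.of_apply, Matrix.one_apply, Sum.inr.injEq, reduceCtorEq, if_false, ite_mul, one_mul,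
    Finset.sum_ite_eq, Finset.mem_univ, if_true]

/-- a symplectic matrix of order `r` and displacement at most `2 i` -/
theorem exists_elem [Finite F] {q r i : ℕ} [Fact r.Prime] (hq : Nat.card F = q) (hi1 : 1 ≤ i) (hid : i ≤ d) (hir : r ∣ q ^ i + 1) :
    ∃ x : ↥(Matrix.symplecticGroup (Fin d) F), orderOf x = r ∧
      Module.finrank F (LinearMap.range (SpPairs.T x - 1)) ≤ 2 * i := by
  classical
  haveI : Fintype F := Fintype.ofFinite F
  have hF : Fintype.card F = q := by rw [← hq, Nat.card_eq_fintype_card]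
  have hq1 : 1 < q := by rw [← hF]; exact Fintype.one_lt_card
  -- an element of order r in Sp_{2i}
  have hdvd : r ∣ Nat.card ↥(Matrix.symplecticGroup (Fin i) F) := by
    rw [Cfsg.Agent.S0245.result hF i]
    apply Dvd.dvd.mul_left
    have h1 : r ∣ q ^ (2 * ((i - 1) + 1)) - 1 := by
      have h2 : i - 1 + 1 = i := by omega
      rw [h2]
      have := Nat.sq_sub_sq (q ^ i) 1
      rw [one_pow, ← pow_mul, mul_comm i 2] at this
      rw [this]
      exact Dvd.dvd.mul_right hir _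
    exact h1.trans (Finset.dvd_prod_of_mem (fun j => q ^ (2 * (j + 1)) - 1) (Finset.mem_range.mpr (by omega : i - 1 < i)))
  obtain ⟨x1, hx1⟩ := exists_prime_orderOf_dvd_card' r hdvd
  let e : Fin i ⊕ Fin (d - i) ≃ Fin d := Fintype.equivOfCardEq (by simp; omega)
  let x : ↥(Matrix.symplecticGroup (Fin d) F) := Cfsg.Agent.H16.PGr.spRe e (Cfsg.Agent.H16.PGr.spSum (x1, 1))
  have hxo : orderOf x = r := by
    show orderOf (Cfsg.Agent.H16.PGr.spRe e (Cfsg.Agent.H16.PGr.spSum (x1, 1))) = r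
    rw [orderOf_injective _ (Cfsg.Agent.H16.PGr.spRe_inj e), orderOf_injective _ Cfsg.Agent.H16.PGr.spSum_inj, Prod.orderOf_mk, hx1, orderOf_one,
      Nat.lcm_one_right]
  refine ⟨x, hxo, ?_⟩
  -- the coordinates of the second block
  let c : Fin (d - i) ⊕ Fin (d - i) → Fin d ⊕ Fin d := Sum.map (fun j => e (Sum.inr j)) (fun j => e (Sum.inr j))
  have hc : Function.Injective c := by
    apply Sum.map_injective.mpr
    constructor <;> exact fun a b h => Sum.inr_injective (e.injective h)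
  let P : (Fin d ⊕ Fin d → F) →ₗ[F] (Fin (d - i) ⊕ Fin (d - i) → F) := LinearMap.funLeft F F c
  have hP : Function.Surjective P := LinearMap.funLeft_surjective_of_injective F F c hc
  have hle : LinearMap.range (SpPairs.T x - 1) ≤ LinearMap.ker P := by
    rintro _ ⟨v, rfl⟩
    have hmv : ∀ s, SpPairs.T x v s = (Cfsg.Agent.H16.PGr.ss x1.1 (1 : Matrix (Fin (d - i) ⊕ Fin (d - i)) (Fin (d - i) ⊕ Fin (d - i)) F)).mulVec
        (v ∘ (e.sumCongr e)) ((e.sumCongr e).symm s) := by
      intro s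
      show (Matrix.reindex (e.sumCongr e) (e.sumCongr e) (Cfsg.Agent.H16.PGr.ss x1.1 1)).mulVec v s = _
      rw [Matrix.reindex_apply, Matrix.submatrix_mulVec_equiv]
      rfl
    rw [LinearMap.mem_ker]
    funext s
    show SpPairs.T x v (c s) - v (c s) = 0
    rw [hmv]
    rcases s with j | j
    · have h1 : (e.sumCongr e).symm (c (Sum.inl j)) = Sum.inl (Sum.inr j) := by
        rw [Equiv.symm_apply_eq]; rfl
      rw [h1, ss_row_inl]
      show v (e.sumCongr e (Sum.inl (Sum.inr j))) - _ = 0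
      exact sub_self _
    · have h1 : (e.sumCongr e).symm (c (Sum.inr j)) = Sum.inr (Sum.inr j) := by
        rw [Equiv.symm_apply_eq]; rfl
      rw [h1, ss_row_inr]
      show v (e.sumCongr e (Sum.inr (Sum.inr j))) - _ = 0
      exact sub_self _
  have h1 := Submodule.finrank_mono hle
  have h2 := LinearMap.finrank_range_add_finrank_ker P
  rw [LinearMap.range_eq_top.mpr hP, finrank_top, Module.finrank_fintype_fun_eq_card, Module.finrank_fintype_fun_eq_card, Fintype.card_sum, Fintype.card_sum,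
    Fintype.card_fin, Fintype.card_fin] at h2
  omega

end Cfsg.Agent.H25.SpElem2
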