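import Mathlib

/-!
Matrices which are not similitudes of an alternating form: a regular block of size 3, and diagonal matrices.
-/

set_option autoImplicit false

namespace Cfsg.Agent.H25.SpGen1

open Matrix Module

variable {F : Type*} [Field F]

/-- no isometry of an alternating form has exactly one Jordan block of size 3 and the others smaller -/
theorem no_j3 {V : Type*} [AddCommGroup V] [Module F V] (h2 : (2 : F) ≠ 0) (B : LinearMap.BilinForm F V) (hB : ∀ v, B v v = 0)
    (hnd : ∀ v, (∀ w, B v w = 0) → v = 0) (N : V →ₗ[F] V) (hN : ∀ u, N (N (N u)) = 0)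
    (hiso : ∀ u v, B (u + N u) (v + N v) = B u v) (e w : V) (hw : w ≠ 0) (ℓ : V → F) (hℓ : ∀ u, N (N u) = ℓ u • w) (he : ℓ e = 1) : False := by
  have hsk : ∀ u v, B u v = - B v u := by
    intro u v
    have := hB (u + v)
    simp only [map_add, LinearMap.add_apply, hB] at this
    linear_combination this
  have h0 : ∀ u v, B (N u) v + B u (N v) + B (N u) (N v) = 0 := by
    intro u v
    have := hiso u v
    simp only [map_add, LinearMap.add_apply] at this
    linear_combination this
  have h1 : ∀ u v, B (N (N u)) (N v) = 0 := by
    intro u v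
    have := h0 (N (N u)) v
    rw [hN, map_zero, LinearMap.zero_apply, LinearMap.zero_apply] at this
    linear_combination this
  have h1' : ∀ u v, B (N u) (N (N v)) = 0 := by
    intro u v
    rw [hsk, h1, neg_zero]
  have h2' : ∀ u v, B (N (N u)) v = B u (N (N v)) := by
    intro u v
    have e1 := h0 (N u) v
    have e2 := h0 u (N v)
    rw [h1] at e1
    rw [h1'] at e2
    linear_combination e1 - e2
  have h3 : B w e = 0 := by
    have e1 := h2' e e
    rw [hsk e, hℓ, he, one_smul] at e1
    have : (2 : F) * B w e = 0 := by linear_combination e1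
    exact (mul_eq_zero.mp this).resolve_left h2
  apply hw
  apply hnd
  intro v
  have e1 := h2' e v
  rw [hℓ, he, one_smul, hsk e, hℓ, map_smul, LinearMap.smul_apply, h3, smul_zero, neg_zero] at e1
  exact e1

/-- diagonal matrices -/
theorem no_diag {n : ℕ} [DecidableEq F] (d : Fin n → F) (c : F) (hbig : n < 2 * (Finset.univ.filter fun i => d i = c).card) (i0 : Fin n)
    (hi0 : ∀ j, d i0 * d j ≠ c * c) (B : LinearMap.BilinForm F (Fin n → F)) 
    (hnd : ∀ v, (∀ w, B v w = 0) → v = 0) (l : F)
    (h : ∀ u v, B ((Matrix.diagonal d).mulVec u) ((Matrix.diagonal d).mulVec v) = l * B u v) : False := by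
  classical
  have he : ∀ i, (Matrix.diagonal d).mulVec (Pi.single i 1) = d i • (Pi.single i (1 : F) : Fin n → F) := by
    intro i
    rw [Matrix.diagonal_mulVec_single, mul_one, ← Pi.single_smul, smul_eq_mul, mul_one]
  have hij : ∀ i j, (d i * d j - l) * B (Pi.single i 1) (Pi.single j 1) = 0 := by
    intro i j
    have := h (Pi.single i 1) (Pi.single j 1)
    simp only [he, map_smul, LinearMap.smul_apply, smul_eq_mul] at this
    linear_combination this
  have hbas : ∀ v : Fin n → F, (∀ j, B v (Pi.single j 1) = 0) → v = 0 := by
    intro v hv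
    apply hnd
    intro w
    have h1 : w = ∑ j, w j • (Pi.single j (1 : F) : Fin n → F) := pi_eq_sum_univ' w
    rw [h1, map_sum]
    apply Finset.sum_eq_zero
    intro j _
    rw [map_smul, hv, smul_zero]
  by_cases hl : l = c * c
  · have h1 : (Pi.single i0 (1 : F) : Fin n → F) = 0 := by
      apply hbas
      intro j
      have h2 := hij i0 j
      rcases mul_eq_zero.mp h2 with h3 | h3
      · exact absurd (by rw [← hl]; exact sub_eq_zero.mp h3) (hi0 j)
      · exact h3
    have := congrFun h1 i0
    simp at this
  · -- a totally isotropic coordinate subspace of large dimension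
    let S := {i : Fin n // d i = c}
    let R := {i : Fin n // ¬ d i = c}
    let E : (S → F) →ₗ[F] (Fin n → F) := ∑ i : S, (LinearMap.proj i : (S → F) →ₗ[F] F).smulRight (Pi.single (i : Fin n) (1 : F))
    have hE : ∀ z, E z = ∑ i : S, z i • (Pi.single (i : Fin n) (1 : F) : Fin n → F) := by
      intro z
      simp only [E, LinearMap.sum_apply, LinearMap.smulRight_apply, LinearMap.proj_apply]
    let Φ : (S → F) →ₗ[F] (R → F) := LinearMap.pi fun j => (B.flip (Pi.single (j : Fin n) (1 : F))).comp E
    have hcard : Fintype.card R < Fintype.card S := by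
      have h1 := Fintype.card_subtype_compl (fun i => d i = c)
      have h2 : Fintype.card S = (Finset.univ.filter fun i => d i = c).card := Fintype.card_subtype _
      have h3 : Fintype.card S ≤ Fintype.card (Fin n) := Fintype.card_subtype_le _
      rw [Fintype.card_fin] at h1 h3
      have h4 : Fintype.card R = n - Fintype.card S := h1
      omega
    obtain ⟨z, hz, hz0⟩ : ∃ z ∈ LinearMap.ker Φ, z ≠ 0 := by
      have h1 : LinearMap.ker Φ ≠ ⊥ := LinearMap.ker_ne_bot_of_finrank_lt (by
        rw [Module.finrank_fintype_fun_eq_card, Module.finrank_fintype_fun_eq_card]; exact hcard)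
      exact Submodule.exists_mem_ne_zero_of_ne_bot h1
    have hEz : E z = 0 := by
      apply hbas
      intro j
      by_cases hj : d j = c
      · rw [hE, map_sum, LinearMap.sum_apply]
        apply Finset.sum_eq_zero
        intro i _
        rw [map_smul, LinearMap.smul_apply]
        have h2 := hij i j
        rw [i.2, hj] at h2
        rw [(mul_eq_zero.mp h2).resolve_left (fun h => hl (sub_eq_zero.mp h).symm), smul_zero]
      · exact congrFun (LinearMap.mem_ker.mp hz) ⟨j, hj⟩
    apply hz0
    funext i
    have h1 := congrFun hEz (i : Fin n)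
    rw [hE, Finset.sum_apply, Finset.sum_eq_single i] at h1
    · simpa using h1
    · intro k _ hk
      have : (i : Fin n) ≠ (k : Fin n) := fun h => hk (Subtype.ext h.symm)
      simp [Pi.single_apply, this]
    · simp

end Cfsg.Agent.H25.SpGen1
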