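import Mathlib
import Cfsg.Agent.H25.SpElem
import Cfsg.Agent.H5.AltBasis

/-!
An isometry of an alternating form with displacement of odd prime-order type: the displacement has even dimension.
-/

set_option autoImplicit false

namespace Cfsg.Agent.H25.SpGen2

open Module

variable {F V : Type*} [Field F] [Finite F] [AddCommGroup V] [Module F V] [FiniteDimensional F V]

theorem even_disp {q r m : ℕ} [Fact r.Prime] (hq : Nat.card F = q) (T : V →ₗ[F] V) (hT : T ^ r = 1) (hT1 : T ≠ 1) (hrF : (r : F) ≠ 0)
    (B : LinearMap.BilinForm F V) (hA : B.IsAlt) (hB : ∀ v, (∀ w, B v w = 0) → v = 0) (hTB : ∀ v w, B (T v) (T w) = B v w)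
    (hm : Module.finrank F (LinearMap.range (T - 1)) ≤ m) (hk : ∀ k, 1 ≤ k → r ∣ q ^ k - 1 → m ≤ k) : Even m := by
  classical
  haveI : Finite V := Module.finite_of_finite F
  haveI : Fintype F := Fintype.ofFinite F
  set D : Submodule F V := LinearMap.range (T - 1) with hD
  have hinv : ∀ v ∈ D, T v ∈ D := by
    rintro _ ⟨w, rfl⟩
    exact ⟨T w, by simp⟩
  have hfix : ∀ v ∈ D, T v = v → v = 0 := by
    rintro _ ⟨w, rfl⟩ hv
    have := SpElem.disj T hT hrF (u := w) hv
    show T w - w = 0
    rw [this, sub_self]
  have hDne : D ≠ ⊥ := by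
    intro h
    apply hT1
    rw [LinearMap.range_eq_bot] at h
    exact sub_eq_zero.mp h
  have hk1 : 1 ≤ Module.finrank F D := by
    rw [Nat.one_le_iff_ne_zero]
    intro h
    exact hDne (Submodule.finrank_eq_zero.mp h)
  have hcount : r ∣ q ^ Module.finrank F D - 1 := by
    let f : Function.End D := fun v => ⟨T v, hinv v v.2⟩
    have hfj : ∀ j : ℕ, ∀ v : D, (((f ^ j : Function.End D) v : D) : V) = (T ^ j) v := by
      intro j
      induction j with
      | zero => intro v; rfl
      | succ j ih =>
        intro v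
        rw [pow_succ', pow_succ', Module.End.mul_apply, ← ih v]
        rfl
    have hf : f ^ (r ^ 1) = 1 := by
      funext v
      apply Subtype.ext
      rw [hfj, pow_one, hT]
      rfl
    haveI : Fintype D := Fintype.ofFinite _
    have h1 := Equiv.Perm.card_fixedPoints_modEq (α := D) (f := f) (p := r) (n := 1) hf
    have h2 : Fintype.card f.fixedPoints = 1 := by
      rw [Fintype.card_eq_one_iff]
      refine ⟨⟨0, ?_⟩, ?_⟩
      · apply Subtype.ext
        show T (0 : V) = 0
        exact map_zero T
      · rintro ⟨v, hv⟩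
        apply Subtype.ext
        apply Subtype.ext
        exact hfix v v.2 (congrArg Subtype.val hv)
    rw [h2] at h1
    have h3 : Fintype.card D = q ^ Module.finrank F D := by
      rw [Module.card_eq_pow_finrank (K := F) (V := D), ← hq, Nat.card_eq_fintype_card]
    rw [h3] at h1
    exact (Nat.modEq_iff_dvd' (Nat.one_le_pow _ _ (by rw [← hq]; exact Nat.card_pos))).mp h1.symm
  have hmk := hk _ hk1 hcount
  have hmD : Module.finrank F D = m := le_antisymm hm hmk
  have hsup : LinearMap.ker (T - 1) ⊔ D = ⊤ := by
    apply Submodule.eq_top_of_disjoint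
    · rw [add_comm]
      exact (LinearMap.finrank_range_add_finrank_ker (T - 1)).ge
    · rw [Submodule.disjoint_def]
      intro v hv1 hv2
      have h1 : T v = v := by
        have : T v - v = 0 := hv1
        exact sub_eq_zero.mp this
      exact hfix v hv2 h1
  -- the restricted form
  let B' : LinearMap.BilinForm F D := B.restrict D
  have hA' : B'.IsAlt := fun v => hA (v : V)
  have hnd' : ∀ v : D, (∀ w : D, B' v w = 0) → v = 0 := by
    intro v hv
    apply Subtype.ext
    apply hB
    intro w
    have hw : w ∈ LinearMap.ker (T - 1) ⊔ D := by rw [hsup]; trivial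
    obtain ⟨c, hc, d, hd, rfl⟩ := Submodule.mem_sup.mp hw
    have hc' : T c = c := by
      have : T c - c = 0 := hc
      exact sub_eq_zero.mp this
    have h1 : B (v : V) d = 0 := hv ⟨d, hd⟩
    have h2 : B (v : V) c = 0 := by
      obtain ⟨u, hu⟩ := v.2
      rw [← hu]
      show B (T u - u) c = 0
      rw [map_sub, LinearMap.sub_apply]
      have := hTB u c
      rw [hc'] at this
      rw [this, sub_self]
    rw [map_add, h1, h2, add_zero]
  obtain ⟨a, k, b, -, -, -, b4⟩ := H5.alt_basis _ B' hA' rfl
  have hk0 : k = 0 := by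
    by_contra h
    have h1 : b (Sum.inr ⟨0, Nat.pos_of_ne_zero h⟩) = 0 := hnd' _ (b4 _)
    exact b.ne_zero _ h1
  have h5 := Module.finrank_eq_card_basis b
  rw [hmD, hk0] at h5
  simp only [Fintype.card_sum, Fintype.card_fin] at h5
  exact ⟨a, by omega⟩

end Cfsg.Agent.H25.SpGen2
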