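import Mathlib
import Cfsg.Prelude.Def_GeometricClasses
import Cfsg.Agent.H17.FormIso
import Cfsg.Agent.H5.Sp
import Cfsg.Agent.S0242
import Cfsg.Agent.S0245

/-!
The index of the similarity group of an alternating form in the special linear group.
-/

set_option autoImplicit false

namespace Cfsg.Agent.H25.SpGen3

open Matrix Module Cfsg Cfsg.Agent.H5

/-- the bilinear form -/
def bil {F : Type*} [Field F] {n : ℕ} {f : (Fin n → F) → (Fin n → F) → F} (hf : Cfsg.Geo.IsSymplecticForm f) : LinearMap.BilinForm F (Fin n → F) :=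
  LinearMap.mk₂ F f hf.bilinear.add_left (fun c x v => hf.bilinear.smul_left c x v) hf.bilinear.add_right (fun c v x => hf.bilinear.smul_right c v x)

theorem bil_apply {F : Type*} [Field F] {n : ℕ} {f : (Fin n → F) → (Fin n → F) → F} (hf : Cfsg.Geo.IsSymplecticForm f) (u v : Fin n → F) :
    bil hf u v = f u v := rfl

theorem bil_nd {F : Type*} [Field F] {n : ℕ} {f : (Fin n → F) → (Fin n → F) → F} (hf : Cfsg.Geo.IsSymplecticForm f) (v : Fin n → F)
    (h : ∀ w, bil hf v w = 0) : v = 0 := by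
  by_contra hv
  obtain ⟨-, x, hx⟩ := hf.nondegenerate v hv
  exact hx (h x)

theorem sp_dvd {F : Type*} [Field F] [Finite F] {n m : ℕ} (hn : n = m + m) {f : (Fin n → F) → (Fin n → F) → F} (hf : Cfsg.Geo.IsSymplecticForm f) :
    Nat.card ↥(Matrix.symplecticGroup (Fin m) F) ∣
      Nat.card ↥((Cfsg.Geo.similarityGroup f).comap (Matrix.SpecialLinearGroup.toGL : Matrix.SpecialLinearGroup (Fin n) F →* GL (Fin n) F)) := by
  classical
  let e : Fin m ⊕ Fin m ≃ Fin n := finSumFinEquiv.trans (finCongr hn.symm)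
  let L : (Fin n → F) →ₗ[F] (Fin m ⊕ Fin m → F) := LinearMap.funLeft F F e
  have hL : ∀ u, L u = u ∘ e := fun u => rfl
  have hLinj : Function.Injective L := LinearMap.funLeft_injective_of_surjective F F e e.surjective
  let J₂ : LinearMap.BilinForm F (Fin n → F) := (sympB m F).compl₁₂ L L
  have hJ₂ : ∀ u v, J₂ u v = sympB m F (L u) (L v) := fun u v => rfl
  have hLsurj : Function.Surjective L := LinearMap.funLeft_surjective_of_injective F F e e.injective
  have nd2 : ∀ x, (∀ y, J₂ x y = 0) → x = 0 := by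
    intro x hx
    apply hLinj
    rw [map_zero]
    apply (sympB_nondegenerate (F := F) (m := m)).1 (L x)
    intro w
    obtain ⟨y, rfl⟩ := hLsurj w
    exact hx y
  obtain ⟨g, hg, -⟩ := Cfsg.Agent.H17.good_one (J₁ := bil hf) (J₂ := J₂) (A := LinearMap.id) (a := 1) (fun v => by simp)
    (fun v => hf.alternating v) (fun v => sympB_isAlt (L v)) (bil_nd hf) nd2
  have hginj : Function.Injective g := by
    rw [injective_iff_map_eq_zero]
    intro x hx
    apply nd2
    intro y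
    rw [← hg, hx, map_zero, LinearMap.zero_apply]
  let G : Matrix (Fin n) (Fin n) F := LinearMap.toMatrix' g
  have hG : ∀ v, G.mulVec v = g v := fun v => by
    rw [← Matrix.toLin'_apply, Matrix.toLin'_toMatrix']
  have hGdet : IsUnit G.det := by
    rw [isUnit_iff_ne_zero]
    intro h0
    obtain ⟨v, hv0, hv⟩ := Matrix.exists_mulVec_eq_zero_iff.mpr h0
    rw [hG] at hv
    exact hv0 (hginj (by rw [hv, map_zero]))
  have hGG : G * G⁻¹ = 1 := Matrix.mul_nonsing_inv G hGdet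
  have hGG' : G⁻¹ * G = 1 := Matrix.nonsing_inv_mul G hGdet
  have hR : ∀ (s : ↥(Matrix.symplecticGroup (Fin m) F)) (v : Fin n → F), L ((Matrix.reindex e e (s : Matrix (Fin m ⊕ Fin m) (Fin m ⊕ Fin m) F)).mulVec v) =
      (s : Matrix (Fin m ⊕ Fin m) (Fin m ⊕ Fin m) F).mulVec (L v) := by
    intro s v
    rw [hL, hL, Matrix.reindex_apply, Matrix.submatrix_mulVec_equiv]
    funext i
    simp
  let ψ : ↥(Matrix.symplecticGroup (Fin m) F) →* Matrix.SpecialLinearGroup (Fin n) F :=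
    { toFun := fun s => ⟨G * Matrix.reindex e e (s : Matrix (Fin m ⊕ Fin m) (Fin m ⊕ Fin m) F) * G⁻¹, by
        rw [Matrix.det_mul, Matrix.det_mul, mul_comm G.det, mul_assoc, ← Matrix.det_mul, hGG, Matrix.det_one, mul_one, Matrix.det_reindex_self]
        exact SymplecticGroup.det_eq_one s.2⟩
      map_one' := by
        apply Subtype.ext
        show G * Matrix.reindex e e (1 : Matrix (Fin m ⊕ Fin m) (Fin m ⊕ Fin m) F) * G⁻¹ = 1
        rw [Matrix.reindex_apply, Matrix.submatrix_one_equiv, Matrix.mul_one, hGG]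
      map_mul' := fun s t => by
        apply Subtype.ext
        show G * Matrix.reindex e e ((s : Matrix (Fin m ⊕ Fin m) (Fin m ⊕ Fin m) F) * (t : Matrix (Fin m ⊕ Fin m) (Fin m ⊕ Fin m) F)) * G⁻¹ =
          (G * Matrix.reindex e e (s : Matrix (Fin m ⊕ Fin m) (Fin m ⊕ Fin m) F) * G⁻¹) * (G * Matrix.reindex e e (t : Matrix (Fin m ⊕ Fin m) (Fin m ⊕ Fin m) F) * G⁻¹)
        rw [Matrix.reindex_apply, Matrix.reindex_apply, Matrix.reindex_apply, ← Matrix.submatrix_mul_equiv _ _ e.symm e.symm e.symm]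
        simp only [Matrix.mul_assoc]
        rw [← Matrix.mul_assoc G⁻¹ G, hGG', Matrix.one_mul] }
  have hψinj : Function.Injective ψ := by
    intro s t hst
    have h1 : G * Matrix.reindex e e (s : Matrix (Fin m ⊕ Fin m) (Fin m ⊕ Fin m) F) * G⁻¹ = G * Matrix.reindex e e (t : Matrix (Fin m ⊕ Fin m) (Fin m ⊕ Fin m) F) * G⁻¹ :=
      congrArg Subtype.val hst
    have h2 := congrArg (fun Y => G⁻¹ * Y * G) h1
    simp only [Matrix.mul_assoc, hGG', Matrix.mul_one] at h2
    rw [← Matrix.mul_assoc, ← Matrix.mul_assoc, hGG', Matrix.one_mul, Matrix.one_mul] at h2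
    exact Subtype.ext ((Matrix.reindex e e).injective h2)
  have hψmem : ∀ s, ψ s ∈ ((Cfsg.Geo.similarityGroup f).comap (Matrix.SpecialLinearGroup.toGL : Matrix.SpecialLinearGroup (Fin n) F →* GL (Fin n) F)) := by
    intro s
    rw [Subgroup.mem_comap]
    refine ⟨1, fun u v => ?_⟩
    show f ((G * Matrix.reindex e e (s : Matrix (Fin m ⊕ Fin m) (Fin m ⊕ Fin m) F) * G⁻¹).mulVec u) ((G * Matrix.reindex e e (s : Matrix (Fin m ⊕ Fin m) (Fin m ⊕ Fin m) F) * G⁻¹).mulVec v) = _
    rw [← Matrix.mulVec_mulVec, ← Matrix.mulVec_mulVec, ← Matrix.mulVec_mulVec, ← Matrix.mulVec_mulVec, hG, hG, ← bil_apply hf, hg, hJ₂, hR, hR,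
      mem_Sp_iff.mp s.2, ← hJ₂, ← hg, ← hG, ← hG, Matrix.mulVec_mulVec, Matrix.mulVec_mulVec, hGG, Matrix.one_mulVec, Matrix.one_mulVec]
    simp [bil_apply]
  let ψ' : ↥(Matrix.symplecticGroup (Fin m) F) →* ↥((Cfsg.Geo.similarityGroup f).comap (Matrix.SpecialLinearGroup.toGL : Matrix.SpecialLinearGroup (Fin n) F →* GL (Fin n) F)) :=
    ψ.codRestrict _ hψmem
  exact Subgroup.card_dvd_of_injective ψ' (fun s t hst => hψinj (congrArg Subtype.val hst))

theorem prod_split (g : ℕ → ℕ) (m : ℕ) : ∏ i ∈ Finset.range (m + m), g i = (∏ j ∈ Finset.range m, g (2 * j)) * ∏ j ∈ Finset.range m, g (2 * j + 1) := by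
  induction m with
  | zero => simp
  | succ m ih =>
    rw [show m + 1 + (m + 1) = (m + m) + 1 + 1 by ring, Finset.prod_range_succ, Finset.prod_range_succ, ih, Finset.prod_range_succ, Finset.prod_range_succ,
      show m + m = 2 * m by ring]
    ring

theorem idx {F : Type*} [Field F] [Fintype F] {q n m r : ℕ} (hq : Fintype.card F = q) (hn : n = m + m) (hm : 1 ≤ m)
    {f : (Fin n → F) → (Fin n → F) → F} (hf : Cfsg.Geo.IsSymplecticForm f) (hr : r.Prime) (hrq : ¬ r ∣ q)
    (hΩ : r ∣ ((Cfsg.Geo.similarityGroup f).comap (Matrix.SpecialLinearGroup.toGL : Matrix.SpecialLinearGroup (Fin n) F →* GL (Fin n) F)).index) :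
    ∃ j, j < m ∧ r ∣ q ^ (2 * j + 1) - 1 := by
  classical
  have hq1 : 1 < q := by rw [← hq]; exact Fintype.one_lt_card
  obtain ⟨c, hc⟩ := sp_dvd hn hf
  have h1 := Subgroup.index_mul_card ((Cfsg.Geo.similarityGroup f).comap (Matrix.SpecialLinearGroup.toGL : Matrix.SpecialLinearGroup (Fin n) F →* GL (Fin n) F))
  have h2 := Cfsg.Agent.S0242.result hq n (by omega)
  have h3 := Cfsg.Agent.S0245.result hq m
  rw [← h1, hc, h3] at h2
  have h4 : ∏ i : Fin n, (q ^ n - q ^ (i : ℕ)) = q ^ (∑ i ∈ Finset.range n, i) * ∏ i ∈ Finset.range n, (q ^ (i + 1) - 1) := by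
    rw [Fin.prod_univ_eq_prod_range (fun i => q ^ n - q ^ i) n, ← Finset.prod_pow_eq_pow_sum]
    rw [← Finset.prod_range_reflect (fun i => q ^ (i + 1) - 1) n, ← Finset.prod_mul_distrib]
    apply Finset.prod_congr rfl
    intro i hi
    rw [Finset.mem_range] at hi
    rw [Nat.mul_sub, mul_one, ← pow_add]
    congr 2
    omega
  have h5 : ∏ i ∈ Finset.range n, (q ^ (i + 1) - 1) = (∏ j ∈ Finset.range m, (q ^ (2 * j + 1) - 1)) * ∏ j ∈ Finset.range m, (q ^ (2 * (j + 1)) - 1) := by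
    rw [hn, prod_split (fun i => q ^ (i + 1) - 1) m]
    rfl
  rw [h4, h5] at h2
  have hpos : 0 < ∏ j ∈ Finset.range m, (q ^ (2 * (j + 1)) - 1) := by
    apply Finset.prod_pos
    intro i _
    have : 1 < q ^ (2 * (i + 1)) := Nat.one_lt_pow (by omega) hq1
    omega
  set I := ((Cfsg.Geo.similarityGroup f).comap (Matrix.SpecialLinearGroup.toGL : Matrix.SpecialLinearGroup (Fin n) F →* GL (Fin n) F)).index with hI
  have h6 : (q - 1) * I * c * q ^ (m ^ 2) = q ^ (∑ i ∈ Finset.range n, i) * ∏ j ∈ Finset.range m, (q ^ (2 * j + 1) - 1) := by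
    apply Nat.eq_of_mul_eq_mul_right hpos
    rw [mul_assoc (q ^ (∑ i ∈ Finset.range n, i)), ← h2]
    ring
  have h7 : r ∣ q ^ (∑ i ∈ Finset.range n, i) * ∏ j ∈ Finset.range m, (q ^ (2 * j + 1) - 1) := by
    rw [← h6]
    exact Dvd.dvd.mul_right (Dvd.dvd.mul_right (Dvd.dvd.mul_left hΩ _) _) _
  rcases (Nat.Prime.dvd_mul hr).mp h7 with h8 | h8
  · exact absurd (hr.dvd_of_dvd_pow h8) hrq
  · obtain ⟨j, hj, hjr⟩ := (Prime.dvd_finsetProd_iff hr.prime _).mp h8
    exact ⟨j, Finset.mem_range.mp hj, hjr⟩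

end Cfsg.Agent.H25.SpGen3
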