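import Mathlib
import Cfsg.Agent.H25.SpGen1
import Cfsg.Agent.H25.SpGen2
import Cfsg.Agent.H25.SpGen3

/-!
Matrices of determinant 1 and prime order which are not conjugate to similitudes of an alternating form.
-/

set_option autoImplicit false

namespace Cfsg.Agent.H25.SpGen4

open Matrix Module Cfsg Cfsg.Agent.H5

variable {F : Type*} [Field F] {n : ℕ}

theorem transfer {f : (Fin n → F) → (Fin n → F) → F} (hf : Cfsg.Geo.IsSymplecticForm f) (x P : Matrix.SpecialLinearGroup (Fin n) F)
    (h : P⁻¹ * x * P ∈ ((Cfsg.Geo.similarityGroup f).comap (Matrix.SpecialLinearGroup.toGL : Matrix.SpecialLinearGroup (Fin n) F →* GL (Fin n) F))) :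
    ∃ (B : LinearMap.BilinForm F (Fin n → F)) (l : F), B.IsAlt ∧ (∀ v, (∀ w, B v w = 0) → v = 0) ∧
      ∀ u v, B ((x : Matrix (Fin n) (Fin n) F).mulVec u) ((x : Matrix (Fin n) (Fin n) F).mulVec v) = l * B u v := by
  rw [Subgroup.mem_comap] at h
  obtain ⟨c, hc⟩ := h
  set Q : Matrix (Fin n) (Fin n) F := ((P⁻¹ : Matrix.SpecialLinearGroup (Fin n) F) : Matrix (Fin n) (Fin n) F) with hQ
  have hPQ : (P : Matrix (Fin n) (Fin n) F) * Q = 1 := by
    rw [hQ, ← Matrix.SpecialLinearGroup.coe_mul, mul_inv_cancel]; rfl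
  have hQP : Q * (P : Matrix (Fin n) (Fin n) F) = 1 := by
    rw [hQ, ← Matrix.SpecialLinearGroup.coe_mul, inv_mul_cancel]; rfl
  refine ⟨(SpGen3.bil hf).compl₁₂ (Matrix.toLin' Q) (Matrix.toLin' Q), c, fun v => hf.alternating _, ?_, ?_⟩
  · intro v hv
    have h1 : Q.mulVec v = 0 := by
      apply SpGen3.bil_nd hf
      intro w
      have := hv ((P : Matrix (Fin n) (Fin n) F).mulVec w)
      rw [LinearMap.compl₁₂_apply, Matrix.toLin'_apply, Matrix.toLin'_apply, Matrix.mulVec_mulVec, hQP, Matrix.one_mulVec] at this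
      exact this
    have h2 := congrArg (fun z => (P : Matrix (Fin n) (Fin n) F).mulVec z) h1
    simp only [Matrix.mulVec_mulVec, hPQ, Matrix.one_mulVec, Matrix.mulVec_zero] at h2
    exact h2
  · intro u v
    rw [LinearMap.compl₁₂_apply, LinearMap.compl₁₂_apply, Matrix.toLin'_apply, Matrix.toLin'_apply, Matrix.toLin'_apply, Matrix.toLin'_apply]
    have h1 := hc (Q.mulVec u) (Q.mulVec v)
    have h2 : ∀ w, (Matrix.SpecialLinearGroup.toGL (P⁻¹ * x * P) : Matrix (Fin n) (Fin n) F).mulVec (Q.mulVec w) = Q.mulVec ((x : Matrix (Fin n) (Fin n) F).mulVec w) := by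
      intro w
      show ((P⁻¹ * x * P : Matrix.SpecialLinearGroup (Fin n) F) : Matrix (Fin n) (Fin n) F).mulVec (Q.mulVec w) = _
      rw [Matrix.SpecialLinearGroup.coe_mul, Matrix.SpecialLinearGroup.coe_mul, Matrix.mulVec_mulVec, Matrix.mulVec_mulVec, Matrix.mul_assoc, Matrix.mul_assoc, hPQ, Matrix.mul_one]
    rw [h2, h2] at h1
    exact h1

theorem lam_one [Finite F] {r : ℕ} (hr : r.Prime) (hr1 : ∀ l : F, l ^ r = 1 → l = 1) (hn : 0 < n) (x : Matrix (Fin n) (Fin n) F) (hx : x ^ r = 1)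
    (B : LinearMap.BilinForm F (Fin n → F)) (hnd : ∀ v, (∀ w, B v w = 0) → v = 0) (l : F)
    (h : ∀ u v, B (x.mulVec u) (x.mulVec v) = l * B u v) : l = 1 := by
  have hj : ∀ (j : ℕ) u v, B ((x ^ j).mulVec u) ((x ^ j).mulVec v) = l ^ j * B u v := by
    intro j
    induction j with
    | zero => intro u v; simp
    | succ j ih =>
      intro u v
      rw [pow_succ', ← Matrix.mulVec_mulVec, ← Matrix.mulVec_mulVec, h, ih, pow_succ']
      ring
  obtain ⟨u, v, huv⟩ : ∃ u v, B u v ≠ 0 := by
    by_contra hcon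
    push Not at hcon
    have h1 := hnd (Pi.single ⟨0, hn⟩ 1) (fun w => hcon _ w)
    have := congrFun h1 ⟨0, hn⟩
    simp at this
  apply hr1
  have h2 := hj r u v
  rw [hx, Matrix.one_mulVec, Matrix.one_mulVec] at h2
  have h3 : (l ^ r - 1) * B u v = 0 := by linear_combination -h2
  exact sub_eq_zero.mp ((mul_eq_zero.mp h3).resolve_right huv)

/-- the conclusion -/
def Concl (n : ℕ) (F : Type*) [Field F] (r : ℕ) : Prop :=
  ∃ x : Matrix.SpecialLinearGroup (Fin n) F, (x : Matrix (Fin n) (Fin n) F) ^ r = 1 ∧ (∀ z : F, (x : Matrix (Fin n) (Fin n) F) ≠ z • (1 : Matrix (Fin n) (Fin n) F)) ∧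
    ∀ (B : LinearMap.BilinForm F (Fin n → F)) (l : F), B.IsAlt → (∀ v, (∀ w, B v w = 0) → v = 0) →
      ¬ ∀ u v, B ((x : Matrix (Fin n) (Fin n) F).mulVec u) ((x : Matrix (Fin n) (Fin n) F).mulVec v) = l * B u v

theorem caseA [Finite F] {r : ℕ} [Fact r.Prime] [CharP F r] (hr2 : r ≠ 2) (hn : 4 ≤ n) : Concl n F r := by
  classical
  have hr : r.Prime := Fact.out
  have hr3 : 3 ≤ r := by have := hr.two_le; omega
  have h2F : (2 : F) ≠ 0 := by
    intro h
    have h1 : ((2 : ℕ) : F) = 0 := by exact_mod_cast h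
    rw [CharP.cast_eq_zero_iff F r] at h1
    have := Nat.le_of_dvd (by norm_num) h1
    omega
  let i0 : Fin n := ⟨0, by omega⟩
  let i1 : Fin n := ⟨1, by omega⟩
  let i2 : Fin n := ⟨2, by omega⟩
  have h01 : i0 ≠ i1 := fun h => by have := congrArg Fin.val h; simp [i0, i1] at this
  have h02 : i0 ≠ i2 := fun h => by have := congrArg Fin.val h; simp [i0, i2] at this
  have h12 : i1 ≠ i2 := fun h => by have := congrArg Fin.val h; simp [i1, i2] at this
  set a : Matrix (Fin n) (Fin n) F := Matrix.single i2 i1 1 with ha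
  set b : Matrix (Fin n) (Fin n) F := Matrix.single i1 i0 1 with hb
  have hab : a * b = Matrix.single i2 i0 1 := by rw [ha, hb, Matrix.single_mul_single_same, mul_one]
  have haa : a * a = 0 := by rw [ha, Matrix.single_mul_single_of_ne _ _ _ _ h12]
  have hbb : b * b = 0 := by rw [hb, Matrix.single_mul_single_of_ne _ _ _ _ h01]
  have hba : b * a = 0 := by rw [ha, hb, Matrix.single_mul_single_of_ne _ _ _ _ h02]
  set N : Matrix (Fin n) (Fin n) F := a + b + a * b with hN
  have hNN : N * N = a * b := by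
    have e1 : a * (a * b) = 0 := by rw [← Matrix.mul_assoc, haa, Matrix.zero_mul]
    have e2 : b * (a * b) = 0 := by rw [← Matrix.mul_assoc, hba, Matrix.zero_mul]
    have e3 : a * b * a = 0 := by rw [Matrix.mul_assoc, hba, Matrix.mul_zero]
    have e4 : a * b * b = 0 := by rw [Matrix.mul_assoc, hbb, Matrix.mul_zero]
    have e5 : a * b * (a * b) = 0 := by rw [Matrix.mul_assoc, e2, Matrix.mul_zero]
    rw [hN]
    simp only [Matrix.add_mul, Matrix.mul_add, haa, hbb, hba, e1, e2, e3, e4, e5, add_zero, zero_add]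
  have hNNN : N * N * N = 0 := by
    have e3 : a * b * a = 0 := by rw [Matrix.mul_assoc, hba, Matrix.mul_zero]
    have e4 : a * b * b = 0 := by rw [Matrix.mul_assoc, hbb, Matrix.mul_zero]
    have e5 : a * b * (a * b) = 0 := by rw [← Matrix.mul_assoc, e3, Matrix.zero_mul]
    rw [hNN, hN]
    simp only [Matrix.mul_add, e3, e4, e5, add_zero]
  have hxeq : (1 + a) * (1 + b) = 1 + N := by
    rw [hN]
    simp only [Matrix.add_mul, Matrix.mul_add, Matrix.one_mul, Matrix.mul_one]
    abel
  have hdet : (1 + N).det = 1 := by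
    rw [← hxeq, Matrix.det_mul]
    have e1 : (1 + a).det = 1 := Matrix.det_transvection_of_ne i2 i1 h12.symm 1
    have e2 : (1 + b).det = 1 := Matrix.det_transvection_of_ne i1 i0 h01.symm 1
    rw [e1, e2, one_mul]
  have hpow : (1 + N) ^ r = 1 := by
    haveI : Nonempty (Fin n) := ⟨i0⟩
    rw [add_pow_char_of_commute r (Commute.one_left N), one_pow]
    have : N ^ r = 0 := by
      rw [show r = 3 + (r - 3) by omega, pow_add, pow_succ, pow_two, hNNN, Matrix.zero_mul]
    rw [this, add_zero]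
  refine ⟨⟨1 + N, hdet⟩, hpow, ?_, ?_⟩
  · intro z hz
    have h1 := congrFun (congrFun hz i1) i0
    have h2 : (1 + N) i1 i0 = 1 := by
      rw [hN, hab, ha, hb]
      simp [Matrix.add_apply, Matrix.single_apply, h01, h01.symm, h12, h12.symm]
    have h3 : (z • (1 : Matrix (Fin n) (Fin n) F)) i1 i0 = 0 := by
      rw [Matrix.smul_apply, Matrix.one_apply_ne h01.symm, smul_zero]
    have h4 : (1 + N) i1 i0 = 0 := h1.trans h3
    rw [h2] at h4
    exact one_ne_zero h4
  · intro B l hA hnd h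
    have hl : l = 1 := lam_one hr (fun l hl => by
      have h1 : frobenius F r l = frobenius F r 1 := by rw [frobenius_def, frobenius_def, hl, one_pow]
      exact frobenius_inj F r h1) (by omega) (1 + N) hpow B hnd l h
    have hNv : ∀ u, N.mulVec (N.mulVec u) = u i0 • (Pi.single i2 (1 : F) : Fin n → F) := by
      intro u
      rw [Matrix.mulVec_mulVec, hNN, hab, Matrix.single_mulVec]
      funext k
      simp [Pi.single_apply, Function.update_apply]
    apply SpGen1.no_j3 h2F B hA hnd (Matrix.toLin' N) (fun u => by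
        rw [Matrix.toLin'_apply, Matrix.toLin'_apply, Matrix.toLin'_apply, Matrix.mulVec_mulVec, Matrix.mulVec_mulVec, hNNN, Matrix.zero_mulVec])
      (fun u v => by
        have := h u v
        rw [hl, one_mul] at this
        have e : ∀ w, (1 + N).mulVec w = w + N.mulVec w := fun w => by rw [Matrix.add_mulVec, Matrix.one_mulVec]
        rw [Matrix.toLin'_apply, Matrix.toLin'_apply, ← this]
        show _ = B ((1 + N).mulVec u) ((1 + N).mulVec v)
        rw [e, e])
      (Pi.single i0 1) (Pi.single i2 1) (fun h => by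
        have := congrFun h i2
        simp at this) (fun u => u i0) (fun u => by
        rw [Matrix.toLin'_apply, Matrix.toLin'_apply]; exact hNv u) (by simp)

theorem diag_concl [DecidableEq F] {r : ℕ} (d : Fin n → F) (c : F) (hd : ∏ i, d i = 1) (hdr : ∀ i, d i ^ r = 1)
    (hbig : n < 2 * (Finset.univ.filter fun i => d i = c).card) (i0 : Fin n)
    (hi0 : ∀ j, d i0 * d j ≠ c * c) (j0 : Fin n) (hj0 : d j0 ≠ d i0) : Concl n F r := by
  refine ⟨⟨Matrix.diagonal d, by rw [Matrix.det_diagonal, hd]⟩, ?_, ?_, ?_⟩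
  · show (Matrix.diagonal d) ^ r = 1
    rw [Matrix.diagonal_pow, ← Matrix.diagonal_one]
    congr 1
    funext i
    exact hdr i
  · intro z hz
    have h1 := congrFun (congrFun hz j0) j0
    have h2 := congrFun (congrFun hz i0) i0
    have e1 : d j0 = z := by
      have : (Matrix.diagonal d) j0 j0 = (z • (1 : Matrix (Fin n) (Fin n) F)) j0 j0 := h1
      rwa [Matrix.diagonal_apply_eq, Matrix.smul_apply, Matrix.one_apply_eq, smul_eq_mul, mul_one] at this
    have e2 : d i0 = z := by
      have : (Matrix.diagonal d) i0 i0 = (z • (1 : Matrix (Fin n) (Fin n) F)) i0 i0 := h2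
      rwa [Matrix.diagonal_apply_eq, Matrix.smul_apply, Matrix.one_apply_eq, smul_eq_mul, mul_one] at this
    exact hj0 (e1.trans e2.symm)
  · intro B l _ hnd h
    exact SpGen1.no_diag d c hbig i0 hi0 B hnd l h

end Cfsg.Agent.H25.SpGen4
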