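import Mathlib
import Cfsg.Agent.H25.SpGen4

/-!
Matrices of determinant 1 and prime order which are not conjugate to similitudes of an alternating form: semisimple cases.
-/

set_option autoImplicit false

namespace Cfsg.Agent.H25.SpGen5

open Matrix Module Cfsg Cfsg.Agent.H5 SpGen4

variable {F : Type*} [Field F] {n : ℕ}

theorem card_ge [DecidableEq F] (d : Fin n → F) (c : F) (t : ℕ) (h : ∀ i : Fin n, t ≤ (i : ℕ) → d i = c) :
    n ≤ (Finset.univ.filter fun i => d i = c).card + t := by
  classical
  have h1 : (Finset.univ.filter fun i => d i = c).card + (Finset.univ.filter fun i => ¬ d i = c).card = (Finset.univ : Finset (Fin n)).card :=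
    Finset.card_filter_add_card_filter_not (s := Finset.univ) (fun i => d i = c)
  have h2 : (Finset.univ.filter fun i => ¬ d i = c).card ≤ t := by
    have h3 : (Finset.univ.filter fun i => ¬ d i = c).card ≤ (Finset.range t).card := by
      apply Finset.card_le_card_of_injOn (fun i : Fin n => (i : ℕ))
      · intro i hi
        have h4 : ¬ d i = c := by simpa using hi
        have h5 : (i : ℕ) < t := by
          by_contra h6
          exact h4 (h i (by omega))
        simpa using h5
      · intro i _ j _ hij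
        exact Fin.ext hij
    rwa [Finset.card_range] at h3
  rw [Finset.card_univ, Fintype.card_fin] at h1
  omega

theorem caseB [Fintype F] {q r : ℕ} [Fact r.Prime] (hq : Fintype.card F = q) (hr2 : r ≠ 2) (hrq : r ∣ q - 1) (hn : 4 ≤ n) (he : Even n)
    (hgap : ¬ (n = 6 ∧ r = 3)) : Concl n F r := by
  classical
  have hr : r.Prime := Fact.out
  obtain ⟨w0, hw0⟩ := exists_prime_orderOf_dvd_card (G := Fˣ) r (by rw [Fintype.card_units, hq]; exact hrq)
  set w : F := (w0 : F) with hw
  have hwo : orderOf w = r := by rw [hw, orderOf_units, hw0]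
  have hw0' : w ≠ 0 := w0.ne_zero
  have hwr : w ^ r = 1 := by rw [← hwo]; exact pow_orderOf_eq_one w
  have hwk : ∀ k, w ^ k = 1 → r ∣ k := fun k hk => by rw [← hwo]; exact orderOf_dvd_of_pow_eq_one hk
  have hw1 : w ≠ 1 := fun h => by
    have := hwk 1 (by rw [pow_one, h])
    exact hr.one_lt.ne' (Nat.dvd_one.mp this)
  have hw2 : w * w ≠ 1 := fun h => by
    have := hwk 2 (by rw [pow_two, h])
    exact hr2 ((Nat.prime_dvd_prime_iff_eq hr Nat.prime_two).mp this)
  by_cases hn6 : 6 < n
  · -- diag(w, w, w⁻², 1, …)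
    let g : ℕ → F := fun i => if i = 0 then w else if i = 1 then w else if i = 2 then w⁻¹ * w⁻¹ else 1
    let d : Fin n → F := fun i => g i
    have hprod : ∏ i, d i = 1 := by
      rw [Fin.prod_univ_eq_prod_range g n]
      obtain ⟨k, rfl⟩ : ∃ k, n = k + 1 + 1 + 1 := ⟨n - 3, by omega⟩
      rw [Finset.prod_range_succ', Finset.prod_range_succ', Finset.prod_range_succ', Finset.prod_eq_one (s := Finset.range k)]
      · simp only [g, zero_add, one_mul]
        norm_num
        field_simp
      · intro i _
        simp [g]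
    apply diag_concl d 1 hprod
    · intro i
      show (g i) ^ r = 1
      simp only [g]
      split_ifs
      · exact hwr
      · exact hwr
      · rw [mul_pow, inv_pow, hwr]; simp
      · exact one_pow r
    · have := card_ge d 1 3 (fun i hi => by
        show g i = 1
        simp only [g]
        rw [if_neg (by omega), if_neg (by omega), if_neg (by omega)])
      omega
    · -- i0 = 0
      intro j
      show g ((⟨0, by omega⟩ : Fin n) : ℕ) * g j ≠ 1 * 1
      simp only [g, if_true, one_mul]
      split_ifs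
      · exact hw2
      · exact hw2
      · intro h
        apply hw1
        have : w⁻¹ = 1 := by rw [← h, ← mul_assoc, mul_inv_cancel₀ hw0', one_mul]
        rwa [inv_eq_one] at this
      · rw [mul_one]; exact hw1
    · show g ((⟨3, by omega⟩ : Fin n) : ℕ) ≠ g ((⟨0, by omega⟩ : Fin n) : ℕ)
      simp only [g]
      norm_num
      exact hw1.symm
  · have hrn : ¬ r ∣ n := by
      intro h
      have h46 : n = 4 ∨ n = 6 := by
        obtain ⟨t, ht⟩ := he
        omega
      rcases h46 with h4 | h6
      · rw [h4, show 4 = 2 ^ 2 by norm_num] at h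
        exact hr2 ((Nat.prime_dvd_prime_iff_eq hr Nat.prime_two).mp (hr.dvd_of_dvd_pow h))
      · rw [h6, show 6 = 2 * 3 by norm_num] at h
        rcases (Nat.Prime.dvd_mul hr).mp h with h | h
        · exact hr2 ((Nat.prime_dvd_prime_iff_eq hr Nat.prime_two).mp h)
        · exact hgap ⟨h6, (Nat.prime_dvd_prime_iff_eq hr Nat.prime_three).mp h⟩
    let g : ℕ → F := fun i => if i = 0 then (w⁻¹) ^ (n - 1) else w
    let d : Fin n → F := fun i => g i
    have hprod : ∏ i, d i = 1 := by
      rw [Fin.prod_univ_eq_prod_range g n]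
      have h1 : ∀ k, ∏ i ∈ Finset.range (k + 1), g i = w ^ k * (w⁻¹) ^ (n - 1) := by
        intro k
        rw [Finset.prod_range_succ']
        simp [g]
      rw [show n = (n - 1) + 1 by omega, h1, ← mul_pow, mul_inv_cancel₀ hw0', one_pow]
    have hne : ∀ x : F, x = (w⁻¹) ^ (n - 1) → x * w ^ (n - 1) = 1 := by
      rintro x rfl
      rw [← mul_pow, inv_mul_cancel₀ hw0', one_pow]
    apply diag_concl d w hprod
    · intro i
      show (g i) ^ r = 1
      simp only [g]
      split_ifs
      · rw [← pow_mul, mul_comm, pow_mul, inv_pow, hwr, inv_one, one_pow]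
      · exact hwr
    · have := card_ge d w 1 (fun i hi => by
        show g i = w
        simp only [g]
        rw [if_neg (by omega)])
      omega
    · intro j
      show g ((⟨0, by omega⟩ : Fin n) : ℕ) * g j ≠ w * w
      simp only [g, if_true]
      have e1 : (w⁻¹) ^ (n - 1) * w ^ (n - 1) = 1 := hne _ rfl
      split_ifs
      · intro h
        have h1 : w ^ (2 * n) = 1 := by
          have : w ^ (2 * n) = (w * w) * (w ^ (n - 1) * w ^ (n - 1)) := by
            rw [← pow_add, ← pow_two, ← pow_add]
            congr 1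
            omega
          rw [this, ← h]
          calc (w⁻¹) ^ (n - 1) * (w⁻¹) ^ (n - 1) * (w ^ (n - 1) * w ^ (n - 1)) = ((w⁻¹) ^ (n - 1) * w ^ (n - 1)) * ((w⁻¹) ^ (n - 1) * w ^ (n - 1)) := by ring
            _ = 1 := by rw [e1, one_mul]
        have h2 := hwk _ h1
        rcases (Nat.Prime.dvd_mul hr).mp h2 with h3 | h3
        · exact hr2 ((Nat.prime_dvd_prime_iff_eq hr Nat.prime_two).mp h3)
        · exact hrn h3
      · intro h
        have h0 : (w⁻¹) ^ (n - 1) = w := mul_right_cancel₀ hw0' h
        have h1 : w ^ n = 1 := by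
          have : w ^ n = w * w ^ (n - 1) := by rw [← pow_succ']; congr 1; omega
          rw [this]
          nth_rewrite 1 [← h0]
          exact e1
        exact hrn (hwk _ h1)
    · show g ((⟨1, by omega⟩ : Fin n) : ℕ) ≠ g ((⟨0, by omega⟩ : Fin n) : ℕ)
      simp only [g]
      norm_num
      intro h0
      have h0' : w = (w⁻¹) ^ (n - 1) := by rw [inv_pow]; exact h0
      have h2 := hne w h0'
      have : w ^ n = w * w ^ (n - 1) := by rw [← pow_succ']; congr 1; omega
      exact hrn (hwk _ (by rw [this, h2]))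

theorem caseC [Fintype F] {q r j m : ℕ} [Fact r.Prime] (hq : Fintype.card F = q) (hrF : (r : F) ≠ 0) (hrq1 : ¬ r ∣ q - 1) (hn : n = m + m)
    (hj : j < m) (hjr : r ∣ q ^ (2 * j + 1) - 1) : Concl n F r := by
  classical
  have hr : r.Prime := Fact.out
  have hq1 : 1 < q := by rw [← hq]; exact Fintype.one_lt_card
  have hqN : Nat.card F = q := by rw [Nat.card_eq_fintype_card, hq]
  set e := orderOf (q : ZMod r) with hedef
  have hiff : ∀ i, r ∣ q ^ i - 1 ↔ e ∣ i := by
    intro i
    rw [hedef, orderOf_dvd_iff_pow_eq_one, ← ZMod.natCast_eq_zero_iff, Nat.cast_sub (Nat.one_le_pow _ _ (by omega))]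
    push_cast
    rw [sub_eq_zero]
  have hej : e ∣ 2 * j + 1 := (hiff _).mp hjr
  have heodd : Odd e := Odd.of_dvd_nat ⟨j, rfl⟩ hej
  have hele : e ≤ 2 * j + 1 := Nat.le_of_dvd (by omega) hej
  have he0 : 0 < e := Nat.pos_of_dvd_of_pos hej (by omega)
  have hen : e ≤ n := by omega
  -- element of order r in GL_e
  have hdvd : r ∣ Nat.card (GL (Fin e) F) := by
    rw [Matrix.card_GL_field, hq]
    have h1 : r ∣ q ^ e - q ^ (((⟨0, he0⟩ : Fin e) : ℕ)) := by
      show r ∣ q ^ e - q ^ 0
      rw [pow_zero]
      exact (hiff e).mpr dvd_rfl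
    exact h1.trans (Finset.dvd_prod_of_mem (fun i : Fin e => q ^ e - q ^ (i : ℕ)) (Finset.mem_univ _))
  obtain ⟨x1, hx1⟩ := exists_prime_orderOf_dvd_card' r hdvd
  have hx1r : ((x1 : GL (Fin e) F) : Matrix (Fin e) (Fin e) F) ^ r = 1 := by
    rw [← Units.val_pow_eq_pow_val, ← hx1, pow_orderOf_eq_one]; rfl
  have hx1ne : ((x1 : GL (Fin e) F) : Matrix (Fin e) (Fin e) F) ≠ 1 := by
    intro h
    have : x1 = 1 := Units.ext h
    rw [this, orderOf_one] at hx1
    exact hr.one_lt.ne hx1
  have hone : ∀ l : F, l ^ r = 1 → l = 1 := by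
    intro l hl
    have hl0 : l ≠ 0 := by
      rintro rfl
      rw [zero_pow hr.ne_zero] at hl
      exact zero_ne_one hl
    have h1 : l ^ (q - 1) = 1 := by rw [← hq]; exact FiniteField.pow_card_sub_one_eq_one l hl0
    have h2 : orderOf l ∣ r := orderOf_dvd_of_pow_eq_one hl
    have h3 : orderOf l ∣ q - 1 := orderOf_dvd_of_pow_eq_one h1
    rcases (Nat.dvd_prime hr).mp h2 with h4 | h4
    · exact orderOf_eq_one_iff.mp h4
    · rw [h4] at h3
      exact absurd h3 hrq1
  let ε : Fin e ⊕ Fin (n - e) ≃ Fin n := Fintype.equivOfCardEq (by simp; omega)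
  let Y : Matrix (Fin e ⊕ Fin (n - e)) (Fin e ⊕ Fin (n - e)) F := Matrix.fromBlocks (x1 : Matrix (Fin e) (Fin e) F) 0 0 1
  have hYpow : ∀ k : ℕ, Y ^ k = Matrix.fromBlocks ((x1 : Matrix (Fin e) (Fin e) F) ^ k) 0 0 1 := by
    intro k
    induction k with
    | zero => rw [pow_zero, pow_zero, Matrix.fromBlocks_one]
    | succ k ih =>
      rw [pow_succ, pow_succ, ih]
      show _ * Matrix.fromBlocks _ _ _ _ = _
      rw [Matrix.fromBlocks_multiply]
      simp
  have hYr : Y ^ r = 1 := by rw [hYpow, hx1r, Matrix.fromBlocks_one]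
  have hYdet : Y.det = 1 := by
    apply hone
    rw [← Matrix.det_pow, hYr, Matrix.det_one]
  let X : Matrix (Fin n) (Fin n) F := Matrix.reindexAlgEquiv F F ε Y
  have hXr : X ^ r = 1 := by
    show (Matrix.reindexAlgEquiv F F ε Y) ^ r = 1
    rw [← map_pow, hYr, map_one]
  have hXdet : X.det = 1 := by
    show (Matrix.reindex ε ε Y).det = 1
    rw [Matrix.det_reindex_self, hYdet]
  have hX1 : X ≠ 1 := by
    intro h
    have h1 : Y = 1 := (Matrix.reindexAlgEquiv F F ε).injective (by rw [map_one]; exact h)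
    have h2 : Matrix.fromBlocks (x1 : Matrix (Fin e) (Fin e) F) 0 0 (1 : Matrix (Fin (n - e)) (Fin (n - e)) F) = 1 := h1
    rw [← Matrix.fromBlocks_one, Matrix.fromBlocks_inj] at h2
    exact hx1ne h2.1
  -- displacement
  have hrank : Module.finrank F (LinearMap.range (Matrix.toLin' X - 1)) ≤ e := by
    let c : Fin (n - e) → Fin n := fun i => ε (Sum.inr i)
    have hc : Function.Injective c := fun a b h => Sum.inr_injective (ε.injective h)
    let P : (Fin n → F) →ₗ[F] (Fin (n - e) → F) := LinearMap.funLeft F F c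
    have hP : Function.Surjective P := LinearMap.funLeft_surjective_of_injective F F c hc
    have hle : LinearMap.range (Matrix.toLin' X - 1) ≤ LinearMap.ker P := by
      rintro _ ⟨v, rfl⟩
      rw [LinearMap.mem_ker]
      funext i
      show X.mulVec v (ε (Sum.inr i)) - v (ε (Sum.inr i)) = 0
      have h1 : X.mulVec v (ε (Sum.inr i)) = Y.mulVec (v ∘ ε) (Sum.inr i) := by
        show (Matrix.reindex ε ε Y).mulVec v (ε (Sum.inr i)) = _
        rw [Matrix.reindex_apply, Matrix.submatrix_mulVec_equiv]
        simp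
      rw [h1]
      show (Matrix.fromBlocks (x1 : Matrix (Fin e) (Fin e) F) 0 0 1).mulVec (v ∘ ε) (Sum.inr i) - _ = 0
      rw [Matrix.fromBlocks_mulVec]
      simp
    have h1 := Submodule.finrank_mono hle
    have h2 := LinearMap.finrank_range_add_finrank_ker P
    rw [LinearMap.range_eq_top.mpr hP, finrank_top, Module.finrank_fintype_fun_eq_card, Module.finrank_fintype_fun_eq_card,
      Fintype.card_fin, Fintype.card_fin] at h2
    omega
  refine ⟨⟨X, hXdet⟩, hXr, ?_, ?_⟩
  · intro z hz
    have hz' : X = z • (1 : Matrix (Fin n) (Fin n) F) := hz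
    have h1 : z ^ r = 1 := by
      have h2 := hXr
      rw [hz', smul_pow, one_pow] at h2
      have h3 := congrFun (congrFun h2 ⟨0, by omega⟩) ⟨0, by omega⟩
      simpa using h3
    rw [hone z h1, one_smul] at hz'
    exact hX1 hz'
  · intro B l hA hnd h
    have hl : l = 1 := lam_one hr hone (by omega) X hXr B hnd l h
    have hT : (Matrix.toLin' X) ^ r = 1 := by
      have : Matrix.toLin' X = Matrix.toLinAlgEquiv' X := rfl
      rw [this, ← map_pow, hXr, map_one]
    have hev := SpGen2.even_disp hqN (Matrix.toLin' X) hT (fun h1 => hX1 (by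
        apply Matrix.toLin'.injective
        rw [h1, Matrix.toLin'_one]; rfl)) hrF B hA hnd (fun u v => by
        have := h u v
        rw [hl, one_mul] at this
        exact this) hrank (fun k hk1 hkr => Nat.le_of_dvd hk1 ((hiff k).mp hkr))
    exact (Nat.not_even_iff_odd.mpr heodd) hev

end Cfsg.Agent.H25.SpGen5
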