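import Mathlib

/-!
Unipotent matrices all of whose Jordan blocks have size 2, up to conjugation by matrices of determinant 1.
-/

set_option autoImplicit false

namespace Cfsg.Agent.H25.SubfNeg

open Matrix Module

variable {F : Type*} [Field F]

theorem isSquare_of_conj {m : ℕ} (F₀ : Subfield F) {δ : F} (hδ : δ ≠ 0) (Δ : Matrix (Fin m) (Fin m) F) (hΔ : Δ.det = δ)
    (P N : Matrix (Fin m ⊕ Fin m) (Fin m ⊕ Fin m) F) (hP : P.det = 1) (hN : ∀ a b, N a b ∈ F₀)
    (h : P * N = Matrix.fromBlocks 0 0 Δ 0 * P) (hsq : ∀ a ∈ F₀, IsSquare a) : IsSquare δ := by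
  classical
  set ND : Matrix (Fin m ⊕ Fin m) (Fin m ⊕ Fin m) F := Matrix.fromBlocks 0 0 Δ 0 with hND
  have hDD : ND * ND = 0 := by
    rw [hND, Matrix.fromBlocks_multiply]
    simp
  have hPu : IsUnit P := by rw [Matrix.isUnit_iff_isUnit_det, hP]; exact isUnit_one
  have hPP : P * P⁻¹ = 1 := Matrix.mul_nonsing_inv P (by rw [hP]; exact isUnit_one)
  have hPP' : P⁻¹ * P = 1 := Matrix.nonsing_inv_mul P (by rw [hP]; exact isUnit_one)
  have hNP : N * P⁻¹ = P⁻¹ * ND := by
    have : P⁻¹ * (P * N) * P⁻¹ = P⁻¹ * (ND * P) * P⁻¹ := by rw [h]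
    rw [← Matrix.mul_assoc, hPP', Matrix.one_mul, Matrix.mul_assoc, Matrix.mul_assoc, hPP, Matrix.mul_one] at this
    exact this
  have hNN : N * N = 0 := by
    have : P⁻¹ * (P * (N * N)) = 0 := by
      rw [← Matrix.mul_assoc P N N, h, Matrix.mul_assoc, h, ← Matrix.mul_assoc ND ND P, hDD, Matrix.zero_mul, Matrix.mul_zero]
    rwa [← Matrix.mul_assoc, hPP', Matrix.one_mul] at this
  have hΔu : Δ * Δ⁻¹ = 1 := Matrix.mul_nonsing_inv Δ (by rw [hΔ]; exact isUnit_iff_ne_zero.mpr hδ)
  have hΔu' : Δ⁻¹ * Δ = 1 := Matrix.nonsing_inv_mul Δ (by rw [hΔ]; exact isUnit_iff_ne_zero.mpr hδ)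
  set T : (Fin m ⊕ Fin m → F) →ₗ[F] (Fin m ⊕ Fin m → F) := Matrix.toLin' N with hT
  have hTv : ∀ v, T v = N.mulVec v := fun v => rfl
  have hker : LinearMap.ker T = LinearMap.range T := by
    apply le_antisymm
    · intro v hv
      rw [LinearMap.mem_ker, hTv] at hv
      have h1 : ND.mulVec (P.mulVec v) = 0 := by
        rw [Matrix.mulVec_mulVec, ← h, ← Matrix.mulVec_mulVec, hv, Matrix.mulVec_zero]
      have h2 : ∀ i, P.mulVec v (Sum.inl i) = 0 := by
        have h3 : Δ.mulVec (fun i => P.mulVec v (Sum.inl i)) = 0 := by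
          funext i
          have := congrFun h1 (Sum.inr i)
          rw [hND, Matrix.fromBlocks_mulVec] at this
          show (Δ *ᵥ (P *ᵥ v) ∘ Sum.inl) i = 0
          simpa using this
        have h4 : Δ⁻¹.mulVec (Δ.mulVec (fun i => P.mulVec v (Sum.inl i))) = 0 := by rw [h3, Matrix.mulVec_zero]
        rw [Matrix.mulVec_mulVec, hΔu', Matrix.one_mulVec] at h4
        exact fun i => congrFun h4 i
      set y : Fin m ⊕ Fin m → F := Sum.elim (Δ⁻¹.mulVec (fun i => P.mulVec v (Sum.inr i))) 0 with hy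
      have h5 : ND.mulVec y = P.mulVec v := by
        rw [hND, Matrix.fromBlocks_mulVec]
        funext s
        rcases s with i | i
        · simp [h2]
        · simp only [Sum.elim_inr, hy, Sum.elim_comp_inl, Sum.elim_comp_inr, Matrix.mulVec_mulVec, hΔu, Matrix.one_mulVec, Matrix.zero_mulVec, add_zero]
      refine ⟨P⁻¹.mulVec y, ?_⟩
      rw [hTv, Matrix.mulVec_mulVec, hNP, ← Matrix.mulVec_mulVec, h5, Matrix.mulVec_mulVec, hPP', Matrix.one_mulVec]
    · rintro _ ⟨v, rfl⟩
      rw [LinearMap.mem_ker, hTv, hTv, Matrix.mulVec_mulVec, hNN, Matrix.zero_mulVec]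
  have hfr : finrank F (LinearMap.range T) = m := by
    have h1 := LinearMap.finrank_range_add_finrank_ker T
    rw [hker, Module.finrank_fintype_fun_eq_card, Fintype.card_sum, Fintype.card_fin] at h1
    omega
  have hspan : Submodule.span F (Set.range fun j => T (Pi.single j 1)) = LinearMap.range T := by
    apply le_antisymm
    · rw [Submodule.span_le]
      rintro _ ⟨j, rfl⟩
      exact ⟨_, rfl⟩
    · rintro _ ⟨v, rfl⟩
      have h1 : v = ∑ j, v j • (Pi.single j (1 : F) : Fin m ⊕ Fin m → F) := by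
        rw [← pi_eq_sum_univ' v]
      rw [h1, map_sum]
      apply Submodule.sum_mem
      intro j _
      rw [map_smul]
      exact Submodule.smul_mem _ _ (Submodule.subset_span ⟨j, rfl⟩)
  obtain ⟨f, hf1, -, hf3⟩ := Submodule.exists_fun_fin_finrank_span_eq F (Set.range fun j => T (Pi.single j 1))
  have hfm : finrank F (Submodule.span F (Set.range fun j => T (Pi.single j 1))) = m := by rw [hspan, hfr]
  let s : Fin m ≃ Fin (finrank F (Submodule.span F (Set.range fun j => T (Pi.single j 1)))) := finCongr hfm.symm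
  choose j hj using hf1
  let B : Matrix (Fin m ⊕ Fin m) (Fin m ⊕ Fin m) F :=
    Matrix.of fun a c => Sum.elim (fun i => (Pi.single (j (s i)) (1 : F) : Fin m ⊕ Fin m → F) a) (fun i => N a (j (s i))) c
  have hfs : LinearIndependent F (fun i => f (s i)) := hf3.comp s s.injective
  have hNc : ∀ i, N.mulVec (Pi.single (j (s i)) 1) = f (s i) := fun i => hj (s i)
  have hBv : ∀ z : Fin m ⊕ Fin m → F, B.mulVec z = ∑ i, z (Sum.inl i) • (Pi.single (j (s i)) (1 : F) : Fin m ⊕ Fin m → F) + ∑ i, z (Sum.inr i) • f (s i) := by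
    intro z
    funext a
    simp only [Matrix.mulVec, dotProduct, Fintype.sum_sum_type, Pi.add_apply, Finset.sum_apply, Pi.smul_apply, smul_eq_mul]
    congr 1
    · apply Finset.sum_congr rfl
      intro i _
      show (Pi.single (j (s i)) (1 : F) : Fin m ⊕ Fin m → F) a * _ = _
      ring
    · apply Finset.sum_congr rfl
      intro i _
      have h1 : f (s i) a = N a (j (s i)) := by
        rw [← hNc, Matrix.mulVec_single_one]; rfl
      show N a (j (s i)) * _ = _
      rw [h1]; ring
  have hBdet : B.det ≠ 0 := by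
    intro h0
    obtain ⟨z, hz0, hz⟩ := Matrix.exists_mulVec_eq_zero_iff.mpr h0
    rw [hBv] at hz
    have h1 : ∑ i, z (Sum.inl i) • f (s i) = 0 := by
      have h2 := congrArg T hz
      rw [map_add, map_sum, map_sum, map_zero] at h2
      have h3 : ∑ i, T (z (Sum.inr i) • f (s i)) = 0 := by
        apply Finset.sum_eq_zero
        intro i _
        rw [map_smul, ← hNc, hTv, Matrix.mulVec_mulVec, hNN, Matrix.zero_mulVec, smul_zero]
      rw [h3, add_zero] at h2
      rw [← h2]
      apply Finset.sum_congr rfl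
      intro i _
      rw [map_smul, hTv, hNc]
    have h4 : ∀ i, z (Sum.inl i) = 0 := Fintype.linearIndependent_iff.mp hfs _ h1
    have h5 : ∑ i, z (Sum.inr i) • f (s i) = 0 := by
      rw [← hz]
      simp [h4]
    have h6 : ∀ i, z (Sum.inr i) = 0 := Fintype.linearIndependent_iff.mp hfs _ h5
    apply hz0
    funext a
    rcases a with i | i
    · exact h4 i
    · exact h6 i
  have hBF : B.det ∈ F₀ := by
    let B0 : Matrix (Fin m ⊕ Fin m) (Fin m ⊕ Fin m) F₀ :=
      Matrix.of fun a c => Sum.elim (fun i => (Pi.single (j (s i)) (1 : F₀) : Fin m ⊕ Fin m → F₀) a) (fun i => ⟨N a (j (s i)), hN _ _⟩) c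
    have h1 : F₀.subtype.mapMatrix B0 = B := by
      ext a c
      rcases c with i | i
      · show F₀.subtype ((Pi.single (j (s i)) (1 : F₀) : Fin m ⊕ Fin m → F₀) a) = (Pi.single (j (s i)) (1 : F) : Fin m ⊕ Fin m → F) a
        rw [Pi.single_apply, Pi.single_apply]
        split_ifs <;> simp
      · rfl
    rw [← h1, ← RingHom.map_det]
    exact (B0.det).2
  let Y1 : Matrix (Fin m) (Fin m) F := Matrix.of fun a i => P (Sum.inl a) (j (s i))
  let Y2 : Matrix (Fin m) (Fin m) F := Matrix.of fun a i => P (Sum.inr a) (j (s i))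
  have hPB : P * B = Matrix.fromBlocks Y1 0 Y2 (Δ * Y1) := by
    ext a c
    rcases c with i | i
    · have h1 : (P * B) a (Sum.inl i) = P a (j (s i)) := by
        have h2 : (P * B) a (Sum.inl i) = P.mulVec (Pi.single (j (s i)) 1) a := rfl
        rw [h2, Matrix.mulVec_single_one]; rfl
      rw [h1]
      rcases a with a | a <;> rfl
    · have h1 : (P * B) a (Sum.inr i) = (P * N) a (j (s i)) := rfl
      rw [h1, h]
      rcases a with a | a
      · rw [hND, Matrix.mul_apply, Fintype.sum_sum_type]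
        simp
      · rw [hND, Matrix.mul_apply, Fintype.sum_sum_type]
        simp [Matrix.mul_apply, Y1]
  have hdet : B.det = δ * (Y1.det * Y1.det) := by
    have h1 := congrArg Matrix.det hPB
    rw [Matrix.det_mul, hP, one_mul, Matrix.det_fromBlocks_zero₁₂, Matrix.det_mul, hΔ] at h1
    rw [h1]; ring
  obtain ⟨t, ht⟩ := hsq _ hBF
  have hY : Y1.det ≠ 0 := by
    intro h0
    apply hBdet
    rw [hdet, h0]; ring
  refine ⟨t / Y1.det, ?_⟩
  rw [div_mul_div_comm, ← ht, hdet, mul_div_assoc, div_self (mul_ne_zero hY hY), mul_one]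

end Cfsg.Agent.H25.SubfNeg
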