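import Mathlib
import Cfsg.Agent.H23.JordanNilp

/-!
Unipotent matrices of order 3 in characteristic 3, up to conjugation by matrices of determinant 1.
-/

set_option autoImplicit false

namespace Cfsg.Agent.H25.SubfPos

open Matrix Module

variable {F : Type*} [Field F] {n : ℕ}

/-- an adapted basis with weights -/
theorem of_weights (F₀ : Subfield F) {κ : Type*} [Fintype κ] [DecidableEq κ] (M : Matrix (Fin n) (Fin n) F)
    (b : Basis κ F (Fin n → F)) (e : κ ≃ Fin n) (w : κ → F)
    (hw : ∀ y, ∃ A : κ → F₀, M.mulVec (w y • b y) = ∑ x, (A x : F) • (w x • b x))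
    (hdet : (∏ x, w x) * (Matrix.of fun a j => b (e.symm j) a : Matrix (Fin n) (Fin n) F).det = 1) :
    ∃ (P : Matrix (Fin n) (Fin n) F) (A : Matrix (Fin n) (Fin n) F₀), P.det = 1 ∧ M * P = P * F₀.subtype.mapMatrix A := by
  choose A hA using hw
  refine ⟨Matrix.of fun a j => w (e.symm j) * b (e.symm j) a, Matrix.of fun a j => A (e.symm j) (e.symm a), ?_, ?_⟩
  · have h1 := Matrix.det_mul_row (fun j => w (e.symm j)) (Matrix.of fun a j => b (e.symm j) a : Matrix (Fin n) (Fin n) F)
    have h2 : ∏ j, w (e.symm j) = ∏ x, w x := Equiv.prod_comp e.symm w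
    rw [h2] at h1
    rw [← hdet, ← h1]
    rfl
  · ext a j
    have h1 : (M * Matrix.of fun a j => w (e.symm j) * b (e.symm j) a) a j = M.mulVec (w (e.symm j) • b (e.symm j)) a := rfl
    rw [h1, hA, Finset.sum_apply, Matrix.mul_apply, ← Equiv.sum_comp e.symm]
    apply Finset.sum_congr rfl
    intro c _
    show (A (e.symm j) (e.symm c) : F) * (w (e.symm c) * b (e.symm c) a) = (w (e.symm c) * b (e.symm c) a) * (A (e.symm j) (e.symm c) : F)
    ring

theorem pos [Fintype F] [CharP F 3] (F₀ : Subfield F) (M : Matrix (Fin n) (Fin n) F) (hn : 0 < n)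
    (hM : (Matrix.toLin' M - 1) ^ 3 = 0)
    (h : Odd n ∨ ∀ D : F, D ≠ 0 → ∃ c ∈ F₀, ∃ s : F, c * (s * s) = D) :
    ∃ (P : Matrix (Fin n) (Fin n) F) (A : Matrix (Fin n) (Fin n) F₀), P.det = 1 ∧ M * P = P * F₀.subtype.mapMatrix A := by
  classical
  set ν : Module.End F (Fin n → F) := Matrix.toLin' M - 1 with hν
  obtain ⟨m, k, v, hzero, hli, hspan⟩ := Cfsg.Agent.H23.exists_jordan_basis ν hM
  set b : Basis (Σ i, Fin (k i)) F (Fin n → F) := Basis.mk hli hspan.ge with hb
  have hbx : ∀ x, b x = (ν ^ (x.2 : ℕ)) (v x.1) := fun x => Basis.mk_apply hli hspan.ge x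
  have hcard : Fintype.card (Σ i, Fin (k i)) = n := by
    rw [← Module.finrank_eq_card_basis b, Module.finrank_fintype_fun_eq_card, Fintype.card_fin]
  have hsum : ∑ i, k i = n := by
    rw [← hcard, Fintype.card_sigma]
    simp
  have hk3 : ∀ i, k i ≤ 3 := by
    intro i
    by_contra hcon
    push Not at hcon
    have h1 := hli.ne_zero ⟨i, ⟨3, hcon⟩⟩
    apply h1
    show (ν ^ 3) (v i) = 0
    rw [hM]; rfl
  let e : (Σ i, Fin (k i)) ≃ Fin n := Fintype.equivOfCardEq (by rw [hcard, Fintype.card_fin])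
  set D : F := (Matrix.of fun a j => b (e.symm j) a : Matrix (Fin n) (Fin n) F).det with hD
  have hD0 : D ≠ 0 := by
    have h1 : LinearIndependent F (Matrix.of fun a j => b (e.symm j) a : Matrix (Fin n) (Fin n) F).col := by
      have : (Matrix.of fun a j => b (e.symm j) a : Matrix (Fin n) (Fin n) F).col = fun j => b (e.symm j) := by
        funext j a; rfl
      rw [this]
      exact b.linearIndependent.comp e.symm e.symm.injective
    rw [Matrix.linearIndependent_cols_iff_isUnit, Matrix.isUnit_iff_isUnit_det] at h1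
    exact h1.ne_zero
  -- the action on the basis
  have hact1 : ∀ (i : Fin m) (j : ℕ) (hj : j + 1 < k i), M.mulVec (b ⟨i, ⟨j, by omega⟩⟩) = b ⟨i, ⟨j, by omega⟩⟩ + b ⟨i, ⟨j + 1, hj⟩⟩ := by
    intro i j hj
    rw [hbx, hbx]
    show Matrix.toLin' M ((ν ^ j) (v i)) = (ν ^ j) (v i) + (ν ^ (j + 1)) (v i)
    rw [pow_succ', Module.End.mul_apply]
    conv_rhs => rw [hν]
    rw [LinearMap.sub_apply, ← hν]
    show _ = _ + (_ - (ν ^ j) (v i))
    abel
  have hact2 : ∀ (i : Fin m) (j : Fin (k i)), (j : ℕ) + 1 = k i → M.mulVec (b ⟨i, j⟩) = b ⟨i, j⟩ := by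
    intro i j hj
    rw [hbx]
    show Matrix.toLin' M ((ν ^ (j : ℕ)) (v i)) = (ν ^ (j : ℕ)) (v i)
    have h1 : (ν ^ ((j : ℕ) + 1)) (v i) = 0 := by rw [hj]; exact hzero i
    rw [pow_succ', Module.End.mul_apply] at h1
    have h2 : Matrix.toLin' M ((ν ^ (j : ℕ)) (v i)) - (ν ^ (j : ℕ)) (v i) = 0 := h1
    exact sub_eq_zero.mp h2
  -- reduction to weights
  have key : ∀ w : (Σ i, Fin (k i)) → F, (∀ x, w x ≠ 0) →
      (∀ (i : Fin m) (j : ℕ) (hj : j + 1 < k i), w ⟨i, ⟨j, by omega⟩⟩ / w ⟨i, ⟨j + 1, hj⟩⟩ ∈ F₀) → ∏ x, w x = D⁻¹ →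
      ∃ (P : Matrix (Fin n) (Fin n) F) (A : Matrix (Fin n) (Fin n) F₀), P.det = 1 ∧ M * P = P * F₀.subtype.mapMatrix A := by
    intro w hw0 hwr hwp
    apply of_weights F₀ M b e w
    · rintro ⟨i, j⟩
      by_cases hj : (j : ℕ) + 1 < k i
      · refine ⟨Pi.single ⟨i, j⟩ 1 + Pi.single ⟨i, ⟨j + 1, hj⟩⟩ ⟨_, hwr i j hj⟩, ?_⟩
        have h1 := hact1 i j hj
        have h2 : ∑ x, (((Pi.single (⟨i, j⟩ : Σ i, Fin (k i)) (1 : F₀) + Pi.single (⟨i, ⟨j + 1, hj⟩⟩ : Σ i, Fin (k i)) (⟨_, hwr i j hj⟩ : F₀) : (Σ i, Fin (k i)) → F₀) x : F₀) : F) • (w x • b x) =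
            ∑ x, ((Pi.single (⟨i, j⟩ : Σ i, Fin (k i)) (1 : F) : (Σ i, Fin (k i)) → F) x) • (w x • b x) +
            ∑ x, ((Pi.single (⟨i, ⟨j + 1, hj⟩⟩ : Σ i, Fin (k i)) (w ⟨i, ⟨j, by omega⟩⟩ / w ⟨i, ⟨j + 1, hj⟩⟩) : (Σ i, Fin (k i)) → F) x) • (w x • b x) := by
          rw [← Finset.sum_add_distrib]
          apply Finset.sum_congr rfl
          intro x _
          rw [← add_smul]
          congr 1
          rw [Pi.add_apply]
          simp only [Pi.single_apply]
          split_ifs <;> simp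
        rw [h2]
        simp only [Pi.single_apply, ite_smul, zero_smul, Finset.sum_ite_eq', Finset.mem_univ, if_true, one_smul]
        rw [Matrix.mulVec_smul, h1, smul_add, smul_smul, div_mul_cancel₀ _ (hw0 _)]
      · refine ⟨Pi.single ⟨i, j⟩ 1, ?_⟩
        have hj' : (j : ℕ) + 1 = k i := by have := j.2; omega
        have h2 : ∑ x, (((Pi.single (⟨i, j⟩ : Σ i, Fin (k i)) (1 : F₀) : (Σ i, Fin (k i)) → F₀) x : F₀) : F) • (w x • b x) =
            ∑ x, ((Pi.single (⟨i, j⟩ : Σ i, Fin (k i)) (1 : F) : (Σ i, Fin (k i)) → F) x) • (w x • b x) := by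
          apply Finset.sum_congr rfl
          intro x _
          congr 1
          simp only [Pi.single_apply]
          split_ifs <;> simp
        rw [h2]
        simp only [Pi.single_apply, ite_smul, zero_smul, Finset.sum_ite_eq', Finset.mem_univ, if_true, one_smul]
        rw [Matrix.mulVec_smul, hact2 i j hj']
    · rw [hwp, inv_mul_cancel₀ hD0]
  -- an odd block
  by_cases hoddk : ∃ i, Odd (k i)
  · obtain ⟨i0, hi0⟩ := hoddk
    have hc : ∃ c : F, c ^ (k i0) = D⁻¹ := by
      have h3 := hk3 i0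
      have h13 : k i0 = 1 ∨ k i0 = 3 := by
        obtain ⟨t, ht⟩ := hi0
        omega
      rcases h13 with h1 | h1
      · exact ⟨D⁻¹, by rw [h1, pow_one]⟩
      · have hs : Function.Surjective (frobenius F 3) := Finite.surjective_of_injective (frobenius_inj F 3)
        obtain ⟨c, hc⟩ := hs D⁻¹
        exact ⟨c, by rw [h1]; exact hc⟩
    obtain ⟨c, hc⟩ := hc
    have hc0 : c ≠ 0 := by
      rintro rfl
      rw [zero_pow hi0.pos.ne'] at hc
      exact inv_ne_zero hD0 hc.symm
    apply key (fun x => if x.1 = i0 then c else 1)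
    · intro x
      show (if x.1 = i0 then c else 1) ≠ 0
      split_ifs
      · exact hc0
      · exact one_ne_zero
    · intro i j hj
      show (if i = i0 then c else 1) / (if i = i0 then c else 1) ∈ F₀
      rw [div_self (by split_ifs; exacts [hc0, one_ne_zero])]
      exact F₀.one_mem
    · rw [Fintype.prod_sigma]
      show ∏ i, ∏ _j : Fin (k i), (if i = i0 then c else 1) = D⁻¹
      rw [Finset.prod_eq_single i0]
      · rw [if_pos rfl, Finset.prod_const, Finset.card_univ, Fintype.card_fin, hc]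
      · intro i _ hi
        simp [hi]
      · simp
  · push Not at hoddk
    have hev : ∀ i, k i = 0 ∨ k i = 2 := by
      intro i
      have h1 := hk3 i
      have h2 := hoddk i
      rw [Nat.not_odd_iff_even] at h2
      obtain ⟨t, ht⟩ := h2
      omega
    have hneven : Even n := by
      rw [← hsum]
      apply Finset.even_sum
      intro i _
      exact Nat.not_odd_iff_even.mp (hoddk i)
    have hD2 := h.resolve_left (Nat.not_odd_iff_even.mpr hneven)
    obtain ⟨c, hcF, s, hcs⟩ := hD2 D⁻¹ (inv_ne_zero hD0)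
    have hc0 : c ≠ 0 := by
      rintro rfl
      rw [zero_mul] at hcs
      exact inv_ne_zero hD0 hcs.symm
    have hs0 : s ≠ 0 := by
      rintro rfl
      rw [zero_mul, mul_zero] at hcs
      exact inv_ne_zero hD0 hcs.symm
    obtain ⟨i0, hi0⟩ : ∃ i0, k i0 = 2 := by
      by_contra hcon
      push Not at hcon
      have : ∑ i, k i = 0 := Finset.sum_eq_zero fun i _ => (hev i).resolve_right (hcon i)
      omega
    apply key (fun x => if x.1 = i0 then (if (x.2 : ℕ) = 0 then s else s * c) else 1)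
    · intro x
      show (if x.1 = i0 then (if (x.2 : ℕ) = 0 then s else s * c) else 1) ≠ 0
      split_ifs
      · exact hs0
      · exact mul_ne_zero hs0 hc0
      · exact one_ne_zero
    · intro i j hj
      show (if i = i0 then (if j = 0 then s else s * c) else 1) / (if i = i0 then (if j + 1 = 0 then s else s * c) else 1) ∈ F₀
      by_cases hi : i = i0
      · have hj0 : j = 0 := by
          rw [hi, hi0] at hj
          omega
        rw [if_pos hi, if_pos hi, if_pos hj0, if_neg (by omega)]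
        have : s / (s * c) = c⁻¹ := by field_simp
        rw [this]
        exact F₀.inv_mem hcF
      · rw [if_neg hi, if_neg hi, div_one]
        exact F₀.one_mem
    · rw [Fintype.prod_sigma]
      show ∏ i, ∏ j : Fin (k i), (if i = i0 then (if (j : ℕ) = 0 then s else s * c) else 1) = D⁻¹
      rw [Finset.prod_eq_single i0]
      · have h1 : ∏ j : Fin (k i0), (if i0 = i0 then (if (j : ℕ) = 0 then s else s * c) else 1) = ∏ j ∈ Finset.range (k i0), (if j = 0 then s else s * c) := by
          rw [← Fin.prod_univ_eq_prod_range (fun j => if j = 0 then s else s * c) (k i0)]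
          apply Finset.prod_congr rfl
          intro j _
          rw [if_pos rfl]
        rw [h1, hi0, Finset.prod_range_succ, Finset.prod_range_succ, Finset.prod_range_zero, if_pos rfl, if_neg (by omega), ← hcs]
        ring
      · intro i _ hi
        simp [hi]
      · simp

end Cfsg.Agent.H25.SubfPos
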