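import Mathlib
import Cfsg.Prelude.Def_GeometricClasses
import Cfsg.Agent.H25.SubfPos
import Cfsg.Agent.H25.SubfNeg

/-!
Membership in the determinant one part of a subfield subgroup; squares.
-/

set_option autoImplicit false

namespace Cfsg.Agent.H25.SubfMem

open Matrix Module Cfsg

variable {F : Type*} [Field F] {n : ℕ}

theorem mem_iff (F₀ : Subfield F) (g : Matrix.SpecialLinearGroup (Fin n) F) :
    g ∈ ((Cfsg.Geo.subfieldSubgroup F₀ 1).comap (Matrix.SpecialLinearGroup.toGL : Matrix.SpecialLinearGroup (Fin n) F →* GL (Fin n) F)) ↔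
    ∃ (A : Matrix (Fin n) (Fin n) F₀) (c : F), c ≠ 0 ∧ (g : Matrix (Fin n) (Fin n) F) = c • F₀.subtype.mapMatrix A := by
  classical
  constructor
  · intro h
    rw [Subgroup.mem_comap] at h
    obtain ⟨x, hx, hxg⟩ := h
    obtain ⟨y, ⟨g₀, rfl⟩, z, hz, rfl⟩ := (Subgroup.mem_sup_of_normal_right).mp hx
    rw [Geo.mem_scalars_iff] at hz
    obtain ⟨c, hc⟩ := hz
    refine ⟨(g₀ : Matrix (Fin n) (Fin n) F₀), c, c.ne_zero, ?_⟩
    have h1 : Matrix.SpecialLinearGroup.toGL g = (Matrix.GeneralLinearGroup.map (F₀.subtype : F₀ →+* F)) g₀ * z := by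
      rw [← hxg]
      show (1 : GL (Fin n) F) * _ * (1 : GL (Fin n) F)⁻¹ = _
      rw [one_mul, inv_one, mul_one]
    have h2 := congrArg (fun u : GL (Fin n) F => (u : Matrix (Fin n) (Fin n) F)) h1
    have h3 : (g : Matrix (Fin n) (Fin n) F) = F₀.subtype.mapMatrix (g₀ : Matrix (Fin n) (Fin n) F₀) * (z : Matrix (Fin n) (Fin n) F) := h2
    rw [h3, hc, Matrix.mul_smul, Matrix.mul_one]
  · rintro ⟨A, c, hc, hg⟩
    have hdet : A.det ≠ 0 := by
      intro h0
      have h1 : (g : Matrix (Fin n) (Fin n) F).det = 1 := g.2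
      rw [hg, Matrix.det_smul, ← RingHom.map_det, h0, map_zero, mul_zero] at h1
      exact zero_ne_one h1
    rw [Subgroup.mem_comap]
    let g₀ : GL (Fin n) F₀ := Matrix.GeneralLinearGroup.mkOfDetNeZero A hdet
    let z : GL (Fin n) F := Units.map (Matrix.scalar (Fin n) : F →+* Matrix (Fin n) (Fin n) F).toMonoidHom (Units.mk0 c hc)
    refine ⟨(Matrix.GeneralLinearGroup.map (F₀.subtype : F₀ →+* F)) g₀ * z, Subgroup.mul_mem_sup ⟨g₀, rfl⟩ ⟨_, rfl⟩, ?_⟩
    have h1 : ((MulAut.conj (1 : GL (Fin n) F)).toMonoidHom ((Matrix.GeneralLinearGroup.map (F₀.subtype : F₀ →+* F)) g₀ * z) : GL (Fin n) F) =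
        (Matrix.GeneralLinearGroup.map (F₀.subtype : F₀ →+* F)) g₀ * z := by
      show (1 : GL (Fin n) F) * _ * (1 : GL (Fin n) F)⁻¹ = _
      rw [one_mul, inv_one, mul_one]
    rw [h1]
    apply Units.ext
    show F₀.subtype.mapMatrix A * (z : Matrix (Fin n) (Fin n) F) = (g : Matrix (Fin n) (Fin n) F)
    have hz : (z : Matrix (Fin n) (Fin n) F) = c • (1 : Matrix (Fin n) (Fin n) F) := by
      show Matrix.scalar (Fin n) c = _
      rw [Matrix.smul_one_eq_diagonal]; rfl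
    rw [hz, hg, Matrix.mul_smul, Matrix.mul_one]

section squares
variable [Fintype F]

theorem sq_two (F₀ : Subfield F) {q q₀ : ℕ} (hq : Fintype.card F = q) (hF₀ : Nat.card F₀ = q₀) (hqk : q = q₀ ^ 2)
    (h2 : ringChar F ≠ 2) : ∀ a ∈ F₀, IsSquare a := by
  classical
  intro a ha
  by_cases ha0 : a = 0
  · rw [ha0]; exact ⟨0, by simp⟩
  rw [FiniteField.isSquare_iff h2 ha0, hq, hqk]
  haveI : Fintype F₀ := Fintype.ofFinite F₀
  have h1 : (⟨a, ha⟩ : F₀) ^ (q₀ - 1) = 1 := by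
    rw [← hF₀, Nat.card_eq_fintype_card]
    apply FiniteField.pow_card_sub_one_eq_one
    intro h
    exact ha0 (congrArg Subtype.val h)
  have h1' : a ^ (q₀ - 1) = 1 := congrArg Subtype.val h1
  have hodd : Odd q := by
    rw [← hq]
    exact Nat.odd_iff.mpr (FiniteField.odd_card_of_char_ne_two h2)
  have hodd0 : Odd q₀ := by
    rw [hqk] at hodd
    by_contra h
    rw [Nat.not_odd_iff_even] at h
    exact (Nat.not_odd_iff_even.mpr (h.pow_of_ne_zero (by norm_num))) hodd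
  obtain ⟨t, ht⟩ := hodd0
  have h3 : q₀ ^ 2 / 2 = (q₀ - 1) * (t + 1) := by
    rw [ht]
    have : (2 * t + 1) ^ 2 = 2 * ((2 * t) * (t + 1)) + 1 := by ring
    rw [this]
    simp only [Nat.add_sub_cancel]
    omega
  rw [h3, pow_mul, h1', one_pow]

theorem geo (q₀ : ℕ) (h : Odd q₀) (k : ℕ) : ∃ t, q₀ ^ k = (q₀ - 1) * t + 1 ∧ Even (t + k) := by
  induction k with
  | zero => exact ⟨0, by simp, by simp⟩
  | succ k ih =>
    obtain ⟨t, ht, he⟩ := ih
    refine ⟨t + q₀ ^ k, ?_, ?_⟩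
    · obtain ⟨s, hs⟩ := h
      rw [pow_succ]
      have h1 : q₀ - 1 = 2 * s := by omega
      rw [h1] at ht ⊢
      rw [hs] at ht ⊢
      nlinarith [ht]
    · have h1 : Odd (q₀ ^ k) := h.pow
      have h2 : t + q₀ ^ k + (k + 1) = (t + k) + (q₀ ^ k + 1) := by ring
      rw [h2]
      exact he.add (h1.add_odd odd_one)

theorem sq_odd (F₀ : Subfield F) {q q₀ k : ℕ} (hq : Fintype.card F = q) (hF₀ : Nat.card F₀ = q₀) (hqk : q = q₀ ^ k) (hk : Odd k)
    (h2 : ringChar F ≠ 2) (h2' : ringChar F₀ ≠ 2) : ∀ D : F, D ≠ 0 → ∃ c ∈ F₀, ∃ s : F, c * (s * s) = D := by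
  classical
  intro D hD
  haveI : Fintype F₀ := Fintype.ofFinite F₀
  have hF₀' : Fintype.card F₀ = q₀ := by rw [← hF₀, Nat.card_eq_fintype_card]
  by_cases hsq : IsSquare D
  · obtain ⟨s, hs⟩ := hsq
    exact ⟨1, F₀.one_mem, s, by rw [one_mul, hs]⟩
  obtain ⟨c, hc⟩ := FiniteField.exists_nonsquare h2'
  have hc0 : c ≠ 0 := by
    rintro rfl
    exact hc ⟨0, by simp⟩
  have hc1 : c ^ (Fintype.card F₀ / 2) = -1 :=
    (FiniteField.pow_dichotomy h2' hc0).resolve_left (fun h => hc ((FiniteField.isSquare_iff h2' hc0).mpr h))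
  have hodd0 : Odd q₀ := by
    rw [← hF₀']
    exact Nat.odd_iff.mpr (FiniteField.odd_card_of_char_ne_two h2')
  obtain ⟨t, ht, hte⟩ := geo q₀ hodd0 k
  have hto : Odd t := by
    by_contra h
    rw [Nat.not_odd_iff_even] at h
    have := (Nat.even_add.mp hte).mp h
    exact (Nat.not_even_iff_odd.mpr hk) this
  obtain ⟨s, hs⟩ := hodd0
  have hexp : q / 2 = (q₀ / 2) * t := by
    rw [hqk, ht]
    have h1 : q₀ - 1 = 2 * s := by omega
    have h2 : q₀ / 2 = s := by omega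
    rw [h1, h2]
    have : 2 * s * t + 1 = 2 * (s * t) + 1 := by ring
    rw [this]
    omega
  have hcF0 : (c : F) ≠ 0 := fun h => hc0 (Subtype.ext h)
  have hcF : (c : F) ^ (Fintype.card F / 2) = -1 := by
    rw [hq, hexp, pow_mul]
    have h1 : (c : F) ^ (q₀ / 2) = -1 := by
      rw [← hF₀']
      exact congrArg Subtype.val hc1
    rw [h1]
    exact hto.neg_one_pow
  have hDF : D ^ (Fintype.card F / 2) = -1 :=
    (FiniteField.pow_dichotomy h2 hD).resolve_left (fun h => hsq ((FiniteField.isSquare_iff h2 hD).mpr h))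
  have hprod : IsSquare (D * (c : F)) := by
    rw [FiniteField.isSquare_iff h2 (mul_ne_zero hD hcF0), mul_pow, hcF, hDF]
    norm_num
  obtain ⟨u, hu⟩ := hprod
  refine ⟨c, c.2, u / c, ?_⟩
  have : (c : F) * (u / c * (u / c)) = (u * u) / c := by field_simp
  rw [this, ← hu]
  field_simp

end squares

end Cfsg.Agent.H25.SubfMem
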