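import Mathlib

set_option autoImplicit false

namespace Cfsg.Agent.H25

open MulAction Subgroup Subgroup.leftTransversals
open scoped Pointwise

variable {G : Type*} [Group G] [Finite G] {A : Type*} [CommGroup A]

/-- The subgroup `{d ∈ P | r⁻¹ d r ∈ P}` of `P`. -/
def conjInf (P : Subgroup G) (r : G) : Subgroup P :=
  (P.comap (MulAut.conj r⁻¹).toMonoidHom).subgroupOf P

omit [Finite G] in
theorem mem_conjInf {P : Subgroup G} {r : G} {d : P} : d ∈ conjInf P r ↔ r⁻¹ * d * r ∈ P := by
  rw [conjInf, Subgroup.mem_subgroupOf, Subgroup.mem_comap]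
  simp

/-- The twisted homomorphism `d ↦ ϕ (r⁻¹ d r)`. -/
def twist {P : Subgroup G} (ϕ : P →* A) (r : G) : conjInf P r →* A :=
  ϕ.comp ((((MulAut.conj r⁻¹).toMonoidHom.comp P.subtype).comp (conjInf P r).subtype).codRestrict P
    (fun d => by
      have := mem_conjInf.1 d.2
      simpa using this))

omit [Finite G] in
theorem twist_apply {P : Subgroup G} (ϕ : P →* A) (r : G) (d : conjInf P r) :
    twist ϕ r d = ϕ ⟨r⁻¹ * ((d : P) : G) * r, mem_conjInf.1 d.2⟩ := by
  unfold twist
  rw [MonoidHom.comp_apply]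
  congr 1
  apply Subtype.ext
  simp

/-- Per-orbit evaluation. -/
theorem prod_twist {P : Subgroup G} (ϕ : P →* A) (r : G)
    (hϕ : ∀ d : conjInf P r, (d : P) ∈ commutator P → twist ϕ r d = 1)
    {ι : Type*} (s : Finset ι) (d : ι → conjInf P r) (x : conjInf P r)
    (hx : ∏ i ∈ s, Abelianization.of (d i : P) = Abelianization.of (x : P)) :
    ∏ i ∈ s, twist ϕ r (d i) = twist ϕ r x := by
  set w : conjInf P r := (s.toList.map d).prod with hw
  have h1 : twist ϕ r w = ∏ i ∈ s, twist ϕ r (d i) := by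
    rw [hw, map_list_prod, List.map_map, ← Finset.prod_map_toList]
    rfl
  have h2 : Abelianization.of (w : P) = ∏ i ∈ s, Abelianization.of (d i : P) := by
    have : Abelianization.of (w : P) = (Abelianization.of.comp (conjInf P r).subtype) w := rfl
    rw [this, hw, map_list_prod, List.map_map, ← Finset.prod_map_toList]
    rfl
  rw [← h1]
  have h3 : ((w * x⁻¹ : conjInf P r) : P) ∈ commutator P := by
    rw [← Abelianization.ker_of, MonoidHom.mem_ker]
    push_cast
    rw [map_mul, map_inv, h2, hx, mul_inv_cancel]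
  have h4 := hϕ _ h3
  rw [map_mul, map_inv, mul_inv_eq_one] at h4
  exact h4

/-- representative of a `P`-orbit on `G ⧸ P` -/
noncomputable def orbRep (P : Subgroup G) (o : orbitRel.Quotient P (G ⧸ P)) : G :=
  (Quotient.out o : G ⧸ P).out

omit [Finite G] in
theorem orbRep_coe (P : Subgroup G) (o : orbitRel.Quotient P (G ⧸ P)) :
    ((orbRep P o : G) : G ⧸ P) = Quotient.out o := Quotient.out_eq' _

omit [Finite G] in
theorem exists_smul_out (P : Subgroup G) (q : G ⧸ P) :
    ∃ u : P, u • (Quotient.out (Quotient.mk'' q : orbitRel.Quotient P (G ⧸ P)) : G ⧸ P) = q := by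
  have h : (orbitRel P (G ⧸ P)).r (Quotient.out (Quotient.mk'' q : orbitRel.Quotient P (G ⧸ P))) q :=
    Quotient.mk_out (s := orbitRel P (G ⧸ P)) q
  have h2 := (orbitRel P (G ⧸ P)).symm h
  exact orbitRel_apply.1 h2

/-- **Mackey form of the transfer** for elements of `P`. -/
theorem transfer_mackey (P : Subgroup G) (ϕ : P →* A) (x : P)
    [Fintype (orbitRel.Quotient P (G ⧸ P))]
    (hϕ : ∀ r : G, ∀ d : conjInf P r, (d : P) ∈ commutator P → twist ϕ r d = 1)
    (hx : ∀ o : orbitRel.Quotient P (G ⧸ P),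
      x ^ Nat.card {q : G ⧸ P // (Quotient.mk'' q : orbitRel.Quotient P (G ⧸ P)) = o} ∈
        conjInf P (orbRep P o)) :
    MonoidHom.transfer ϕ (x : G) =
      ∏ o : orbitRel.Quotient P (G ⧸ P), twist ϕ (orbRep P o) ⟨_, hx o⟩ := by
  classical
  choose u hu using exists_smul_out P
  let τ : G ⧸ P → G := fun q => (u q : G) * orbRep P (Quotient.mk'' q)
  have hτ : ∀ q : G ⧸ P, (τ q : G ⧸ P) = q := by
    intro q
    have h1 : (τ q : G ⧸ P) = (u q : G) • ((orbRep P (Quotient.mk'' q) : G) : G ⧸ P) := rfl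
    rw [h1, orbRep_coe]
    exact hu q
  let T : P.LeftTransversal := ⟨Set.range τ, isComplement_range_left hτ⟩
  have hT : ∀ q, (T.2.leftQuotientEquiv q : G) = τ q := fun q =>
    IsComplement.leftQuotientEquiv_apply hτ q
  haveI : Fintype (G ⧸ P) := P.fintypeQuotientOfFiniteIndex
  have hmem : ∀ q : G ⧸ P, (τ q)⁻¹ * ((x : G) * τ ((x : G)⁻¹ • q)) ∈ P := by
    intro q
    rw [← QuotientGroup.eq, hτ]
    have h1 : (((x : G) * τ ((x : G)⁻¹ • q) : G) : G ⧸ P) = (x : G) • (τ ((x : G)⁻¹ • q) : G ⧸ P) := rfl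
    rw [h1, hτ, smul_inv_smul]
  have h1 : MonoidHom.transfer ϕ (x : G) = ∏ q : G ⧸ P, ϕ ⟨_, hmem q⟩ := by
    rw [MonoidHom.transfer_def ϕ T]
    unfold diff
    apply Finset.prod_congr
    · congr!
    · intro q _
      congr 1
      apply Subtype.ext
      show ((T.2.leftQuotientEquiv q : G))⁻¹ * _ = _
      rw [smul_apply_eq_smul_apply_inv_smul, hT, hT]
      rfl
  rw [h1, ← Finset.prod_fiberwise (s := Finset.univ)
    (g := fun q : G ⧸ P => (Quotient.mk'' q : orbitRel.Quotient P (G ⧸ P)))]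
  apply Finset.prod_congr rfl
  intro o _
  have hxq : ∀ q : G ⧸ P, (Quotient.mk'' ((x : G)⁻¹ • q) : orbitRel.Quotient P (G ⧸ P)) =
      Quotient.mk'' q := by
    intro q
    apply Quotient.sound'
    exact ⟨x⁻¹, rfl⟩
  have hsub : ∏ q ∈ Finset.univ.filter
      (fun q : G ⧸ P => (Quotient.mk'' q : orbitRel.Quotient P (G ⧸ P)) = o), ϕ ⟨_, hmem q⟩ =
      ∏ q : {q : G ⧸ P // (Quotient.mk'' q : orbitRel.Quotient P (G ⧸ P)) = o}, ϕ ⟨_, hmem q.1⟩ := by
    apply Finset.prod_subtype
    intro q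
    simp
  rw [hsub]
  have hd : ∀ q : {q : G ⧸ P // (Quotient.mk'' q : orbitRel.Quotient P (G ⧸ P)) = o},
      (u q.1)⁻¹ * x * u ((x : G)⁻¹ • q.1) ∈ conjInf P (orbRep P o) := by
    rintro ⟨q, hq⟩
    rw [mem_conjInf]
    have := hmem q
    simp only [τ, hxq, hq] at this
    convert this using 1
    push_cast
    group
  let d : {q : G ⧸ P // (Quotient.mk'' q : orbitRel.Quotient P (G ⧸ P)) = o} →
    conjInf P (orbRep P o) := fun q => ⟨_, hd q⟩
  rw [← prod_twist ϕ (orbRep P o) (hϕ _) Finset.univ d]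
  · apply Finset.prod_congr rfl
    rintro ⟨q, hq⟩ _
    rw [twist_apply]
    congr 1
    apply Subtype.ext
    simp only [τ, hxq, hq, d]
    push_cast
    group
  · -- the abelianization computation
    let σ : Equiv.Perm {q : G ⧸ P // (Quotient.mk'' q : orbitRel.Quotient P (G ⧸ P)) = o} :=
      { toFun := fun q => ⟨(x : G)⁻¹ • q.1, (hxq q.1).trans q.2⟩
        invFun := fun q => ⟨(x : G) • q.1, by
          rw [← hxq, inv_smul_smul]; exact q.2⟩
        left_inv := fun q => Subtype.ext (smul_inv_smul _ _)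
        right_inv := fun q => Subtype.ext (inv_smul_smul _ _) }
    have e1 : ∀ q, Abelianization.of (d q : P) =
        (Abelianization.of (u q.1))⁻¹ * Abelianization.of x * Abelianization.of (u (σ q).1) := by
      intro q
      simp only [d, map_mul, map_inv]
      rfl
    rw [Finset.prod_congr rfl (fun q _ => e1 q), Finset.prod_mul_distrib, Finset.prod_mul_distrib,
      Finset.prod_const, Equiv.prod_comp σ (fun q => Abelianization.of (u q.1)), Finset.prod_inv_distrib,
      Finset.card_univ, ← Nat.card_eq_fintype_card, map_pow]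
    rw [mul_comm (∏ x, _)⁻¹, inv_mul_cancel_right]

end Cfsg.Agent.H25
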